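import Mathlib
import Cfsg.Agent.Asch.OType

/-! Monomial matrices, subfield frames and fields of large degree. -/

set_option autoImplicit false

namespace Cfsg.Agent.Asch

open Matrix Cfsg.Geo Cfsg.Agent.Herm Module
open scoped MatrixGroups Kronecker commutatorElement

variable {ι κ : Type} [Fintype ι] [DecidableEq ι] [Fintype κ] [DecidableEq κ] {F : Type*} [Field F]
variable {α τ : Type} [Fintype α] [DecidableEq α] [Fintype τ] [DecidableEq τ]

local notation "idF" => RingHom.id _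

/-- At most one non-zero entry in each column. -/
def Mono (g : Matrix ι ι F) : Prop := ∀ j i i', g i j ≠ 0 → g i' j ≠ 0 → i = i'

omit [Fintype ι] [DecidableEq ι] in
theorem mono_of_fun {g : Matrix ι ι F} (f : ι → ι) (h : ∀ i j, i ≠ f j → g i j = 0) : Mono g :=
  fun j i i' h1 h2 => (by_contra fun e => h1 (h _ _ e) : i = f j).trans
    (by_contra fun e => h2 (h _ _ e) : i' = f j).symm

omit [Fintype α] [DecidableEq α] [Fintype τ] in
theorem Mono.bm {a : τ → Matrix α α F} (h : ∀ i, Mono (a i)) (ρ : Equiv.Perm τ) : Mono (bm a ρ) := by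
  rintro ⟨y, j⟩ ⟨x, i⟩ ⟨x', i'⟩ h1 h2
  simp only [bm_apply, ne_eq, ite_eq_right_iff, Classical.not_imp] at h1 h2
  rw [h1.1, h2.1, h j y x x' h1.2 h2.2]

theorem Mono.wreath {a : τ → GL α F} (h : ∀ i, Mono (a i).1) (ρ : Equiv.Perm τ) :
    Mono (ptG a * fpG α F ρ).1 := fun y x x' h1 h2 => by
  rw [Units.val_mul, fpG_coe, mul_fp, ptG_coe, pt_apply, Finset.prod_ne_zero_iff] at h1 h2
  exact funext fun i => h i _ _ _ (h1 i (Finset.mem_univ _)) (h2 i (Finset.mem_univ _))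

omit [Fintype ι] [DecidableEq ι] [Fintype κ] [DecidableEq κ] in
theorem Mono.of_submatrix {g : Matrix κ κ F} (e : ι ≃ κ) (h : Mono (g.submatrix e e)) : Mono g :=
  fun j i i' h1 h2 => e.symm.injective (h (e.symm j) _ _ (by simpa) (by simpa))

theorem Mono.norm {σ : F →+* F} {c : Fˣ} {g : GL ι F} (h : Mono g.1) (hg : g ∈ Iso σ (sc ι c).1)
    {i j : ι} (h0 : g.1 i j ≠ 0) : g.1 i j * σ (g.1 i j) = 1 := by
  have := congrFun (congrFun (mem_Iso.1 hg) j) j
  simp only [cg, sc_coe, mul_smul_comm, mul_one, Matrix.smul_apply, one_apply_eq,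
    smul_eq_mul, mul_apply, transpose_apply, map_apply] at this
  rw [Finset.sum_eq_single i (fun k _ hk => by
    simp [(by_contra fun e => hk (h j k i e h0) : g.1 k j = 0)]) (by simp)] at this
  exact mul_left_cancel₀ c.ne_zero (by rw [← mul_assoc, mul_one]; simpa using this)

theorem exists_perm_of_fun [Nonempty α] (g : GL (α × τ) F) (f : τ → τ)
    (h : ∀ x y, x.2 ≠ f y.2 → g.1 x y = 0) :
    ∃ ρ : Equiv.Perm τ, ∀ x y : α × τ, x.2 ≠ ρ y.2 → g.1 x y = 0 := by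
  refine ⟨Equiv.ofBijective f (Finite.surjective_iff_bijective.1 fun i => ?_), h⟩
  by_contra hi
  obtain ⟨a⟩ := ‹Nonempty α›
  have := congrFun (congrFun g.mul_inv (a, i)) (a, i)
  rw [mul_apply, Finset.sum_eq_zero fun y _ => by
    rw [h _ y fun e => hi ⟨_, e.symm⟩, zero_mul]] at this
  simp at this

theorem le_decomp_of_fun [Nonempty α] {t : ℕ} {D : Fin t → Submodule F (ι → F)}
    {e : ι ≃ α × Fin t} {P : GL ι F} (h : DFrame D e P) {H : Subgroup (GL ι F)}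
    (hH : ∀ g, frG e P g ∈ H → ∃ f : Fin t → Fin t, ∀ x y, x.2 ≠ f y.2 → g.1 x y = 0) :
    H ≤ decompositionStabilizer D :=
  le_decomp_of_frame h fun g hg => (hH g hg).elim (exists_perm_of_fun g)

theorem frG_trans' (e : ι ≃ κ) (P : GL ι F) {κ' : Type} [Fintype κ'] [DecidableEq κ'] (e' : κ ≃ κ')
    (g : GL κ' F) : frG (e.trans e') P g = frG e P (frG e' 1 g) := by
  simpa using frG_trans e P e' 1 g

theorem pull_trans' (σ : F →+* F) (e : ι ≃ κ) (P J : GL ι F) {κ' : Type} [Fintype κ']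
    [DecidableEq κ'] (e' : κ ≃ κ') : pull σ (e.trans e') P J = pull σ e' 1 (pull σ e P J) := by
  simpa using pull_trans σ e P J e' 1

theorem pull_sc (σ : F →+* F) (e : ι ≃ κ) (c : Fˣ) : pull σ e 1 (sc ι c) = sc κ c :=
  Units.ext (by rw [pull_one_coe, sc_coe, sc_coe, submatrix_smul]; simp)

/-- A frame of one-dimensional subspaces. -/
theorem exists_mono_frame (e : ι ≃ κ) (P : GL ι F) {H : Subgroup (GL ι F)}
    (hm : ∀ g, frG e P g ∈ H → Mono g.1) :
    ∃ (e' : κ ≃ Fin 1 × Fin (Fintype.card κ)) (D : _), DFrame D (e.trans e') P ∧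
      H ≤ decompositionStabilizer D := by
  let e' : κ ≃ Fin 1 × Fin (Fintype.card κ) :=
    (Fintype.equivFin κ).trans (Equiv.uniqueProd _ _).symm
  obtain ⟨D, hD⟩ := exists_D (e.trans e') P
  refine ⟨e', D, hD, le_decomp_of_fun hD fun g hg => ?_⟩
  obtain ⟨ρ, hρ⟩ := exists_perm_of_cols (Mono.of_submatrix e'
    (frG_one_coe e' g ▸ hm _ (frG_trans' e P e' g ▸ hg)))
  refine ⟨fun i => (ρ (0, i)).2, fun x ⟨y, j⟩ hxy => hρ _ _ fun e => hxy ?_⟩
  rw [e, Subsingleton.elim y 0]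

theorem mem_subfield_of_entries {F₀ : Subfield F} (e : ι ≃ κ) (P : GL ι F) {g : GL κ F} (a : Fˣ)
    (h : ∀ x y, a * g.1 x y ∈ F₀) : frG e P g ∈ subfieldSubgroup F₀ P := by
  let A : Matrix ι ι F₀ := of fun i j => ⟨_, h (e i) (e j)⟩
  have h3 : A.map F₀.subtype = (sc ι a * frG e 1 g).1 := by
    ext i j; simp [A, sc_coe, frG_one_coe]
  have h4 : A.det ≠ 0 := fun e' => (isUnits_det_units (sc ι a * frG e 1 g)).ne_zero (by
    rw [← h3, ← RingHom.mapMatrix_apply, ← RingHom.map_det, e', map_zero])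
  refine mem_subfieldSubgroup.2 ⟨GeneralLinearGroup.mkOfDetNeZero A h4, a⁻¹, ?_⟩
  rw [show GeneralLinearGroup.map F₀.subtype (GeneralLinearGroup.mkOfDetNeZero A h4) = _ from
    Units.ext h3, sc_comm, mul_assoc _ (sc ι a), ← map_mul, mul_inv_cancel, map_one, mul_one]
  simp [frG]

theorem exists_aut_of_not_prime [Fintype F] (h : ¬ (Fintype.card F).Prime) :
    ∃ ψ : F ≃+* F, (orderOf ψ).Prime := by
  have hp := CharP.char_is_prime F (ringChar F)
  obtain ⟨ψ, h1, -⟩ := exists_aut_of_subfield (F := F) (F₀ := ⊥) fun e => h (by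
    have := Fact.mk hp
    rw [← Nat.card_eq_fintype_card, ← Nat.card_congr Subfield.topEquiv.toEquiv, ← e,
      Subfield.card_bot F (ringChar F)]
    exact hp)
  exact ⟨ψ, h1⟩

/-! ### Algebras closed under adjoints -/

section Alg

variable {J : GL ι F} {ε : F} {σ : F →+* F}

theorem PES.es_two (hn : 2 ≤ Fintype.card ι) {r : ℕ} (hr : r.Prime)
    {N : Subgroup (GL ι F)} (h : PES r N) (hI : N ≤ Iso idF J.1) : ES 2 N := by
  have : Nonempty ι := Fintype.card_pos_iff.1 (by omega)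
  have hsc : ∀ c : Fˣ, sc ι c ∈ N → c ^ 2 = 1 := fun c hc =>
    Units.ext (by simpa [sq] using sc_mem_Iso.1 (hI hc))
  obtain rfl : r = 2 := by
    obtain ⟨x, hx, y, hy, hne⟩ := exists_noncomm h.span hn
    obtain ⟨c, hc⟩ := h.cz x hx y hy
    have h1 := hsc c (by
      rw [← mul_inv_eq_iff_eq_mul.2 hc]
      exact N.mul_mem (N.mul_mem hy hx) (N.inv_mem (N.mul_mem hx hy)))
    have h3 : c ≠ 1 := by rintro rfl; exact hne (by simpa using hc)
    have h4 := orderOf_eq_prime (hp := ⟨hr⟩) (pow_eq_one_of_comm hc (h.powZ x hx)) h3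
    rw [← h4, orderOf_eq_prime h1 h3]
  exact ⟨hr, h.span, h.cz, fun x hx => by
    obtain ⟨c, hc⟩ := mem_scalars_iff'.1 (h.powZ x hx)
    change x ^ (2 * 2) = 1
    rw [pow_mul, hc, ← map_pow, hsc c (hc ▸ N.pow_mem hx 2), map_one], h.powZ⟩

theorem Gram.two_dvd [Finite F] [Nonempty ι] (hJ : Gram idF ε J) {E : Subalgebra F (Matrix ι ι F)}
    (hc : ∀ x ∈ E, ∀ y ∈ E, x * y = y * x) (hi : ∀ x ∈ E, x ≠ 0 → ∃ y ∈ E, x * y = 1)
    (ha : AdjSt idF J E) (hn : ∃ k ∈ E, adj idF J k ≠ k) : 2 ∣ finrank F E := by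
  let := (isField_of hc hi).toField
  have : Finite E := Module.finite_of_finite F
  let τ : E →ₐ[F] E :=
    { toFun := fun x => ⟨adj idF J x, ha _ x.2⟩
      map_one' := Subtype.ext adj_one
      map_mul' := fun x y => Subtype.ext (by
        change adj idF J (x.1 * y.1) = adj idF J x * adj idF J y
        rw [adj_mul, hc _ (ha _ y.2) _ (ha _ x.2)])
      map_zero' := Subtype.ext adj_zero
      map_add' := fun x y => Subtype.ext (adj_add _ _)
      commutes' := fun c => Subtype.ext (by simp [Algebra.algebraMap_eq_smul_one, adj_smul, adj_one]) }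
  have h1 : τ.comp τ = AlgHom.id F E := AlgHom.ext fun x => Subtype.ext (hJ.adj_adj _)
  rw [← IsGalois.card_aut_eq_finrank, ← orderOf_eq_prime (x := AlgEquiv.ofAlgHom τ τ h1 h1) (p := 2)
    (AlgEquiv.ext fun x => Subtype.ext (hJ.adj_adj _)) fun e => by
      obtain ⟨k, hk, h⟩ := hn
      exact h (congrArg (fun f : E ≃ₐ[F] E => (f ⟨k, hk⟩).1) e)]
  exact orderOf_dvd_natCard _

theorem IsFieldSubalgebra.exists_sq [Fintype F] [Nonempty ι] (h2 : (2 : F) = 0) {r : ℕ}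
    (hr : r ≠ 0) {K : Subalgebra F (Matrix ι ι F)} (hK : IsFieldSubalgebra r K)
    {k : Matrix ι ι F} (hk : k ∈ K) : ∃ j ∈ K, k = j * j := by
  obtain ⟨s, hs⟩ : Even (Fintype.card F ^ r) := (Nat.even_pow' hr).2 (by
    rw [← Nat.not_odd_iff_even, odd_card_iff]; simpa using h2)
  exact ⟨k ^ s, K.pow_mem hk s, by rw [← pow_add, ← hs, IsFieldSubalgebra.pow_card hK hk]⟩

/-- The orbit of a vector under a subalgebra. -/
def Kv (K : Subalgebra F (Matrix ι ι F)) (v : ι → F) : K →ₗ[F] (ι → F) where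
  toFun k := k.1 *ᵥ v
  map_add' _ _ := add_mulVec _ _ _
  map_smul' _ _ := smul_mulVec _ _ _

theorem exists_pair_basis {r : ℕ} {K : Subalgebra F (Matrix ι ι F)} (hK : IsFieldSubalgebra r K)
    (hr : r ≠ 0) (hn : Fintype.card ι = 2 * r) :
    ∃ v w : ι → F, ∀ x, ∃ a ∈ K, ∃ b ∈ K, x = a *ᵥ v + b *ᵥ w := by
  have : Nonempty ι := Fintype.card_pos_iff.1 (by omega)
  obtain ⟨v, hv⟩ := exists_ne (0 : ι → F)
  have h1 : finrank F (LinearMap.range (Kv K v)) ≤ r := hK.finrank_eq ▸ LinearMap.finrank_range_le _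
  obtain ⟨w, -, hw⟩ := SetLike.exists_of_lt (lt_top_iff_ne_top.2 fun e : LinearMap.range (Kv K v) = ⊤ => by
    rw [e] at h1; simp at h1; omega)
  have h2 : Function.Surjective ((Kv K v).coprod (Kv K w)) := by
    refine (LinearMap.injective_iff_surjective_of_finrank_eq_finrank (by
      simp [hK.finrank_eq]; omega)).1 ((injective_iff_map_eq_zero _).2 fun ⟨a, b⟩ h => ?_)
    change a.1 *ᵥ v + b.1 *ᵥ w = 0 at h
    have hb : b.1 = 0 := by
      by_contra hb
      obtain ⟨y, hy, e⟩ := hK.inv _ b.2 hb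
      refine hw ⟨-(⟨y, hy⟩ * a), ?_⟩
      change (-(y * a.1)) *ᵥ v = w
      rw [neg_mulVec, ← mulVec_mulVec, eq_neg_of_add_eq_zero_left h, mulVec_neg, neg_neg,
        mulVec_mulVec, hK.comm _ hy _ b.2, e, one_mulVec]
    rw [hb, zero_mulVec, add_zero] at h
    exact Prod.ext (Subtype.ext (IsFieldSubalgebra.eq_zero hK a.2 hv h)) (Subtype.ext hb)
  exact ⟨v, w, fun x => by obtain ⟨⟨a, b⟩, rfl⟩ := h2 x; exact ⟨_, a.2, _, b.2, rfl⟩⟩

/-- The elements commuting with `K` that are alternating over `K`. -/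
def altS (J : GL ι F) (K : Subalgebra F (Matrix ι ι F)) : Submodule F (Matrix ι ι F) where
  carrier := {z | (∀ k ∈ K, k * z = z * k) ∧ ∀ k ∈ K, ∀ v, bf idF J.1 ((k * z) *ᵥ v) v = 0}
  add_mem' ha hb := ⟨fun k hk => by rw [mul_add, add_mul, ha.1 k hk, hb.1 k hk], fun k hk v => by
    rw [mul_add, add_mulVec, bf_add_left, ha.2 k hk, hb.2 k hk, add_zero]⟩
  zero_mem' := ⟨by simp, fun k _ v => by simp [bf_zero_left]⟩
  smul_mem' c z hz := ⟨fun k hk => by rw [mul_smul_comm, smul_mul_assoc, hz.1 k hk], fun k hk v => by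
    rw [mul_smul_comm, smul_mulVec, bf_smul_left, hz.2 k hk, mul_zero]⟩

theorem altS_eq {r : ℕ} {K : Subalgebra F (Matrix ι ι F)} (hJ : Gram idF ε J)
    (hK : IsFieldSubalgebra r K) (ha : ∀ k ∈ K, adj idF J k = k) (hr : r ≠ 0)
    (hn : Fintype.card ι = 2 * r) {s z : Matrix ι ι F} (hs : s ∈ altS J K) (h0 : s ≠ 0)
    (hz : z ∈ altS J K) : ∃ k ∈ K, z = k * s := by
  obtain ⟨v, w, hvw⟩ := exists_pair_basis hK hr hn
  let φ : altS J K →ₗ[F] Dual F K :=
    { toFun := fun z =>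
        { toFun := fun k => bf idF J.1 ((k.1 * z.1) *ᵥ v) w
          map_add' := fun a b => by simp [add_mul, add_mulVec, bf_add_left]
          map_smul' := fun c a => by simp [smul_mulVec, bf_smul_left] }
      map_add' := fun a b => by ext; simp [mul_add, add_mulVec, bf_add_left]
      map_smul' := fun c a => by ext; simp [smul_mulVec, bf_smul_left] }
  have hφ : Function.Injective φ := (injective_iff_map_eq_zero _).2 fun z hz => by
    have h1 : ∀ k ∈ K, bf idF J.1 ((k * z.1) *ᵥ v) w = 0 := fun k hk =>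
      LinearMap.congr_fun hz ⟨k, hk⟩
    have h2 : ∀ k ∈ K, bf idF J.1 ((k * z.1) *ᵥ w) v = 0 := fun k hk => by
      simpa [mulVec_add, bf_add_left, bf_add_right, z.2.2 k hk, h1 k hk] using z.2.2 k hk (v + w)
    have h3 : ∀ a ∈ K, ∀ b ∈ K, ∀ x y, bf idF J.1 (z.1 *ᵥ (a *ᵥ x)) (b *ᵥ y) =
        bf idF J.1 ((b * a * z.1) *ᵥ x) y := fun a ha' b hb x y => by
      rw [← hJ.bf_adj', ha b hb, mulVec_mulVec, mulVec_mulVec, mul_assoc b a, z.2.1 a ha', mul_assoc]
    refine Subtype.ext (mat_ext_mulVec fun x => ?_)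
    rw [Submodule.coe_zero, zero_mulVec]
    refine eq_zero_of_bf_right (σ := idF) J fun y => ?_
    obtain ⟨a, h4, b, h5, rfl⟩ := hvw x
    obtain ⟨c, h6, d, h7, rfl⟩ := hvw y
    simp only [mulVec_add, bf_add_left, bf_add_right, h3, h4, h5, h6, h7, h1, h2, z.2.2, K.mul_mem,
      add_zero]
  let ψ : K →ₗ[F] altS J K :=
    { toFun := fun k => ⟨k.1 * s, fun l hl => by
          rw [← mul_assoc, hK.comm l hl _ k.2, mul_assoc, hs.1 l hl, mul_assoc],
        fun l hl v => by rw [← mul_assoc, hs.2 _ (K.mul_mem hl k.2)]⟩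
      map_add' := fun a b => Subtype.ext (add_mul _ _ _)
      map_smul' := fun c a => Subtype.ext (smul_mul_assoc _ _ _) }
  have hψ : Function.Injective ψ := (injective_iff_map_eq_zero _).2 fun k hk => by
    by_contra h1
    obtain ⟨y, hy, e⟩ := hK.inv _ k.2 fun e => h1 (Subtype.ext e)
    have h2 : k.1 * s = 0 := congrArg Subtype.val hk
    exact h0 (by rw [← one_mul s, ← e, hK.comm _ k.2 _ hy, mul_assoc, h2, mul_zero])
  obtain ⟨k, hk⟩ := (LinearMap.injective_iff_surjective_of_finrank_eq_finrank (le_antisymm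
    (LinearMap.finrank_le_finrank_of_injective hψ) (by
      simpa using LinearMap.finrank_le_finrank_of_injective hφ))).1 hψ ⟨z, hz⟩
  exact ⟨k, k.2, (congrArg Subtype.val hk).symm⟩

/-- An invariant commutative algebra with an element that is not self-adjoint. -/
def CommNS (J : GL ι F) (H : Subgroup (GL ι F)) : Prop :=
  ∃ E : Subalgebra F (Matrix ι ι F), (∀ x ∈ E, ∀ y ∈ E, x * y = y * x) ∧ Inv H E ∧
    AdjSt idF J E ∧ ∃ k ∈ E, adj idF J k ≠ k

theorem commNS_of_set {H : Subgroup (GL ι F)} (S : Set (Matrix ι ι F))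
    (h1 : ∀ x ∈ S, ∀ y ∈ S, x * y = y * x) (h2 : ∀ g ∈ H, ∀ x ∈ S, cj g x ∈ S)
    (h3 : ∀ x ∈ S, adj idF J x ∈ S) (h4 : ∃ k ∈ S, adj idF J k ≠ k) : CommNS J H :=
  ⟨Algebra.adjoin F S, comm_adjoin h1, inv_adjoin fun g hg x hx => Algebra.subset_adjoin
    (h2 g hg x hx), adjSt_adjoin fun x hx => Algebra.subset_adjoin (h3 x hx),
    h4.imp fun _ h => ⟨Algebra.subset_adjoin h.1, h.2⟩⟩

omit [DecidableEq ι] in
theorem neg_ne_self_of (h2 : (2 : F) ≠ 0) {s : Matrix ι ι F} (h : s ≠ 0) : -s ≠ s := fun e =>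
  h ((smul_eq_zero.1 (by rw [two_smul]; exact neg_eq_iff_add_eq_zero.1 e)).resolve_left h2)

theorem commNS_of_two [Nonempty α] (h2 : (2 : F) ≠ 0) {H : Subgroup (GL ι F)}
    (hs : H ≤ similarityGroup (bf idF J.1)) {e : ι ≃ α × Fin 2} {P : GL ι F} (hk : TenF H e P)
    {J₁ : GL α F} {J₂ : GL (Fin 2) F} (hp : pull idF e P J = kG J₁ J₂) (hJ : Gram idF 1 J₂) :
    CommNS J H := by
  obtain ⟨s, h0, h1, h3⟩ := skew_two hJ h2
  have ha : adj idF J (fr e P (1 ⊗ₖ s)) = -fr e P (1 ⊗ₖ s) := by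
    rw [adj_fr hJ.inv, hp, adj_kG, adj_one, h1, ← neg_one_smul F s, kronecker_smul, map_smul,
      neg_one_smul]
  refine commNS_of_set (F ∙ fr e P (1 ⊗ₖ s)) ?_ ?_ ?_ ⟨_, Submodule.mem_span_singleton_self _, ?_⟩
  all_goals try simp only [SetLike.mem_coe, Submodule.mem_span_singleton]
  · rintro _ ⟨a, rfl⟩ _ ⟨b, rfl⟩; simp [smul_smul, mul_comm]
  · rintro g hg _ ⟨d, rfl⟩
    obtain ⟨a, b, rfl⟩ := hk g hg
    obtain ⟨c, hc⟩ := h3 (cj b s) (by
      rw [adj_cj hJ.inv (kG_mem_sim (hp ▸ (frG_mem_sim e P J _).1 (hs hg))).2, h1, map_neg])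
    exact ⟨d * c, by rw [map_smul, cj_frG, cj_kG, map_one, hc, kronecker_smul, map_smul, smul_smul]⟩
  · rintro _ ⟨d, rfl⟩
    exact ⟨-d, by simp [adj_smul, ha]⟩
  · rw [ha]
    refine neg_ne_self_of h2 ((map_ne_zero_iff _ (fr e P).injective).2 fun hc => h0 ?_)
    obtain ⟨a⟩ := ‹Nonempty α›
    exact Matrix.ext fun i j => by simpa using congrFun (congrFun hc (a, i)) (a, j)

theorem commNS_of_half [Fintype F] {Q : (ι → F) → F} (hQ : QJ Q J) {H : Subgroup (GL ι F)}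
    (hI : H ≤ isometryGroup F Q) {r : ℕ} {K : Subalgebra F (Matrix ι ι F)}
    (hK : IsFieldSubalgebra r K) (ha : ∀ k ∈ K, adj idF J k = k) (hH : Inv H K) (hr : r ≠ 0)
    (hn : Fintype.card ι = 2 * r) {x : GL ι F} (hx : x ∈ H) (hc : ∀ k ∈ K, k * x.1 = x.1 * k)
    (hx2 : (x⁻¹).1 ≠ x.1) : CommNS J H := by
  have : Nonempty ι := Fintype.card_pos_iff.1 (by omega)
  have hJ := hQ.gram
  have hI' := hI.trans hQ.le_Iso
  have hx' := adj_of_iso (fun _ => rfl) (hI' hx)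
  have hc' : ∀ k ∈ K, k * (x⁻¹).1 = (x⁻¹).1 * k := fun k hk => by
    rw [← hx', ← ha k hk, ← adj_mul, ← adj_mul, hc k hk]
  have hcj : ∀ g ∈ H, ∀ z, (∀ k ∈ K, k * z = z * k) → ∀ k ∈ K, k * cj g z = cj g z * k :=
    fun g hg z hz k hk => by
      rw [← cj_cj_inv g k, ← map_mul, ← map_mul, hz _ (hH _ (H.inv_mem hg) k hk)]
  have hadj : ∀ z, (∀ k ∈ K, k * z = z * k) → ∀ k ∈ K, k * adj idF J z = adj idF J z * k :=
    fun z hz k hk => by rw [← ha k hk, ← adj_mul, ← adj_mul, hz k hk]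
  have hb : ∀ g ∈ H, ∀ z v, bf idF J.1 (cj g z *ᵥ v) v =
      bf idF J.1 (z *ᵥ ((g⁻¹).1 *ᵥ v)) ((g⁻¹).1 *ᵥ v) := fun g hg z v => by
    rw [← mem_Iso'.1 (hI' hg) (z *ᵥ _), ← cj_mulVec, mulVec_inv_mulVec]
  by_cases h2 : (2 : F) = 0
  · have hneg : ∀ x : Matrix ι ι F, -x = x := fun x => by
      rw [← neg_one_smul F, neg_one_eq_one h2, one_smul]
    have hS : ∀ z, (∀ k ∈ K, k * z = z * k) → (∀ v, bf idF J.1 (z *ᵥ v) v = 0) → z ∈ altS J K :=
      fun z h1 h3 => ⟨h1, fun k hk v => by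
        obtain ⟨j, hj, rfl⟩ := IsFieldSubalgebra.exists_sq h2 hr hK hk
        rw [mul_assoc, h1 j hj, ← mulVec_mulVec, ← mulVec_mulVec, bf_adj fun _ => rfl, ha j hj, h3]⟩
    have hS' : ∀ z, (∀ k ∈ K, k * z = z * k) → (∀ v, bf idF J.1 (z *ᵥ v) v = 0) → z ∈ K :=
      fun z h1 h3 => by
        obtain ⟨k, hk, e⟩ := altS_eq hJ hK ha hr hn (hS 1 (by simp) fun v => by rw [one_mulVec]; exact hQ.alt h2 v)
          one_ne_zero (hS z h1 h3)
        rwa [e, mul_one]
    refine commNS_of_set {z | (∀ k ∈ K, k * z = z * k) ∧ ∀ v, bf idF J.1 (z *ᵥ v) v = Q v}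
      (fun z hz w hw => ?_) (fun g hg z hz => ⟨hcj g hg z hz.1, fun v => ?_⟩)
      (fun z hz => ⟨hadj z hz.1, fun v => ?_⟩) ?_
    · have := hw.1 _ (hS' (z - w) (fun k hk => by rw [mul_sub, sub_mul, hz.1 k hk, hw.1 k hk])
        fun v => by rw [sub_mulVec, bf_sub_left, hz.2, hw.2, sub_self])
      rwa [sub_mul, mul_sub, sub_left_inj] at this
    · rw [hb g hg, hz.2, mem_IQ.1 (hI (H.inv_mem hg))]
    · rw [hJ.bf_adj', hQ.symm, hz.2]
    · have h3 := hS' (x.1 + (x⁻¹).1) (fun k hk => by rw [mul_add, add_mul, hc k hk, hc' k hk])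
        fun v => by rw [add_mulVec, bf_add_left, ← hx', hJ.bf_adj', hQ.symm v, ← two_mul, h2, zero_mul]
      obtain ⟨y, hy, e⟩ := hK.inv _ h3 fun e => hx2 (by rw [eq_neg_of_add_eq_zero_right e, hneg])
      have h4 : (1 + x.1) * ((1 + (x⁻¹).1) * y) = 1 := by
        have : (1 + x.1) * (1 + (x⁻¹).1) = x.1 + (x⁻¹).1 := by
          rw [add_mul, mul_add, mul_add, Units.mul_inv, one_mul, one_mul, mul_one]
          linear_combination (norm := module) -hneg 1
        rw [← mul_assoc, this, e]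
      have h5 : ∀ v, bf idF J.1 (((1 + (x⁻¹).1) * y) *ᵥ v) v = Q v := fun v => by
        have h6 : v = (1 + x.1) *ᵥ (((1 + (x⁻¹).1) * y) *ᵥ v) := by
          rw [mulVec_mulVec, h4, one_mulVec]
        generalize ((1 + (x⁻¹).1) * y) *ᵥ v = w at h6
        rw [h6, add_mulVec, one_mulVec, hQ.add, bf_add_right, hQ.two, mem_IQ.1 (hI hx)]
        ring
      refine ⟨_, ⟨fun k hk => by rw [← mul_assoc, mul_add, hc' k hk, mul_one, add_mul, mul_assoc,
        hK.comm k hk y hy, add_mul, add_mul, one_mul, mul_assoc], h5⟩, fun e => ?_⟩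
      generalize (1 + (x⁻¹).1) * y = z at h5 e
      obtain ⟨u, hu⟩ := exists_ne (0 : ι → F)
      refine hu (eq_zero_of_bf_right (σ := idF) J fun v => ?_)
      have := h5 (u + v)
      rw [mulVec_add, bf_add_left, bf_add_right, bf_add_right, h5, h5, hQ.add, hQ.symm (z *ᵥ v),
        ← hJ.bf_adj', e] at this
      linear_combination -this + bf idF J.1 (z *ᵥ u) v * h2
  · have hS : ∀ z, z ∈ altS J K ↔ (∀ k ∈ K, k * z = z * k) ∧ adj idF J z = -z := fun z =>
      and_congr_right fun h1 => ⟨fun h3 => adj_eq_of_bf (fun _ => rfl) fun u v => by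
        have h4 : ∀ v, bf idF J.1 (z *ᵥ v) v = 0 := by simpa using h3 1 K.one_mem
        have := h4 (u + v)
        simp only [mulVec_add, bf_add_left, bf_add_right, h4] at this
        rw [neg_mulVec, ← neg_one_smul F, bf_smul_right, hQ.symm u]
        simp; linear_combination this, fun h3 k hk v => by
          have := hQ.symm ((k * z) *ᵥ v) v
          rw [← hJ.bf_adj', adj_mul, h3, ha k hk, neg_mul, ← h1 k hk, neg_mulVec, ← neg_one_smul F,
            bf_smul_left] at this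
          exact (mul_eq_zero.1 (by linear_combination this)).resolve_left h2⟩
    have h0 : x.1 - (x⁻¹).1 ≠ 0 := sub_ne_zero.2 hx2.symm
    have hs : x.1 - (x⁻¹).1 ∈ altS J K := (hS _).2 ⟨fun k hk => by
      rw [mul_sub, sub_mul, hc k hk, hc' k hk], by rw [← hx', adj_sub, hJ.adj_adj, neg_sub]⟩
    refine commNS_of_set (altS J K) (fun z hz w hw => ?_)
      (fun g hg z hz => (hS _).2 ⟨hcj g hg z hz.1, ?_⟩) (fun z hz => ?_) ⟨_, hs, ?_⟩
    · obtain ⟨a, h3, rfl⟩ := altS_eq hJ hK ha hr hn hs h0 hz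
      obtain ⟨b, h4, rfl⟩ := altS_eq hJ hK ha hr hn hs h0 hw
      rw [mul_assoc, ← mul_assoc _ b, ← hs.1 b h4, mul_assoc b, mul_assoc b, ← mul_assoc _ a,
        ← hs.1 a h3, ← mul_assoc, ← mul_assoc, ← mul_assoc, ← mul_assoc, hK.comm a h3 b h4]
    · rw [adj_cj (fun _ => rfl) (Iso_le_sim _ _ (hI' hg)), ((hS _).1 hz).2, map_neg]
    · rw [((hS _).1 hz).2]; exact neg_mem hz
    · rw [((hS _).1 hs).2]; exact neg_ne_self_of h2 h0

theorem not_perfect_two (h2 : (2 : F) ≠ 0) {J : GL (Fin 2) F} (hJ : Gram idF 1 J)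
    {K : Subgroup (GL (Fin 2) F)} (h1 : ⁅K, K⁆ = K) (h3 : spanA K = ⊤)
    (h4 : K ≤ similarityGroup (bf idF J.1)) : False := by
  obtain ⟨s, h0, h5, h6⟩ := skew_two hJ h2
  have h7 : ∀ x ∈ K, ∃ c : F, cj x s = c • s := fun x hx =>
    h6 _ (by rw [adj_cj hJ.inv (h4 hx), h5, map_neg])
  have h8 : K ≤ cenG {s} := h1 ▸ Subgroup.commutator_le.2 fun x hx y hy => by
    intro s' hs'
    rw [hs']
    obtain ⟨a, ha⟩ := h7 x hx
    obtain ⟨b, hb⟩ := h7 y hy
    have e : cj ⁅x, y⁆ (cj y (cj x s)) = cj x (cj y s) := by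
      rw [← cj_mul, ← cj_mul, ← cj_mul, commutatorElement_def]; congr 1; group
    have : cj y (cj x s) = (a * b) • s := by rw [ha, map_smul, hb, smul_smul]
    refine smul_right_injective _ (r := a * b) (fun e' => h0 ?_) ?_
    · simpa [e'] using this
    · simpa only [ha, hb, map_smul, smul_smul, mul_comm b a] using e
  obtain ⟨c, rfl⟩ := eq_smul_of_comm_span (spanA_eq_top_iff.1 h3) (M := s) (by
    rintro _ ⟨x, hx, rfl⟩; exact ((cj_eq_iff _ _ _).1 (h8 hx s rfl)).symm)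
  exact neg_ne_self_of h2 h0 (by rw [← h5, adj_smul, adj_one]; rfl)

theorem Alt.adj_two {J : GL (Fin 2) F} (h : Alt J.1) (x : Matrix (Fin 2) (Fin 2) F) :
    adj idF J x = !![x 1 1, -x 0 1; -x 1 0, x 0 0] := by
  obtain ⟨c, rfl⟩ := h.eq_om2
  rw [adj_eq_iff fun _ => rfl]
  ext i j; fin_cases i <;> fin_cases j <;> simp [om2, sc_coe, mul_apply] <;> ring

end Alg

end Cfsg.Agent.Asch
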