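import Mathlib
import Cfsg.Agent.Asch.OAux

/-! Subgroups of orthogonal groups: subspaces, decompositions and fields. -/

set_option autoImplicit false

namespace Cfsg.Agent.Asch

open Matrix Cfsg.Geo Cfsg.Agent.Herm Module
open scoped MatrixGroups Kronecker commutatorElement

variable {ι κ : Type} [Fintype ι] [DecidableEq ι] [Fintype κ] [DecidableEq κ] {F : Type*} [Field F]

local notation "idF" => RingHom.id _

/-- The geometric classes for an orthogonal group, without the members that lie in others. -/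
def OCls [Fintype F] (Q : (ι → F) → F) (J : GL ι F) (M : Subgroup (GL ι F)) : Prop :=
  (∃ W : Submodule F (ι → F), W ≠ ⊥ ∧ IsTotallySingularQuad Q W ∧ M = subspaceStabilizer W) ∨
  (∃ W : Submodule F (ι → F), W ≠ ⊥ ∧ IsNondegenerateOn (bf idF J.1) W ∧
    2 * finrank F W ≤ Fintype.card ι ∧
    (2 * finrank F W = Fintype.card ι → ¬ AreIsometricFor Q W (perp idF J.1 W)) ∧
    M = subspaceStabilizer W) ∨
  (∃ v, ¬ Odd (Fintype.card F) ∧ Q v ≠ 0 ∧ M = subspaceStabilizer (Submodule.span F {v})) ∨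
  (∃ (t : ℕ) (D : Fin t → Submodule F (ι → F)), (Fintype.card F).Prime ∧ Odd (Fintype.card F) ∧
    IsOrthogonalMDecomposition Q 1 D ∧ M = decompositionStabilizer D) ∨
  (∃ (t k : ℕ) (D : Fin t → Submodule F (ι → F)), 2 ≤ k ∧ IsOrthogonalMDecomposition Q k D ∧
    (k = 2 → (∀ i, IsPlusTypeOn Q (D i)) → 7 ≤ Fintype.card F) ∧
    (k = 2 → (∀ i, ¬ IsPlusTypeOn Q (D i)) → Fintype.card F ≠ 3) ∧
    (k = 3 → Fintype.card F ≠ 3) ∧
    (k = 4 → Fintype.card F = 2 → ∀ i, ¬ IsPlusTypeOn Q (D i)) ∧ M = decompositionStabilizer D) ∨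
  (∃ (k : ℕ) (D : Fin 2 → Submodule F (ι → F)), IsMDecomposition k D ∧
    (∀ i, IsTotallySingularQuad Q (D i)) ∧ M = decompositionStabilizer D) ∨
  (∃ (r : ℕ) (K : Subalgebra F (Matrix ι ι F)), r.Prime ∧ IsFieldSubalgebra r K ∧
    IsSelfAdjointFor (bf idF J.1) K ∧ Fintype.card ι ≠ r ∧ Fintype.card ι ≠ 2 * r ∧
    (¬ Odd (Fintype.card F) → 2 * r ∣ Fintype.card ι) ∧ M = subalgebraNormalizer K) ∨
  (∃ K : Subalgebra F (Matrix ι ι F), IsFieldSubalgebra 2 K ∧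
    IsAdjointClosedFor (bf idF J.1) K ∧ ¬ IsSelfAdjointFor (bf idF J.1) K ∧
    (∀ k ∈ K, ∃ c : F, ∀ v, Q (k *ᵥ v) = c * Q v) ∧ M = subalgebraNormalizer K) ∨
  (∃ (n₁ n₂ : ℕ) (e : ι ≃ Fin n₁ × Fin n₂) (P : GL ι F) (f₁ : (Fin n₁ → F) → (Fin n₁ → F) → F)
    (f₂ : (Fin n₂ → F) → (Fin n₂ → F) → F), Odd (Fintype.card F) ∧ 3 ≤ n₁ ∧ n₁ ≤ n₂ ∧
    (n₁ = n₂ → Even n₁) ∧ ¬ (Fintype.card F = 3 ∧ n₁ = 3) ∧
    (n₁ = 3 → n₂ = 4 → ¬ IsPlusTypeOn (fun v => f₂ v v) ⊤ ∧ ¬ IsPlusTypeOn Q ⊤) ∧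
    IsSymmetricForm f₁ ∧ IsSymmetricForm f₂ ∧ IsTensorFormStructure id (bf idF J.1) f₁ f₂ e P ∧
    M = tensorProductSubgroup n₁ n₂ e P) ∨
  (∃ (n₁ n₂ : ℕ) (e : ι ≃ Fin n₁ × Fin n₂) (P : GL ι F) (f₁ : (Fin n₁ → F) → (Fin n₁ → F) → F)
    (f₂ : (Fin n₂ → F) → (Fin n₂ → F) → F), 2 ≤ n₁ ∧ n₁ ≤ n₂ ∧ Even n₁ ∧ Even n₂ ∧
    ¬ (Fintype.card F = 2 ∧ n₁ = 2) ∧ (n₁ = 2 → IsPlusTypeOn Q ⊤) ∧
    IsSymplecticForm f₁ ∧ IsSymplecticForm f₂ ∧ IsTensorFormStructure id (bf idF J.1) f₁ f₂ e P ∧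
    (∀ (x₁ : Fin n₁ → F) (x₂ : Fin n₂ → F),
      Q (P.1 *ᵥ ((fun a : Fin n₁ × Fin n₂ => x₁ a.1 * x₂ a.2) ∘ e)) = 0) ∧
    M = tensorProductSubgroup n₁ n₂ e P) ∨
  (∃ (F₀ : Subfield F) (r : ℕ) (P : GL ι F) (ζ : F), r.Prime ∧ Fintype.card F = Nat.card F₀ ^ r ∧
    ζ ≠ 0 ∧ IsQuadFormRationalStructure (fun v => ζ * Q v) F₀ P ∧ M = subfieldSubgroup F₀ P) ∨
  (∃ (k t : ℕ) (e : ι ≃ (Fin t → Fin k)) (P : GL ι F) (f₁ : (Fin k → F) → (Fin k → F) → F),
    Odd (Fintype.card F) ∧ 3 ≤ k ∧ 2 ≤ t ∧ ¬ (Fintype.card F = 3 ∧ k = 3) ∧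
    IsSymmetricForm f₁ ∧ IsTensorPowerFormStructure id (bf idF J.1) f₁ e P ∧
    M = tensorWreathSubgroup k t e P)

/-- `H` lies in a geometric subgroup, or the dimension is a power of an even number. -/
def OOut [Fintype F] (Q : (ι → F) → F) (J : GL ι F) (H : Subgroup (GL ι F)) : Prop :=
  (∃ M, OCls Q J M ∧ H ≤ M) ∨
    ∃ k t : ℕ, Even k ∧ 2 ≤ t ∧ Fintype.card ι = k ^ t ∧ (k = 2 → IsPlusTypeOn Q ⊤)

/-- `H` consists of isometries of determinant one. -/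
structure OH (Q : (ι → F) → F) (J : GL ι F) (H : Subgroup (GL ι F)) : Prop where
  qj : QJ Q J
  iso : H ≤ isometryGroup F Q
  sl : H ≤ specialLinear ι F
  five : 5 ≤ Fintype.card ι

section Models

variable {α : Type} [Fintype α] [DecidableEq α] {t : ℕ}

theorem QJ.bm {Q₀ : (α → F) → F} {J₀ : GL α F} (h : QJ Q₀ J₀) (t : ℕ) :
    QJ (fun x : α × Fin t → F => ∑ i, Q₀ fun a => x (a, i)) (bmG (fun _ => J₀) 1) :=
  ⟨fun c v => by rw [Finset.mul_sum]; exact Finset.sum_congr rfl fun i _ => h.smul c _,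
    fun u v => by
      rw [bmG_coe, bf_bm, ← Finset.sum_add_distrib, ← Finset.sum_add_distrib]
      exact Finset.sum_congr rfl fun i _ => h.add _ _⟩

theorem QJ.sum_blk {Q₀ : (α → F) → F} {J₀ : GL α F} (h : QJ Q₀ J₀) (i : Fin t) (u : α → F) :
    (∑ j, Q₀ fun a => blk i u (a, j)) = Q₀ u := by
  rw [Finset.sum_eq_single i (fun j _ hj => by rw [blk_ne hj, h.zero]) (by simp), blk_self]

theorem QFrame.of_two_ne (h2 : (2 : F) ≠ 0) {Q : (ι → F) → F} {J : GL ι F} (h : QJ Q J)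
    {Q₀ : (α → F) → F} {J₀ : GL α F} (h₀ : QJ Q₀ J₀) {D : Fin t → Submodule F (ι → F)}
    {e : ι ≃ α × Fin t} {P : GL ι F} (hD : DFrame D e P)
    (hp : Asch.pull idF e P J = bmG (fun _ => J₀) 1) : QFrame Q J D e P Q₀ J₀ :=
  ⟨hD, hp, fun i u => by rw [(h.pq e P).eq_of_two_ne (hp ▸ h₀.bm t) h2, h₀.sum_blk]⟩

/-- The hyperbolic plane. -/
def hyG (F : Type*) [Field F] : GL (Fin 2) F :=
  ⟨!![0, 1; 1, 0], !![0, 1; 1, 0], by ext i j; fin_cases i <;> fin_cases j <;> simp,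
    by ext i j; fin_cases i <;> fin_cases j <;> simp⟩

theorem qj_hy : QJ (fun x : Fin 2 → F => x 0 * x 1) (hyG F) :=
  ⟨fun c v => by simp; ring, fun u v => by simp [bf, hyG, dotProduct, mulVec]; ring⟩

theorem plus_hy : IsPlusTypeOn (fun x : Fin 2 → F => x 0 * x 1) ⊤ :=
  qj_hy.plus_of_coords {0} rfl (by simp) (by simp [hyG])

theorem qj_nm (h2 : (2 : F) = 0) :
    QJ (fun x : Fin 2 → F => x 0 ^ 2 + x 0 * x 1 + x 1 ^ 2) (hyG F) :=
  ⟨fun c v => by simp; ring, fun u v => by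
    simp [bf, hyG, dotProduct, mulVec]; linear_combination (u 0 * v 0 + u 1 * v 1) * h2⟩

theorem plus_two_iff {Q : (Fin 2 → F) → F} {J : GL (Fin 2) F} (h : QJ Q J) :
    IsPlusTypeOn Q ⊤ ↔ ∃ v, v ≠ 0 ∧ Q v = 0 := by
  refine ⟨fun ⟨U, _, h1, h2⟩ => ?_, fun ⟨v, h1, h2⟩ => QJ.plus_of_ts (W := F ∙ v) ?_ ?_⟩
  · obtain ⟨v, hv, h0⟩ := Submodule.exists_mem_ne_zero_of_ne_bot (p := U) (by
      rintro rfl; simp at h2)
    exact ⟨v, h0, h1 v hv⟩
  · intro w hw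
    obtain ⟨c, rfl⟩ := Submodule.mem_span_singleton.1 hw
    rw [h.smul, h2, mul_zero]
  · rw [finrank_span_singleton h1]; rfl

theorem nm_eq_one [Fintype F] (h : Fintype.card F = 2) {x : Fin 2 → F} (hx : x ≠ 0) :
    x 0 ^ 2 + x 0 * x 1 + x 1 ^ 2 = 1 := by
  have h2 : (2 : F) = 0 := two_eq_zero_of_even (by simp [h])
  have h0 : ¬ (x 0 = 0 ∧ x 1 = 0) := fun e => hx (by ext j; fin_cases j <;> simp [e])
  rcases eq_zero_or_one h (x 0) with e0 | e0 <;> rcases eq_zero_or_one h (x 1) with e1 | e1 <;>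
    simp [e0, e1] at h0 ⊢
  linear_combination h2

theorem mono_two [Fintype F] (h : Fintype.card F = 3 ∨ Fintype.card F = 5) {g : GL (Fin 2) F}
    (hg : g ∈ Iso idF (sc (Fin 2) (1 : Fˣ)).1) : Mono g.1 := by
  have key : ∀ j, g.1 0 j = 0 ∨ g.1 1 j = 0 := fun j => by
    have := congrFun (congrFun (mem_Iso.1 hg) j) j
    simp only [cg, map_one, Units.val_one, mul_one, mul_apply, transpose_apply, map_apply,
      Fin.sum_univ_two, one_apply_eq, RingHom.id_apply] at this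
    generalize g.1 0 j = a at this
    generalize g.1 1 j = b at this
    have ha := FiniteField.pow_card a
    have hb := FiniteField.pow_card b
    have hp := FiniteField.cast_card_eq_zero F
    rcases h with h | h <;> rw [h] at ha hb hp <;> push_cast at hp <;> grind
  intro j i i' h1 h2
  rcases key j with e | e <;> clear key <;> fin_cases i <;> fin_cases i' <;> simp_all

end Models

section

variable [Fintype F] {Q : (ι → F) → F} {J : GL ι F} {H : Subgroup (GL ι F)}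

omit [Fintype F] in
theorem OH.nonempty (O : OH Q J H) : Nonempty ι := Fintype.card_pos_iff.1 (by have := O.five; omega)

omit [Fintype F] in
theorem OH.isoJ (O : OH Q J H) : H ≤ Iso idF J.1 := O.iso.trans O.qj.le_Iso

omit [Fintype F] in
theorem OH.sim (O : OH Q J H) : H ≤ similarityGroup (bf idF J.1) := O.isoJ.trans (Iso_le_sim _ _)

theorem OH.pq_eq (O : OH Q J H) (hH : Irr H) (e : ι ≃ κ) (P : GL ι F) {Q' : (κ → F) → F}
    (h' : QJ Q' (pull idF e P J))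
    (h : ∀ g, frG e P g ∈ H → ∀ i, Q' (g.1 *ᵥ Pi.single i 1) = Q' (Pi.single i 1)) :
    pq e P Q = Q' :=
  (O.qj.pq e P).unique h' (irr_comap_frG hH e P) (by
    rw [← Fintype.card_congr e]; have := O.five; omega)
    (fun g hg => (frG_mem_IQ e P Q g).1 (O.iso hg))
    fun g hg => h'.mem_of_single ((frG_mem_Iso e P J g).1 (O.isoJ hg)) (h g hg)

theorem o_sub_frame (e : ι ≃ κ) (P : GL ι F) {ψ : F ≃+* F} (hψ : (orderOf ψ).Prime) {ζ : F}
    (hζ : ζ ≠ 0) (h1 : ∀ g, frG e P g ∈ H → ∀ x y, g.1 x y ∈ fixF ψ.toRingHom)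
    (h2 : ∀ u : κ → F, (∀ i, u i ∈ fixF ψ.toRingHom) → ζ * pq e P Q u ∈ fixF ψ.toRingHom) :
    OOut Q J H :=
  .inl ⟨_, .inr <| .inr <| .inr <| .inr <| .inr <| .inr <| .inr <| .inr <| .inr <| .inr <| .inl
    ⟨_, _, P, ζ, hψ, card_eq_pow ψ, hζ, fun u hu => by
      simpa [pq, Function.comp_assoc] using h2 (u ∘ e.symm) fun i => hu _, rfl⟩, fun g hg => by
      obtain ⟨g, rfl⟩ := (frG e P).surjective g
      exact mem_subfield_of_entries e P 1 (by simpa using h1 g hg)⟩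

theorem o_mono (O : OH Q J H) (h2 : (2 : F) ≠ 0) (e : ι ≃ κ) (P : GL ι F) {c : Fˣ}
    (hp : pull idF e P J = sc κ c) (hm : ∀ g, frG e P g ∈ H → Mono g.1) : OOut Q J H := by
  by_cases hq : (Fintype.card F).Prime
  · obtain ⟨e', D, h1, h3⟩ := exists_mono_frame e P hm
    exact .inl ⟨_, .inr <| .inr <| .inr <| .inl ⟨_, D, hq, odd_card_iff.2 h2,
      (QFrame.of_two_ne h2 O.qj ((gram_sc c).qj h2) h1 (by
        rw [pull_trans', hp, pull_sc, bmG_sc])).orth O.qj (by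
          rw [← Fintype.card_congr e]; have := O.five; omega), rfl⟩, h3⟩
  obtain ⟨ψ, hψ⟩ := exists_aut_of_not_prime hq
  refine o_sub_frame e P hψ (ζ := 2 * c⁻¹) (by simpa) (fun g hg x y => ?_) fun u hu => ?_
  · by_cases h0 : g.1 x y = 0
    · exact h0 ▸ zero_mem _
    rcases mul_self_eq_one_iff.1 ((hm g hg).norm (hp ▸ (frG_mem_Iso e P J g).1 (O.isoJ hg)) h0)
      with h | h
    · exact h ▸ one_mem _
    · exact h ▸ neg_mem (one_mem _)
  · rw [mul_comm 2, mul_assoc, ← (O.qj.pq e P).two, hp, sc_coe, bf_smul,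
      Units.inv_mul_cancel_left]
    exact bf_mem_fixF (by simp) hu hu

theorem o_dec_mono (O : OH Q J H) (h2 : (2 : F) ≠ 0) {t k : ℕ} {D : Fin t → Submodule F (ι → F)}
    (hD : IsOrthogonalMDecomposition Q k D) (h : H ≤ decompositionStabilizer D) {c : Fˣ}
    {Q₀ : (κ → F) → F} (h₀ : QJ Q₀ (sc κ c)) {i : Fin t} (φ : (κ → F) ≃ₗ[F] D i)
    (hφ : ∀ u, Q (φ u) = Q₀ u) (hm : ∀ g ∈ Iso idF (sc κ c).1, Mono g.1) : OOut Q J H := by
  obtain ⟨e, P, hF⟩ := O.qj.exists_qframe h₀ hD φ hφ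
  refine o_mono O h2 e P (hF.pull.trans (bmG_sc c)) fun g hg => ?_
  obtain ⟨a, ρ, e'⟩ := hF.fr.exists_bmG (h hg)
  rw [(frG e P).injective e']
  exact Mono.bm (fun i => hm _ (h₀.le_Iso (hF.iso (e' ▸ O.iso hg) i))) ρ

theorem o_dec_odd (O : OH Q J H) {t k : ℕ} {D : Fin t → Submodule F (ι → F)}
    (hD : IsOrthogonalMDecomposition Q k D) (h : H ≤ decompositionStabilizer D) (hk : Odd k)
    (hm : ∀ c : Fˣ, ∀ g ∈ Iso idF (sc (Fin k) c).1, Mono g.1) : OOut Q J H := by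
  have := hD.decomp.decomp.two_le
  obtain ⟨Q₀, J₀, φ, h1, h3⟩ := O.qj.exists_model (W := D ⟨0, by omega⟩)
    (O.qj.polar_eq ▸ hD.decomp.nondegenerate _) (hD.decomp.decomp.finrank_eq _)
  have h2 : (2 : F) ≠ 0 := fun e => Nat.not_even_iff_odd.2 hk (by simpa using (h1.alt e).even)
  obtain ⟨B, c, hB⟩ := exists_pull_eq_sc h2 (Equiv.refl _) h1.gram (by simpa)
  exact o_dec_mono O h2 hD h (hB ▸ h1.pq (Equiv.refl _) B)
    (((GeneralLinearGroup.toLin B).toLinearEquiv).trans φ) (fun u => h3 _) (hm c)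

theorem not_irr_planes (O : OH Q J H) (hq : Fintype.card F ≤ 3) {t : ℕ}
    {D : Fin t → Submodule F (ι → F)} (hD : IsOrthogonalMDecomposition Q 2 D)
    (h : H ≤ decompositionStabilizer D) {i : Fin t} (hp : IsPlusTypeOn Q (D i)) : ¬ Irr H := by
  obtain ⟨φ, hφ⟩ := O.qj.model_of_type qj_hy (O.qj.polar_eq ▸ hD.decomp.nondegenerate i)
    (hD.decomp.decomp.finrank_eq i) (by simp) (iff_of_true plus_hy hp)
  obtain ⟨e, P, hF⟩ := O.qj.exists_qframe qj_hy hD φ hφ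
  intro hH
  let W : Submodule F (Fin 2 × Fin t → F) :=
    { carrier := {x | ∀ i, x (0, i) = x (1, i)}
      add_mem' := fun ha hb i => by simp [ha i, hb i]
      zero_mem' := fun _ => rfl
      smul_mem' := fun c x hx i => by simp [hx i] }
  have hsq : ∀ a b : F, a * b = 1 → a = b := fun a b hab => by
    have h1 := Fintype.one_lt_card (α := F)
    have ha := FiniteField.pow_card a
    interval_cases Fintype.card F <;> grind
  refine (irr_comap_frG hH e P W fun g hg x hx j => ?_).elim (fun h1 => ?_) fun h1 => ?_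
  rotate_left
  · have : (fun _ => 1 : Fin 2 × Fin t → F) ∈ W := fun _ => rfl
    rw [h1] at this
    exact one_ne_zero (congrFun this (0, i))
  · have : Pi.single (0, i) 1 ∈ W := h1 ▸ trivial
    simpa using this i
  · obtain ⟨a, ρ, e'⟩ := hF.fr.exists_bmG (h hg)
    obtain rfl := (frG e P).injective e'
    obtain ⟨j, rfl⟩ := ρ.surjective j
    have h1 := hsq _ _ ((mem_IQ.1 (hF.iso (O.iso hg) j) fun _ => 1).trans (mul_one _))
    simp only [mulVec, dotProduct, Fin.sum_univ_two, mul_one] at h1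
    simp [mulVec, dotProduct, bmG_coe, bm_apply, Fintype.sum_prod_type, hx j, ← add_mul, h1]

theorem o_dec_four (O : OH Q J H) (hq : Fintype.card F = 4) {t : ℕ}
    {D : Fin t → Submodule F (ι → F)} (hD : IsOrthogonalMDecomposition Q 2 D)
    (h : H ≤ decompositionStabilizer D) {i : Fin t} (hp : IsPlusTypeOn Q (D i)) : OOut Q J H := by
  have h2 : (2 : F) = 0 := two_eq_zero_of_even (by simp [hq]; decide)
  have h₀ := qj_nm h2
  obtain ⟨φ, hφ⟩ := O.qj.model_of_type h₀ (O.qj.polar_eq ▸ hD.decomp.nondegenerate i)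
    (hD.decomp.decomp.finrank_eq i) (by simp) (iff_of_true ((plus_two_iff h₀).2 (by
      obtain ⟨w, hw⟩ : ∃ w : F, w ≠ 0 ∧ w ≠ 1 := by
        by_contra hc
        classical
        have : (Finset.univ : Finset F) ⊆ {0, 1} := fun x _ =>
          by_contra fun h => hc ⟨x, by simpa [not_or] using h⟩
        have := (Finset.card_le_card this).trans (Finset.card_le_two)
        simp [hq] at this
      have := FiniteField.pow_card w
      rw [hq] at this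
      exact ⟨![w, 1], by simp, by simp; grind⟩)) hp)
  obtain ⟨e, P, hF⟩ := O.qj.exists_qframe h₀ hD φ hφ
  obtain ⟨ψ, hψ⟩ := exists_aut_of_not_prime (F := F) (by rw [hq]; decide)
  refine o_sub_frame e P hψ one_ne_zero (fun g hg ⟨x, i⟩ ⟨y, j⟩ => ?_) fun u hu => ?_
  · obtain ⟨a, ρ, e'⟩ := hF.fr.exists_bmG (h hg)
    obtain rfl := (frG e P).injective e'
    have h1 := mem_IQ.1 (hF.iso (O.iso hg) j) (Pi.single y 1)
    have h3 : (a j).1 0 y ^ 2 + (a j).1 0 y * (a j).1 1 y + (a j).1 1 y ^ 2 = 1 := by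
      fin_cases y <;> simpa using h1
    have h4 := FiniteField.pow_card ((a j).1 0 y)
    have h5 := FiniteField.pow_card ((a j).1 1 y)
    rw [hq] at h4 h5
    have h6 : (a j).1 x y = 0 ∨ (a j).1 x y = 1 := by fin_cases x <;> simp <;> grind
    rw [bmG_coe, bm_apply]
    split_ifs
    · rcases h6 with h6 | h6 <;> simp [h6]
    · exact zero_mem _
  · rw [one_mul, hF.sum O.qj]
    exact sum_mem fun i _ => add_mem (add_mem (pow_mem (hu _) 2) (mul_mem (hu _) (hu _)))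
      (pow_mem (hu _) 2)

theorem o_dec_two (O : OH Q J H) (hq : Fintype.card F = 2) {t : ℕ}
    {D : Fin t → Submodule F (ι → F)} (hD : IsOrthogonalMDecomposition Q 4 D)
    (h : H ≤ decompositionStabilizer D) {i : Fin t} (hp : IsPlusTypeOn Q (D i)) : OOut Q J H := by
  have h2 : (2 : F) = 0 := two_eq_zero_of_even (by simp [hq])
  have h₀ := qj_nm h2
  have h₁ := h₀.bm 2
  obtain ⟨D₀, hD₀⟩ := exists_D (F := F) (Equiv.refl (Fin 2 × Fin 2)) 1
  obtain ⟨φ, hφ⟩ := O.qj.model_of_type h₁ (O.qj.polar_eq ▸ hD.decomp.nondegenerate i)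
    (hD.decomp.decomp.finrank_eq i) (by decide) (iff_of_true ((QFrame.plus_iff ⟨hD₀,
      Units.ext (cg_one _ _), fun i u => by simpa [pq] using h₀.sum_blk i u⟩ h₁ h₀ (by simp)).2
        (.inr (by decide))) hp)
  obtain ⟨e, P, hF⟩ := O.qj.exists_qframe h₁ hD φ hφ
  let e' : (Fin 2 × Fin 2) × Fin t ≃ Fin 2 × Fin (2 * t) :=
    (Equiv.prodAssoc _ _ _).trans ((Equiv.refl _).prodCongr finProdFinEquiv)
  obtain ⟨D', hD'⟩ := exists_D (e.trans e') P
  have hF' : QFrame Q J D' (e.trans e') P _ (hyG F) := ⟨hD', by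
    rw [pull_trans', hF.pull]
    ext ⟨x, i⟩ ⟨y, j⟩
    obtain ⟨⟨a, b⟩, rfl⟩ := finProdFinEquiv.surjective i
    obtain ⟨⟨c, d⟩, rfl⟩ := finProdFinEquiv.surjective j
    simp [pull_one_coe, e', bmG_coe, bm_one_apply, ite_and]
    split_ifs <;> rfl, fun j u => by
    obtain ⟨⟨a, b⟩, rfl⟩ := finProdFinEquiv.surjective j
    refine Eq.trans ?_ ((hF.blk b (blk a u)).trans (h₀.sum_blk a u))
    refine congrArg (pq e P Q) (a₁ := blk (finProdFinEquiv (a, b)) u ∘ e') (funext fun x => ?_)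
    simp [blk, e', ite_and, Prod.ext_iff]
    split_ifs <;> rfl⟩
  have ht := hD.decomp.decomp.two_le
  refine .inl ⟨_, .inr <| .inr <| .inr <| .inr <| .inl ⟨_, 2, D', le_rfl,
    hF'.orth O.qj (by omega), fun _ h' => absurd ((hF'.plusOn O.qj h₀ ⟨0, by omega⟩).1 (h' _)) ?_,
    by simp [hq], by simp, by simp, rfl⟩, le_decomp_of_fun hD' fun g hg => ?_⟩
  · rw [plus_two_iff h₀]
    rintro ⟨v, h3, h4⟩
    exact one_ne_zero ((nm_eq_one hq h3).symm.trans h4)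
  rw [frG_trans'] at hg
  obtain ⟨a, ρ, e₁⟩ := hF.fr.exists_bmG (h hg)
  have h3 := (frG e P).injective e₁
  have h4 : ∀ i s, ∃ s', ∀ x y s'', s'' ≠ s' → (a i).1 (x, s'') (y, s) = 0 := fun i s => by
    have key : ∀ u, u ≠ 0 → (fun x => ((a i).1 *ᵥ blk s u) (x, 0)) = 0 ∨
        (fun x => ((a i).1 *ᵥ blk s u) (x, 1)) = 0 := fun u hu => by
      by_contra hc
      push Not at hc
      have := mem_IQ.1 (hF.iso (e₁ ▸ O.iso hg) i) (blk s u)
      rw [h₀.sum_blk, Fin.sum_univ_two, nm_eq_one hq hu, nm_eq_one hq hc.1, nm_eq_one hq hc.2] at this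
      simp at this
    have k0 := key ![1, 0] (by simp)
    have k1 := key ![0, 1] (by simp)
    have k2 := key ![1, 1] (by simp)
    simp only [funext_iff, mulVec, dotProduct, blk, Fintype.sum_prod_type, mul_ite, mul_zero,
      Finset.sum_ite_eq', Finset.mem_univ, if_true, Fin.sum_univ_two, cons_val_zero, cons_val_one,
      mul_one, add_zero, zero_add, Pi.zero_apply] at k0 k1 k2
    simp only [Fin.exists_fin_two, Fin.forall_fin_two] at k0 k1 k2 ⊢
    grind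
  choose f hf using h4
  refine ⟨fun j => finProdFinEquiv (f (finProdFinEquiv.symm j).2 (finProdFinEquiv.symm j).1,
    ρ (finProdFinEquiv.symm j).2), fun ⟨x, i⟩ ⟨y, j⟩ hxy => ?_⟩
  obtain ⟨⟨a, b⟩, rfl⟩ := finProdFinEquiv.surjective i
  obtain ⟨⟨c, d⟩, rfl⟩ := finProdFinEquiv.surjective j
  have := congrArg (fun g : GL _ F => g.1 ((x, a), b) ((y, c), d)) h3
  beta_reduce at this
  rw [frG_one_coe, bmG_coe, bm_apply] at this
  refine this.trans ?_
  split_ifs with h5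
  · exact hf _ _ _ _ _ fun e => hxy (by simp_all)
  · rfl

theorem o_dec' (O : OH Q J H) {t k : ℕ} {D : Fin t → Submodule F (ι → F)}
    (hD : IsOrthogonalMDecomposition Q k D) (h : H ≤ decompositionStabilizer D)
    (hH : k = 2 → Irr H) : OOut Q J H := by
  have ht := hD.decomp.decomp.two_le
  have hk := hD.decomp.decomp.pos
  let i₀ : Fin t := ⟨0, by omega⟩
  have hnd : IsNondegenerateOn (bf idF J.1) (D i₀) := O.qj.polar_eq ▸ hD.decomp.nondegenerate i₀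
  have hfr := hD.decomp.decomp.finrank_eq i₀
  have hall : ∀ i, IsPlusTypeOn Q (D i) ↔ IsPlusTypeOn Q (D i₀) := fun i => by
    obtain ⟨e, P, Q₀, J₀, h1, h2⟩ := O.qj.qframe hD
    rw [h2.plusOn O.qj h1, h2.plusOn O.qj h1]
  have hm : k = 2 → Fintype.card F = 3 ∨ Fintype.card F = 5 →
      (IsSquare (-1 : F) ↔ IsPlusTypeOn Q (D i₀)) → OOut Q J H := by
    rintro rfl hq hs
    have h2 : (2 : F) ≠ 0 := odd_card_iff.1 (by rcases hq with h | h <;> rw [h] <;> decide)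
    have h₀ := (gram_sc (ι := Fin 2) (1 : Fˣ)).qj h2
    obtain ⟨φ, hφ⟩ := O.qj.model_of_type h₀ hnd hfr (by simp) (by
      rw [h₀.plus_iff_disc h2 (m := 1) rfl, ← hs]; simp)
    exact o_dec_mono O h2 hD h h₀ φ hφ fun g => mono_two hq
  by_cases h1 : k = 1
  · subst h1
    exact o_dec_odd O hD h odd_one fun _ _ _ _ _ _ _ _ => Subsingleton.elim _ _
  by_cases h3 : k = 3 ∧ Fintype.card F = 3
  · obtain ⟨rfl, hq⟩ := h3
    exact o_dec_odd O hD h (by decide) fun c g hg =>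
      (mono_three hq (Iso_le_sim _ _ hg)).elim fun ρ => mono_of_fun ρ
  by_cases h4 : k = 4 ∧ Fintype.card F = 2 ∧ IsPlusTypeOn Q (D i₀)
  · obtain ⟨rfl, hq, hp⟩ := h4
    exact o_dec_two O hq hD h hp
  by_cases h5 : k = 2 ∧ Fintype.card F = 3 ∧ ¬ IsPlusTypeOn Q (D i₀)
  · exact hm h5.1 (.inl h5.2.1) (iff_of_false (by
      rw [FiniteField.isSquare_neg_one_iff, h5.2.1]; decide) h5.2.2)
  by_cases h6 : k = 2 ∧ Fintype.card F < 7 ∧ IsPlusTypeOn Q (D i₀)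
  · obtain ⟨rfl, hq, hp⟩ := h6
    by_cases h7 : Fintype.card F ≤ 3
    · exact absurd (hH rfl) (not_irr_planes O h7 hD h hp)
    have h8 : Fintype.card F ≠ 6 := fun e => absurd (e ▸ FiniteField.isPrimePow_card F) (by decide)
    obtain h9 | h9 : Fintype.card F = 4 ∨ Fintype.card F = 5 := by omega
    · exact o_dec_four O h9 hD h hp
    · exact hm rfl (.inr h9) (iff_of_true (by
        rw [FiniteField.isSquare_neg_one_iff, h9]; decide) hp)
  exact .inl ⟨_, .inr <| .inr <| .inr <| .inr <| .inl ⟨t, k, D, by omega, hD,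
    fun a b => not_lt.1 fun c => h6 ⟨a, c, b _⟩, fun a b c => h5 ⟨a, c, b _⟩, fun a b => h3 ⟨a, b⟩,
    fun a b i c => h4 ⟨a, b, (hall i).1 c⟩, rfl⟩, h⟩

theorem o_dec (O : OH Q J H) (hH : Irr H) {t k : ℕ} {D : Fin t → Submodule F (ι → F)}
    (hD : IsNondegenerateMDecomposition (bf idF J.1) k D) (h : H ≤ decompositionStabilizer D) :
    OOut Q J H :=
  o_dec' O ⟨O.qj.polar_eq ▸ hD, fun i j => by
    obtain ⟨g, hg, e⟩ := transD_of_irr hH hD.decomp h i j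
    exact ⟨((GeneralLinearGroup.toLin g).toLinearEquiv.submoduleMap (D i)).trans
      (LinearEquiv.ofEq _ _ e), fun w => mem_IQ.1 (O.iso hg) _⟩⟩ h fun _ => hH

theorem o_pair (O : OH Q J H) (hH : Irr H) {k : ℕ} {D : Fin 2 → Submodule F (ι → F)}
    (hD : IsMDecomposition k D) (hs : ∀ i, IsTotallySingularFor (bf idF J.1) (D i))
    (h : H ≤ decompositionStabilizer D) : OOut Q J H := by
  obtain ⟨e, P, B, hP, h1, h3⟩ := exists_pair_frame O.qj.gram hD hs 1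
  have key : ∀ i u, qf (bm ![0, (1 : Matrix (Fin k) (Fin k) F)] (Equiv.swap 0 1)) (blk i u) = 0 := by
    intro i u
    rw [qf, bf_id, bm_mulVec_blk]
    exact Finset.sum_eq_zero fun p _ => by fin_cases i <;> simp +contextual [blk]
  have h4 := O.pq_eq hH e P (QJ.of_qf (A := bm ![0, 1] (Equiv.swap 0 1)) (by
    rw [h1, bmG_coe]
    ext ⟨x, i⟩ ⟨y, j⟩
    fin_cases i <;> fin_cases j <;> simp [bm_apply, h3, one_apply, eq_comm])) fun g hg ⟨x, i⟩ => by
      obtain ⟨b, ρ, e'⟩ := hP.exists_bmG (h hg)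
      rw [(frG e P).injective e', single_eq_blk, bmG_coe, bm_mulVec_blk, key, key]
  refine .inl ⟨_, .inr <| .inr <| .inr <| .inr <| .inr <| .inl ⟨k, D, hD, fun i w hw => ?_, rfl⟩, h⟩
  obtain ⟨u, rfl⟩ := hP.mem_iff.1 hw
  exact (congrFun h4 _).trans (key i u)

theorem o_field_sa (O : OH Q J H) {r : ℕ} (hr : r.Prime) {K : Subalgebra F (Matrix ι ι F)}
    (hK : IsFieldSubalgebra r K) (ha : ∀ k ∈ K, adj idF J k = k) (hH : Inv H K)
    (h1 : Fintype.card ι ≠ r) (h2 : Fintype.card ι ≠ 2 * r) : OOut Q J H := by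
  have := O.nonempty
  refine .inl ⟨_, .inr <| .inr <| .inr <| .inr <| .inr <| .inr <| .inl ⟨r, K, hr, hK,
    (isSelfAdjoint_iff fun _ => rfl).2 ha, h1, h2, fun h3 => O.qj.gram.two_mul_dvd hK
      (fun k hk => (ha k hk).symm ▸ hk) fun k hk v => ?_, rfl⟩, hH.le_normalizer⟩
  rw [odd_card_iff, not_not] at h3
  obtain ⟨j, hj, rfl⟩ := IsFieldSubalgebra.exists_sq h3 hr.ne_zero hK hk
  rw [← mulVec_mulVec, bf_adj fun _ => rfl, ha j hj, O.qj.alt h3]

theorem o_field_ns (O : OH Q J H) (hH : Irr H) {K : Subalgebra F (Matrix ι ι F)}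
    (hK : IsFieldSubalgebra 2 K) (ha : AdjSt idF J K)
    (h : ∀ k ∈ K, adj idF J k = k → ∃ c : F, k = c • 1) (hI : Inv H K) : OOut Q J H := by
  have := O.nonempty
  have hJ := O.qj.gram
  have hns := not_selfAdjoint hK le_rfl h
  obtain ⟨x, hx', hx⟩ : ∃ x ∈ K, ∀ v, Q v = bf idF J.1 (x *ᵥ v) v := by
    by_cases h2 : (2 : F) = 0
    swap
    · exact ⟨_, K.smul_mem K.one_mem 2⁻¹, fun v => by
        rw [smul_mulVec, one_mulVec, bf_smul_left, O.qj.two, inv_mul_cancel_left₀ h2]⟩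
    obtain ⟨k, hk, hk'⟩ : ∃ k ∈ K, adj idF J k ≠ k := by
      by_contra hc; push Not at hc
      exact hns ((isSelfAdjoint_iff fun _ => rfl).2 hc)
    have hcj := fun g hg => adj_cj (J := J) (fun _ => rfl) (O.sim (x := g) hg)
    have hneg : ∀ x : Matrix ι ι F, -x = x := fun x => by
      rw [← neg_one_smul F, neg_one_eq_one h2, one_smul]
    obtain ⟨c, hc⟩ := h _ (K.add_mem hk (ha k hk)) (by rw [adj_add, hJ.adj_adj, add_comm])
    have hc0 : c ≠ 0 := by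
      rintro rfl
      rw [zero_smul, add_comm, add_eq_zero_iff_eq_neg, hneg] at hc
      exact hk' hc
    have hx : c⁻¹ • k + adj idF J (c⁻¹ • k) = 1 := by
      rw [adj_smul, RingHom.id_apply, ← smul_add, hc, smul_smul, inv_mul_cancel₀ hc0, one_smul]
    have hx' := K.smul_mem hk c⁻¹
    generalize c⁻¹ • k = x at hx hx'
    refine ⟨x, hx', congrFun (O.qj.unique ⟨fun c v => ?_, fun u v => ?_⟩ hH
      (by have := O.five; omega) O.iso fun g hg => mem_IQ.2 fun v => ?_)⟩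
    · simp only [mulVec_smul, bf_smul_left, bf_smul_right, RingHom.id_apply]; ring
    · have : bf idF J.1 u v = bf idF J.1 ((x + adj idF J x) *ᵥ u) v := by rw [hx, one_mulVec]
      rw [this, mulVec_add, add_mulVec, bf_add_left, bf_add_left, bf_add_right, bf_add_right,
        hJ.bf_adj', O.qj.symm u]
      ring
    · obtain ⟨d, hd⟩ := h (cj g⁻¹ x - x) (K.sub_mem (hI _ (H.inv_mem hg) x hx') hx') (by
        rw [adj_sub, hcj _ (H.inv_mem hg), eq_sub_of_add_eq' hx, map_sub, map_one,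
          sub_sub_sub_cancel_left, ← neg_sub, hneg])
      rw [← cj_cj_inv g x, cj_mulVec, mem_Iso'.1 (O.isoJ hg),
        cj_cj_inv, eq_add_of_sub_eq hd, add_mulVec, bf_add_left, smul_mulVec, one_mulVec,
        bf_smul_left, O.qj.alt h2, mul_zero, zero_add]
  refine .inl ⟨_, .inr <| .inr <| .inr <| .inr <| .inr <| .inr <| .inr <| .inl ⟨K, hK,
    ha.isAdjointClosed fun _ => rfl, hns, fun k hk => ?_, rfl⟩, hI.le_normalizer⟩
  obtain ⟨c, hc⟩ := h _ (K.mul_mem (ha k hk) hk) (by rw [adj_mul, hJ.adj_adj])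
  refine ⟨c, fun v => ?_⟩
  rw [hx, hx, mulVec_mulVec, ← hJ.bf_adj', mulVec_mulVec, hK.comm x hx' k hk, ← mul_assoc, hc,
    smul_mul_assoc, one_mul, smul_mulVec, bf_smul_left]

theorem o_comm (O : OH Q J H) (hH : Irr H) (h : CommNS J H) : OOut Q J H := by
  obtain ⟨E, hc, hE, ha, hne⟩ := h
  have := O.nonempty
  have hJ := O.qj.gram
  rcases hJ.comm_cases hH O.sim hc hE ha with hi | ⟨t, k, D, h1, h2⟩ | ⟨k, D, h1, h2, h3⟩
  · obtain ⟨K, hK, hK'⟩ := exists_fieldSub hc hi (hJ.two_dvd hc hi ha hne)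
    have h1 := inv_fieldSub hE hK'
    have h2 : AdjSt idF J K := fun x hx =>
      (hK' _).2 ⟨ha _ ((hK' x).1 hx).1, by rw [← adj_pow, ((hK' x).1 hx).2]⟩
    rcases hJ.field_cases O.sim hK.comm hK.inv h1 h2 (fun e => by
        have := hK.finrank_eq; rw [e] at this; simp at this)
      with ⟨r, L, h3, h4, h5, h6, h7⟩ | ⟨-, h4⟩
    · have : r ≤ 2 := by
        rw [← h4.finrank_eq, ← hK.finrank_eq]
        exact Submodule.finrank_mono (s := L.toSubmodule) (t := K.toSubmodule) h5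
      have := O.five
      exact o_field_sa O h3 h4 h6 h7 (by omega) (by omega)
    · exact o_field_ns O hH hK h2 h4 h1
  · exact o_dec O hH h1 h2
  · exact o_pair O hH h1 h2 h3

theorem o_cen (O : OH Q J H) (hH : Irr H) {N : Subgroup (GL ι F)} (hle : N ≤ H) (hN : Nrm H N)
    (hne : cen (spanA N) ≠ ⊥) : OOut Q J H := by
  have := O.nonempty
  have hJ := O.qj.gram
  have hc := cen_comm (spanA N)
  have hE := hN.inv_spanA.cen
  have ha := (adjSt_spanA (fun _ => rfl) (hle.trans O.sim)).cen hJ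
  rcases hJ.comm_cases hH O.sim hc hE ha with hi | ⟨t, k, D, h1, h2⟩ | ⟨k, D, h1, h2, h3⟩
  swap; · exact o_dec O hH h1 h2
  swap; · exact o_pair O hH h1 h2 h3
  rcases hJ.field_cases O.sim hc hi hE ha hne with ⟨r, K, h1, h2, h3, h4, h5⟩ | ⟨h1, h2⟩
  swap; · exact o_field_ns O hH h1 ha h2 hE
  obtain ⟨x, hx, hx2⟩ : ∃ x ∈ N, (x⁻¹).1 ≠ x.1 := by
    by_contra hx
    push Not at hx
    have h6 : ∀ x ∈ N, ∀ y ∈ N, x * y = y * x := fun x h y h' => by
      rw [← Units.ext (hx _ (N.mul_mem h h')), _root_.mul_inv_rev, Units.ext (hx _ h),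
        Units.ext (hx _ h')]
    refine hne (le_bot_iff.1 (le_trans (fun _ h => h.1) (spanA_le fun x h => mem_bot_iff.2 ?_)))
    have h7 : x.1 ∈ cen (spanA N) := mem_cen.2 ⟨coe_mem_spanA h, fun y hy =>
      commSub_of_abelian h6 _ hy _ (coe_mem_spanA h)⟩
    by_cases h8 : x.1 + 1 = 0
    · exact ⟨-1, by simpa [add_eq_zero_iff_eq_neg] using h8⟩
    · have : x.1 * x.1 = 1 := by nth_rw 1 [← hx x h]; exact x.inv_mul
      exact ⟨1, by
        simpa [sub_eq_zero] using eq_zero_of_mul_eq_zero hi (x := x.1 - 1) (add_mem h7 (one_mem _))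
          h8 (by rw [sub_mul, mul_add, this]; simp [add_comm])⟩
  have hxK : ∀ k ∈ K, k * x.1 = x.1 * k := fun k hk =>
    ((mem_cen.1 (h3 hk)).2 _ (coe_mem_spanA hx)).symm
  by_cases h6 : Fintype.card ι = 2 * r
  · exact o_comm O hH (commNS_of_half O.qj O.iso h2 h4 h5 h1.ne_zero h6 (hle hx) hxK hx2)
  refine o_field_sa O h1 h2 h4 h5 (fun e => hx2 ?_) h6
  subst e
  obtain ⟨v, hv⟩ := exists_ne (0 : ι → F)
  obtain ⟨L, hL⟩ := exists_singer h2 hv
  obtain ⟨k, hk⟩ := L.surjective (x.1 *ᵥ v)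
  have : x.1 = k := mat_ext_mulVec fun w => by
    obtain ⟨l, rfl⟩ := L.surjective w
    rw [hL, mulVec_mulVec, ← hxK _ l.2, ← mulVec_mulVec, ← hk, hL, mulVec_mulVec, mulVec_mulVec,
      h2.comm _ l.2 _ k.2]
  rw [← adj_of_iso (fun _ => rfl) (O.isoJ (hle hx)), this, h4 _ k.2]

theorem o_red (O : OH Q J H) (h : ¬ Irr H) : OOut Q J H := by
  rcases O.qj.gram.ts_or_nd O.sim h with ⟨W, h1, h2, h3⟩ | ⟨W, h1, h2, h3, h4⟩
  · by_cases h0 : (2 : F) = 0
    swap; · exact .inl ⟨_, .inl ⟨W, h1, O.qj.tsq_of_ts h0 h2, rfl⟩, h3⟩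
    let U : Submodule F (ι → F) :=
      { carrier := {v | v ∈ W ∧ Q v = 0}
        add_mem' := fun ha hb => ⟨add_mem ha.1 hb.1, by
          rw [O.qj.add, ha.2, hb.2, h2 _ ha.1 _ hb.1]; simp⟩
        zero_mem' := ⟨zero_mem _, O.qj.zero⟩
        smul_mem' := fun c x hx => ⟨W.smul_mem c hx.1, by rw [O.qj.smul, hx.2, mul_zero]⟩ }
    by_cases hU : U = ⊥
    swap
    · exact .inl ⟨_, .inl ⟨U, hU, fun w hw => hw.2, rfl⟩, le_subspaceStabilizer fun g hg v hv =>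
        ⟨(mem_subspaceStabilizer.1 (h3 hg) v).1 hv.1, (mem_IQ.1 (O.iso hg) v).trans hv.2⟩⟩
    have hU' : ∀ w ∈ W, Q w = 0 → w = 0 := fun w hw e => (Submodule.eq_bot_iff U).1 hU w ⟨hw, e⟩
    obtain ⟨v, hv, hv0⟩ := Submodule.exists_mem_ne_zero_of_ne_bot h1
    have hQ : Q v ≠ 0 := fun e => hv0 (hU' v hv e)
    refine .inl ⟨_, .inr <| .inr <| .inl ⟨v, by simp [odd_card_iff, h0], hQ, rfl⟩, ?_⟩
    rwa [le_antisymm ((Submodule.span_singleton_le_iff_mem v W).2 hv) fun w hw => ?_]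
    obtain ⟨c, hc⟩ := FiniteField.isSquare_of_char_two 
      (CharP.ringChar_of_prime_eq_zero Nat.prime_two (by simpa using h0)) (Q w / Q v)
    refine Submodule.mem_span_singleton.2 ⟨c, (sub_eq_zero.1 (hU' _ (sub_mem hw (W.smul_mem c hv)) ?_)).symm⟩
    rw [sub_eq_add_neg, O.qj.add, O.qj.neg, O.qj.smul, h2 _ hw _ (neg_mem (W.smul_mem c hv)), sq, ← hc,
      div_mul_cancel₀ _ hQ, add_zero, ← two_mul, h0, zero_mul]
  by_cases h5 : 2 * finrank F W = Fintype.card ι ∧ AreIsometricFor Q W (perp idF J.1 W)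
  · obtain ⟨h5, f, hf⟩ := h5
    refine o_dec' O ⟨O.qj.polar_eq ▸ O.qj.gram.nd_pair h1 h2 h5, fun i j => ?_⟩
      (le_decomp_pair h4 fun g hg => perp_mem_of_sim (O.sim hg) (h4 hg))
      fun e => by have := O.five; omega
    fin_cases i <;> fin_cases j
    · exact ⟨.refl _ _, fun _ => rfl⟩
    · exact ⟨f, hf⟩
    · exact ⟨f.symm, fun w => (hf (f.symm w)).symm.trans (congrArg (Q ·.1) (f.apply_symm_apply w))⟩
    · exact ⟨.refl _ _, fun _ => rfl⟩
  · exact .inl ⟨_, .inr <| .inl ⟨W, h1, h2, h3, fun a b => h5 ⟨a, b⟩, rfl⟩, h4⟩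

end

end Cfsg.Agent.Asch
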