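import Mathlib
import Cfsg.Agent.Asch.Orth

/-! Subgroups of orthogonal groups: tensor products, subfields and the main theorem. -/

set_option autoImplicit false

namespace Cfsg.Agent.Asch

open Matrix Cfsg.Geo Cfsg.Agent.Herm Module
open scoped MatrixGroups Kronecker commutatorElement

variable {ι : Type} [Fintype ι] [DecidableEq ι] {F : Type*} [Field F]
variable {α β γ : Type} [Fintype α] [DecidableEq α] [Fintype β] [DecidableEq β] [Fintype γ]
  [DecidableEq γ]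

local notation "idF" => RingHom.id _

theorem frG_assoc (a : GL α F) (b : GL β F) (c : GL γ F) :
    frG (Equiv.prodAssoc α β γ).symm 1 (kG (kG a b) c) = kG a (kG b c) := by
  ext ⟨x, y, z⟩ ⟨x', y', z'⟩
  simp [frG_one_coe, kG_coe, mul_assoc]

theorem pull_assoc (σ : F →+* F) (a : GL α F) (b : GL β F) (c : GL γ F) :
    pull σ (Equiv.prodAssoc α β γ).symm 1 (kG a (kG b c)) = kG (kG a b) c := by
  ext ⟨⟨x, y⟩, z⟩ ⟨⟨x', y'⟩, z'⟩
  simp [pull_one_coe, kG_coe, mul_assoc]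

theorem cg_swG (σ : F →+* F) (x y : Matrix α α F) : cg σ (swG α F).1 (x ⊗ₖ y) = y ⊗ₖ x := by
  have h1 : (swG α F).1ᵀ = (swG α F).1 := by
    ext ⟨a, b⟩ ⟨c, d⟩; simp [swG, and_comm, eq_comm]
  have h2 : (swG α F).1.map σ = ((swG α F)⁻¹).1 := by ext p q; simp [swG, apply_ite σ]
  rw [cg, h1, h2, ← cj_apply, cj_swG]

theorem det_swG : (swG (Fin 2) F).1.det = -1 := by
  have : (swG (Fin 2) F).1 = Equiv.Perm.permMatrix F (Equiv.prodComm (Fin 2) (Fin 2)) := by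
    ext ⟨a, b⟩ ⟨c, d⟩; simp [swG, PEquiv.toMatrix_apply, and_comm]
  rw [this, det_permutation, show Equiv.Perm.sign (Equiv.prodComm (Fin 2) (Fin 2)) = -1 by decide]
  simp

theorem eq_of_sq_two [Fintype F] (h : Fintype.card F = 2) {y : Matrix (Fin 2) (Fin 2) F}
    (hy : y * y = y + 1) : y = !![0, 1; 1, 1] ∨ y = !![0, 1; 1, 1] + 1 := by
  have h2 : (1 + 1 : F) = 0 := one_add_one_eq_two.trans (two_eq_zero_of_even (by simp [h]))
  simp only [← Matrix.ext_iff, Fin.forall_fin_two, mul_apply, Fin.sum_univ_two, Matrix.add_apply] at hy ⊢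
  rcases eq_zero_or_one h (y 0 0) with a | a <;> rcases eq_zero_or_one h (y 0 1) with b | b <;>
    rcases eq_zero_or_one h (y 1 0) with c | c <;> rcases eq_zero_or_one h (y 1 1) with d | d <;>
    simp [a, b, c, d, h2] at hy ⊢

theorem commNS_of_card_two [Fintype F] [Nonempty β] (hq : Fintype.card F = 2) {J : GL ι F}
    {H : Subgroup (GL ι F)} {e : ι ≃ Fin 2 × β} {P : GL ι F} (hk : TenF H e P)
    {J₁ : GL (Fin 2) F} {J₂ : GL β F} (hp : pull idF e P J = kG J₁ J₂) (h1 : Alt J₁.1) :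
    CommNS J H := by
  have h2 : (2 : F) = 0 := two_eq_zero_of_even (by simp [hq])
  have ha : ∀ y, adj idF J (fr e P (y ⊗ₖ 1)) = fr e P (adj idF J₁ y ⊗ₖ 1) := fun y => by
    rw [adj_fr fun _ => rfl, hp, adj_kG, adj_one]
  refine commNS_of_set {z | ∃ y, y * y = y + 1 ∧ z = fr e P (y ⊗ₖ 1)} ?_ ?_ ?_
    ⟨_, ⟨!![0, 1; 1, 1], ?_, rfl⟩, fun e' => ?_⟩
  · rintro _ ⟨y, hy, rfl⟩ _ ⟨z, hz, rfl⟩
    rw [← map_mul, ← map_mul, ← mul_kronecker_mul, ← mul_kronecker_mul]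
    rcases eq_of_sq_two hq hy with rfl | rfl <;> rcases eq_of_sq_two hq hz with rfl | rfl <;>
      simp only [mul_add, add_mul, mul_one, one_mul]
  · rintro g hg _ ⟨y, hy, rfl⟩
    obtain ⟨a, b, rfl⟩ := hk g hg
    exact ⟨cj a y, by rw [← map_mul, hy, map_add, map_one], by rw [cj_frG, cj_kG, map_one]⟩
  · rintro _ ⟨y, hy, rfl⟩
    exact ⟨_, by rw [← adj_mul, hy, adj_add, adj_one], ha y⟩
  · ext i j; fin_cases i <;> fin_cases j <;> simp
  · obtain ⟨b⟩ := ‹Nonempty β›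
    rw [ha, h1.adj_two] at e'
    simpa using congrFun (congrFun ((fr e P).injective e') (0, b)) (0, b)

section

variable [Fintype F] {Q : (ι → F) → F} {J : GL ι F} {H : Subgroup (GL ι F)}

theorem o_alt_fin (O : OH Q J H) (hH : Irr H) {n₁ n₂ : ℕ} (h1 : 2 ≤ n₁) (h2 : n₁ ≤ n₂)
    {e : ι ≃ Fin n₁ × Fin n₂} {P : GL ι F} (h : TenF H e P) {J₁ : GL (Fin n₁) F}
    {J₂ : GL (Fin n₂) F} (hp : pull idF e P J = kG J₁ J₂) (ha : Alt J₁.1) (hb : Alt J₂.1) :
    OOut Q J H := by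
  have : Nonempty (Fin n₂) := ⟨⟨0, by omega⟩⟩
  by_cases hc : Fintype.card F = 2 ∧ n₁ = 2
  · obtain ⟨hq, rfl⟩ := hc
    exact o_comm O hH (commNS_of_card_two hq h hp ha)
  have h0 : ∀ u w, pq e P Q (vk u w) = 0 := fun u w => by
    by_cases h3 : (2 : F) = 0
    · obtain ⟨A, hA, hA'⟩ := exists_quad_kG h3 ha hb
      rw [O.pq_eq hH e P (.of_qf (hp ▸ hA)) fun g hg ⟨i, j⟩ => ?_, hA']
      obtain ⟨a, b, e'⟩ := h _ hg
      rw [(frG e P).injective e', ← vk_single, kG_coe, kron_mulVec_vk, hA', hA']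
    · refine (mul_eq_zero.1 ?_).resolve_left h3
      rw [← (O.qj.pq e P).two, hp, kG_coe, bf_vk, ha, zero_mul]
  refine .inl ⟨_, .inr <| .inr <| .inr <| .inr <| .inr <| .inr <| .inr <| .inr <| .inr <| .inl
    ⟨n₁, n₂, e, P, _, _, h1, h2, by simpa using ha.even, by simpa using hb.even, hc, ?_,
      ha.isSymplecticForm, hb.isSymplecticForm,
      isTensorFormStructure one_ne_zero (by rw [hp, one_smul, kG_coe]), h0, rfl⟩, tenF_iff.1 h⟩
  rintro rfl
  refine (O.qj.plus_pq e P).1 ((O.qj.pq e P).plus_of_coords (Finset.univ.image (Prod.mk 0))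
    (by rw [Finset.card_image_of_injective _ (Prod.mk_right_injective _)]; simp) ?_ ?_)
  · simp only [Finset.mem_image, Finset.mem_univ, true_and]
    rintro _ ⟨j, rfl⟩
    rw [← vk_single, h0]
  · simp only [Finset.mem_image, Finset.mem_univ, true_and]
    rintro _ ⟨j, rfl⟩ _ ⟨k, rfl⟩
    simp [hp, kG_coe, ha.diag]

theorem o_alt (O : OH Q J H) (hH : Irr H) (h1 : 2 ≤ Fintype.card α) (h2 : 2 ≤ Fintype.card β)
    {e : ι ≃ α × β} {P : GL ι F} (h : TenF H e P) {J₁ : GL α F} {J₂ : GL β F}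
    (hp : pull idF e P J = kG J₁ J₂) (ha : Alt J₁.1) (hb : Alt J₂.1) : OOut Q J H := by
  have h3 := h.change (Fintype.equivFin α) (Fintype.equivFin β) 1 1
  have h4 := pull_change hp (Fintype.equivFin α) (Fintype.equivFin β) 1 1
  rcases le_total (Fintype.card α) (Fintype.card β) with h5 | h5
  · exact o_alt_fin O hH h1 h5 h3 h4 (ha.pull _ _) (hb.pull _ _)
  · exact o_alt_fin O hH h2 h5 h3.swap (pull_swap _ _ _ J h4) (hb.pull _ _) (ha.pull _ _)

theorem o_wreath (O : OH Q J H) (h2 : (2 : F) ≠ 0) {k t : ℕ} (hk : 3 ≤ k) (ht : 2 ≤ t)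
    {e : ι ≃ (Fin t → Fin k)} {P : GL ι F} (h : H ≤ tensorWreathSubgroup k t e P)
    {c : Fˣ} {J₁ : GL (Fin k) F} (h1 : Gram idF 1 J₁)
    (hp : pull idF e P J = sc _ c * ptG fun _ => J₁) : OOut Q J H := by
  by_cases hc : Fintype.card F = 3 ∧ k = 3
  · obtain ⟨hq, rfl⟩ := hc
    obtain ⟨B, d, hB⟩ := exists_pull_eq_sc h2 (Equiv.refl _) h1 (by decide)
    rw [← tensorWreathSubgroup_mul e P B] at h
    have h3 := pull_mul idF e P J (ptG fun _ => B)
    rw [hp, cgG_ptG, ← pull_refl, hB] at h3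
    refine o_mono O h2 e _ (h3.trans (by rw [ptG_sc, ← map_mul])) fun g hg => ?_
    obtain ⟨a, ρ, e'⟩ := (mem_tensorWreathSubgroup e _).1 (h hg)
    obtain rfl := (frG e _).injective e'
    exact Mono.wreath (fun i => (mono_three hq (ptG_mem_sim
      (h3 ▸ (frG_mem_sim e _ J _).1 (O.sim hg)) i)).elim fun ρ => mono_of_fun ρ) ρ
  · exact .inl ⟨_, .inr <| .inr <| .inr <| .inr <| .inr <| .inr <| .inr <| .inr <| .inr <| .inr <|
      .inr ⟨k, t, e, P, _, odd_card_iff.2 h2, hk, ht, hc, h1.isSymmetricForm,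
        isTensorPowerFormStructure hp, rfl⟩, h⟩

theorem o_three_four (O : OH Q J H) (hH : Irr H) (h2 : (2 : F) ≠ 0)
    {e : ι ≃ Fin 3 × Fin 2 × Fin 2} {P : GL ι F} (h : TenF H e P) {J₁ : GL (Fin 3) F}
    (hp : pull idF e P J = kG J₁ (kG (om2 F) (om2 F))) (ha : Gram idF 1 J₁) : OOut Q J H := by
  refine o_alt O hH (by simp) (by simp) (e := e.trans (Equiv.prodAssoc _ _ _).symm) (P := P)
    (fun g hg => ?_) (by rw [pull_trans', hp, pull_assoc])
    (Gram.alt (by simpa using ha.kG (alt_om2 (F := F)).gram) h2) alt_om2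
  obtain ⟨a, b, rfl⟩ := h g hg
  have h3 := hp ▸ (frG_mem_Iso e P J _).1 (O.isoJ hg)
  obtain ⟨h4, h5⟩ := kG_mem_sim (Iso_le_sim _ _ h3)
  rcases sim_om2_om2 h2 h5 with ⟨x, y, rfl⟩ | ⟨x, y, rfl⟩
  · exact ⟨_, _, by rw [frG_trans', frG_assoc]⟩
  exfalso
  obtain ⟨c, hc⟩ := mem_sim.1 h4
  have h6 := (frG_mem_SL e P _).1 (O.sl hg)
  have h7 := congrArg det hc
  rw [mem_Iso, kG_coe, kG_coe, cg_kron, hc, Units.val_mul, cg_mul, kG_coe, kG_coe, cg_kron, cg_om2,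
    cg_om2, smul_kronecker, smul_kronecker, kronecker_smul, cg_smul, cg_smul, cg_swG,
    kronecker_smul, kronecker_smul, smul_smul, smul_smul, ← kG_coe, ← kG_coe] at h3
  have h8 := (smul_left_injective F (Units.ne_zero _)) (h3.trans (one_smul _ _).symm)
  simp only [cg, det_mul, det_transpose, RingHom.coe_id, Matrix.map_id, det_smul, Fintype.card_fin,
    kG_coe, det_kronecker, Units.val_mul, det_swG, Fintype.card_prod] at h6 h7
  have h9 := (isUnits_det_units J₁).ne_zero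
  grind

theorem o_sym (O : OH Q J H) (hH : Irr H) (h2 : (2 : F) ≠ 0) {n₁ n₂ : ℕ} (h1 : 2 ≤ n₁)
    (h3 : n₁ ≤ n₂) {e : ι ≃ Fin n₁ × Fin n₂} {P : GL ι F} (h : TenF H e P) {J₁ : GL (Fin n₁) F}
    {J₂ : GL (Fin n₂) F} (hp : pull idF e P J = kG J₁ J₂) (ha : Gram idF 1 J₁)
    (hb : Gram idF 1 J₂) : OOut Q J H := by
  have : Nonempty (Fin n₁) := ⟨⟨0, by omega⟩⟩
  have : Nonempty (Fin n₂) := ⟨⟨0, by omega⟩⟩
  rcases h1.eq_or_lt with rfl | h1
  · exact o_comm O hH (commNS_of_two h2 O.sim h.swap (pull_swap _ e P J hp) ha)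
  by_cases hc : Fintype.card F = 3 ∧ n₁ = 3
  · obtain ⟨hF, rfl⟩ := hc
    obtain ⟨B, c, hB⟩ := exists_pull_eq_sc h2 (Equiv.refl _) ha (by decide)
    have h4 := h.swap.change (Equiv.refl _) (Equiv.refl _) 1 B
    have h5 := pull_change (pull_swap _ e P J hp) (Equiv.refl _) (Equiv.refl _) 1 B
    generalize (e.trans _).trans _ = e' at h4 h5
    generalize P * _ = P' at h4 h5
    obtain ⟨D, hD⟩ := exists_D e' P'
    rw [hB] at h5
    refine o_dec O hH (hD.nd (by norm_num) (h5.trans (kG_sc_eq_bmG _ c)))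
      (le_decomp_of_frame hD fun g hg => ?_)
    obtain ⟨a, b, e'⟩ := h4 _ hg
    obtain rfl := (frG _ _).injective e'
    obtain ⟨ρ, hρ⟩ := mono_three hF (kG_mem_sim (h5 ▸ (frG_mem_sim _ _ J _).1 (O.sim hg))).2
    exact ⟨ρ, fun x y hxy => by simp [kG_coe, hρ _ _ hxy]⟩
  by_cases hc' : n₁ = n₂ ∧ Odd n₁
  · obtain ⟨rfl, ho⟩ := hc'
    obtain ⟨A, c, hA⟩ := exists_pull_eq_sc h2 (Equiv.refl _) ha (by simpa)
    obtain ⟨B, d, hB⟩ := exists_pull_eq_sc h2 (Equiv.refl _) hb (by simpa)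
    have h4 := h.change (Equiv.refl _) (Equiv.refl _) A B
    have h5 := pull_change hp (Equiv.refl _) (Equiv.refl _) A B
    rw [hA, hB] at h5
    exact o_wreath O h2 h1 le_rfl ((tenF_iff.1 h4).trans (tensorProduct_le_wreath _ _))
      (gram_sc 1) (pull_two _ _ _ J (c := c * d) (by rw [h5, kG_sc, kG_sc, ← map_mul]; simp))
  by_cases h4 : n₁ = 3 ∧ n₂ = 4 ∧ IsPlusTypeOn (fun v => bf idF J₂.1 v v) ⊤
  · obtain ⟨rfl, rfl, h4⟩ := h4
    obtain ⟨B, hB⟩ := exists_pull_of_disc h2 (finProdFinEquiv (m := 2) (n := 2)).symm hb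
      (J' := kG (om2 F) (om2 F)) (by simpa using alt_om2.gram.kG (alt_om2 (F := F)).gram) (by
        simpa [kG_coe, det_kronecker, det_om2] using (hb.isPlus_iff h2 (m := 2) rfl).1 h4)
    exact o_three_four O hH h2 (h.change (Equiv.refl _) _ 1 B)
      (hB ▸ pull_change hp (Equiv.refl _) _ 1 B) (ha.pull _ _)
  refine .inl ⟨_, .inr <| .inr <| .inr <| .inr <| .inr <| .inr <| .inr <| .inr <| .inl
    ⟨n₁, n₂, e, P, _, _, odd_card_iff.2 h2, h1, h3,
      fun e => Nat.not_odd_iff_even.1 fun e' => hc' ⟨e, e'⟩, hc, ?_, ha.isSymmetricForm,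
      hb.isSymmetricForm, isTensorFormStructure one_ne_zero (by rw [hp, one_smul, kG_coe]), rfl⟩,
    tenF_iff.1 h⟩
  rintro rfl rfl
  refine ⟨fun h5 => h4 ⟨rfl, rfl, h5⟩, fun h5 => h4 ⟨rfl, rfl, ?_⟩⟩
  rw [O.qj.plus_iff_disc h2 (m := 6) (by simpa using Fintype.card_congr e), ← isSquare_det_pull e P,
    hp, kG_coe, det_kronecker, Fintype.card_fin, Fintype.card_fin, show J₁.1.det ^ 4 * J₂.1.det ^ 3 *
      (-1) ^ 6 = (J₁.1.det ^ 2 * J₂.1.det) ^ 2 * (J₂.1.det * (-1) ^ 2) by ring,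
    Orth.isSquare_sq_mul_iff (mul_ne_zero (pow_ne_zero _ (isUnits_det_units _).ne_zero)
      (isUnits_det_units _).ne_zero)] at h5
  exact (hb.isPlus_iff h2 (m := 2) rfl).2 h5

theorem o_tensor (O : OH Q J H) (hH : Irr H) {n₁ n₂ : ℕ} {e : ι ≃ Fin n₁ × Fin n₂} {P : GL ι F}
    (h : TenData H n₁ n₂ e P) : OOut Q J H := by
  have h1 := h.h1
  have h3 := h.h2
  have : Nonempty (Fin n₁) := ⟨⟨0, by omega⟩⟩
  have : Nonempty (Fin n₂) := ⟨⟨0, by omega⟩⟩
  obtain ⟨J₁, J₂, hp⟩ := h.form idF J (fun _ => rfl) O.sim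
  obtain ⟨ε₁, ε₂, g1, g2, hε⟩ := (hp ▸ O.qj.gram.pull e P).of_kG
  have hT := tenF_iff.2 h.le
  by_cases h2 : (2 : F) = 0
  · exact o_alt O hH (by simpa) (by simpa) hT hp (alt_left_of_irr h2 hH O.sim hT hp g1 (by simpa))
      (alt_left_of_irr h2 hH O.sim hT.swap (pull_swap _ e P J hp) g2 (by simpa))
  rcases g1.id_cases with rfl | rfl
  · rw [one_mul] at hε
    subst hε
    rcases le_total n₁ n₂ with h4 | h4
    · exact o_sym O hH h2 h1 h4 hT hp g1 g2
    · exact o_sym O hH h2 h3 h4 hT.swap (pull_swap _ e P J hp) g2 g1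
  · obtain rfl : ε₂ = -1 := by linear_combination hε
    exact o_alt O hH (by simpa) (by simpa) hT hp (g1.alt h2) (g2.alt h2)

theorem o_pow (O : OH Q J H) (hH : Irr H) {k t : ℕ} {e : ι ≃ (Fin t → Fin k)} {P : GL ι F}
    (h : PowData H k t e P) : OOut Q J H := by
  have hk := h.hk
  have ht := h.ht
  have : Nonempty (Fin k) := ⟨⟨0, by omega⟩⟩
  have : Nonempty (Fin t) := ⟨⟨0, by omega⟩⟩
  obtain ⟨c, J₁, hp⟩ := h.form idF J (fun _ => rfl) O.sim
  obtain ⟨δ, g1, -⟩ := (hp ▸ O.qj.gram.pull e P).of_ptG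
  obtain ⟨K, h1, h3, h4⟩ := h.irr_sim O.sim hp
  have key : Alt J₁.1 → (∀ x, pq e P Q (Pi.single x 1) = 0) → OOut Q J H := fun ha h0 => by
    refine .inr ⟨k, t, by simpa using ha.even, ht, by simpa using Fintype.card_congr e, ?_⟩
    rintro rfl
    obtain ⟨s, rfl⟩ : ∃ s, t = s + 1 := ⟨t - 1, by omega⟩
    refine (O.qj.plus_pq e P).1 ((O.qj.pq e P).plus_of_coords (Finset.univ.image (Fin.cons 0))
      (by rw [Finset.card_image_of_injective _ (Fin.cons_right_injective _)]; simp [pow_succ'])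
      (fun x _ => h0 x) ?_)
    simp only [Finset.mem_image, Finset.mem_univ, true_and]
    rintro _ ⟨j, rfl⟩ _ ⟨k, rfl⟩
    simp [hp, ptG_coe, sc_coe, pt_apply, Fin.prod_univ_succ, ha.diag]
  by_cases h2 : (2 : F) = 0
  · have ha := g1.alt_of_irr (irr_of_span h3) (by simpa) h2 h4
    obtain ⟨A, hA, hA'⟩ := exists_quad_pt (τ := Fin t) h2 (by simpa) ha c
    have h5 : ∀ i, qf A (Pi.single i 1) = 0 := fun i => by
      have := hA' 1 1 i
      rwa [ptG_one, show fpG (Fin k) F (1 : Equiv.Perm (Fin t)) = 1 from Units.ext fp_one, mul_one,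
        Units.val_one, cg_one, ← qf_single A] at this
    refine key ha fun x => ?_
    rw [O.pq_eq hH e P (.of_qf (hp ▸ hA)) fun g hg i => ?_, h5]
    obtain ⟨a, ρ, e'⟩ := (mem_tensorWreathSubgroup e P).1 (h.le hg)
    rw [(frG e P).injective e', qf_mulVec, qf_single, hA', h5]
  rcases g1.id_cases with rfl | rfl
  · rcases hk.eq_or_lt with rfl | hk
    · exact (not_perfect_two h2 g1 h1 h3 h4).elim
    · exact o_wreath O h2 hk ht h.le g1 hp
  · refine key (g1.alt h2) fun x => (mul_eq_zero.1 ?_).resolve_left h2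
    rw [← (O.qj.pq e P).two, bf_single, hp]
    simp [ptG_coe, sc_coe, pt_apply, (g1.alt h2).diag, show t ≠ 0 by omega]

theorem o_ES (O : OH Q J H) {r : ℕ} (hr : r.Prime) {N : Subgroup (GL ι F)} (h : PES r N)
    (hI : N ≤ H) : OOut Q J H := by
  have h5 := O.five
  have := O.nonempty
  have hE := h.es_two (by omega) hr (hI.trans O.isoJ)
  have h2 := hE.two_ne (by omega)
  obtain ⟨m, -, hm, -⟩ := hE.exists_pow (by omega)
  have h3 : 3 ≤ m := by
    by_contra h3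
    have : m ≤ 2 := by omega
    interval_cases m <;> omega
  obtain ⟨m, rfl⟩ : ∃ s, m = s + 2 := ⟨m - 2, by omega⟩
  obtain ⟨a, ha, b, -, hab⟩ := exists_noncomm h.span (by omega)
  obtain ⟨x, hx, h4, -⟩ := hE.exists_anti (by omega) ha fun e => hab (scalars_comm e b).symm
  refine .inr ⟨2, _, even_two, by omega, hm, fun _ =>
    (O.qj.plus_iff_disc h2 (m := 2 ^ m * 2) (by rw [hm]; ring)).2 ?_⟩
  simpa [pow_mul'] using (isSquare_det_of_iso h2 O.qj.gram (O.isoJ (hI hx)) h4).2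

theorem o_sub (O : OH Q J H) (hH : Irr H) {N : Subgroup (GL ι F)} (hN : spanA N = ⊤)
    (hle : N ≤ H) (hn : Nrm H N) {ψ : F ≃+* F} (hψ : (orderOf ψ).Prime)
    (h : ∀ x ∈ N, ψ x.1.trace = x.1.trace) : OOut Q J H := by
  have := O.nonempty
  obtain ⟨P, ζ, h1, h2, h3⟩ := form_subfield ψ hN hn h idF J (hle.trans O.isoJ)
  refine .inl ⟨_, .inr <| .inr <| .inr <| .inr <| .inr <| .inr <| .inr <| .inr <| .inr <| .inr <|
    .inl ⟨_, _, P, ζ, hψ, card_eq_pow ψ, h1, fun u hu => ?_, rfl⟩, h2⟩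
  have h4 := (O.qj.pq (Equiv.refl ι) P).smul' (Units.mk0 ζ h1)
  have h5 : (sc ι (Units.mk0 ζ h1) * pull idF (Equiv.refl ι) P J).1 = ζ • cg idF P.1 J.1 := by
    simp [sc_coe, pull_refl, cgG_coe]
  rw [← h5] at h3
  have h6 : ∀ g, frG (Equiv.refl ι) P g ∈ H →
      g ∈ isometryGroup F fun v => Units.mk0 ζ h1 * pq (Equiv.refl ι) P Q v := fun g hg =>
    mem_IQ.2 fun v => by rw [mem_IQ.1 ((frG_mem_IQ _ P Q g).1 (O.iso hg))]
  change ψ ((fun v => Units.mk0 ζ h1 * pq (Equiv.refl ι) P Q v) u) =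
    (fun v => Units.mk0 ζ h1 * pq (Equiv.refl ι) P Q v) u
  generalize (fun v => Units.mk0 ζ h1 * pq (Equiv.refl ι) P Q v) = Q₁ at h4 h6 ⊢
  generalize sc ι (Units.mk0 ζ h1) * pull idF (Equiv.refl ι) P J = J₁ at h3 h4
  have h7 : QJ (fun v => ψ (Q₁ (ψ.symm ∘ v))) J₁ := ⟨fun c v => by
    rw [show ψ.symm ∘ (c • v) = ψ.symm c • ψ.symm ∘ v from funext fun _ => map_mul _ _ _, h4.smul]
    simp, fun u v => by
    rw [show ψ.symm ∘ (u + v) = ψ.symm ∘ u + ψ.symm ∘ v from funext fun _ => map_add _ _ _, h4.add,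
      map_add, map_add]
    conv_rhs => rw [← h3]
    simp [bf, dotProduct, mulVec]⟩
  have h8 := h4.unique h7 (irr_comap_frG hH (Equiv.refl ι) P) (by have := O.five; omega) h6
    fun g hg => mem_IQ.2 fun v => ?_
  · have := congrFun h8 u
    rw [show ψ.symm ∘ u = u from funext fun i => ψ.symm_apply_eq.2 (hu i).symm] at this
    exact this.symm
  obtain ⟨k, a, e⟩ := mem_subfieldSubgroup.1 (h2 hg)
  have e' : g.1 = (a : F) • (GeneralLinearGroup.map (fixF ψ.toRingHom).subtype k).1 := by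
    rw [show g = _ from (MulAut.conj P).injective e, Units.val_mul, sc_coe, mul_smul_comm, mul_one]
  have hk : ∀ i j, ψ ((GeneralLinearGroup.map (fixF ψ.toRingHom).subtype k).1 i j) =
      (GeneralLinearGroup.map (fixF ψ.toRingHom).subtype k).1 i j := fun i j => (k.1 i j).2
  generalize GeneralLinearGroup.map (fixF ψ.toRingHom).subtype k = b at e' hk
  have h9 := mem_Iso.1 (h4.le_Iso (h6 g hg))
  rw [e', cg_smul_left] at h9
  have h10 := congrArg (·.map ψ.toRingHom) h9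
  simp only [map_smul''] at h10
  rw [map_cg (σ := idF) (ψ := ψ.toRingHom) (fun _ => rfl), show b.1.map ψ.toRingHom = b.1 from Matrix.ext hk,
    show J₁.1.map ψ.toRingHom = J₁.1 from h3] at h10
  have h11 := smul_left_injective F (cgG idF b J₁).ne_zero (h10.trans h9.symm)
  rw [← mem_IQ.1 (h6 g hg) (ψ.symm ∘ v), e', smul_mulVec, smul_mulVec, h4.smul,
    show ψ.symm ∘ ((a : F) • b.1 *ᵥ v) = ψ.symm a • b.1 *ᵥ (ψ.symm ∘ v) from ?_, h4.smul, ← map_pow,
    show ψ.symm (a ^ 2) = a ^ 2 from ψ.symm_apply_eq.2 (by simpa [sq] using h11.symm)]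
  ext i
  simp [mulVec, dotProduct, ψ.symm_apply_eq.2 (hk _ _).symm]

theorem o_main (O : OH Q J H) : OOut Q J H ∨ InOrthogonalResidualClass H := by
  have := O.nonempty
  by_cases hc : OOut Q J H
  · exact Or.inl hc
  right
  have hH : Irr H := by_contra fun h => hc (o_red O h)
  rcases core hH (by have := O.five; omega) with ⟨N, h0, h1, h2⟩ | ⟨n₁, n₂, e, P, h⟩ |
    ⟨k, t, e, P, h⟩ | ⟨r, N, h1, h2, h3, h4, h5⟩ | ⟨P, h⟩
  · exact (hc (o_cen O hH h0 h1 h2)).elim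
  · exact (hc (o_tensor O hH h)).elim
  · exact (hc (o_pow O hH h)).elim
  · exact (hc (o_ES O h4 ⟨h2, h3, h5⟩ h1.le)).elim
  refine ⟨P, h.no_subfield hc fun ψ hψ hx => o_sub O hH h.span h.le h.nrm hψ hx, ?_⟩
  rintro ⟨σ, f, hf, hf'⟩
  obtain ⟨J', hJ', rfl⟩ := exists_gram_of_isUnitaryForm hf
  refine hc (o_sub O hH h.span h.le h.nrm (orderOf_inv_prime hf.ne_refl hf.involutive)
    fun x hx => ?_)
  have := trace_inv_of_iso hJ'.inv (mem_Iso.2 (fixesForm_iff.1 hf' x hx))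
  rw [trace_inv_of_iso (fun _ => rfl) (O.isoJ (h.le hx))] at this
  exact this.symm

end

end Cfsg.Agent.Asch
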