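import Mathlib
import Cfsg.Agent.Asch.Orth2
import Cfsg.Agent.Orth.Count

/-! Maximal subgroups of the groups `Ω(Q)`. -/

set_option autoImplicit false

namespace Cfsg.Agent.Asch

open Matrix Cfsg.Geo Cfsg.Agent.Herm Module
open scoped MatrixGroups Kronecker commutatorElement

variable {ι : Type} [Fintype ι] [DecidableEq ι] {F : Type*} [Field F]
variable {Q : (ι → F) → F} {J : GL ι F} {H : Subgroup (GL ι F)}

local notation "idF" => RingHom.id _

theorem omegaGL_le_IQ : omegaGL Q ≤ isometryGroup F Q := Subgroup.map_subtype_le _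

theorem omegaGL_le_SL : omegaGL Q ≤ specialLinear ι F := by
  rintro _ ⟨g, hg, rfl⟩
  exact mem_SL.2 (congrArg Units.val (Abelianization.commutator_subset_ker
    (GeneralLinearGroup.det.comp (isometryGroup F Q).subtype) hg))

/-- An Eichler transformation. -/
noncomputable def QJ.eG (h : QJ Q J) (u v : ι → F) : GL ι F :=
  ((Orth.toOG h.toQ).symm (Orth.eich h.toQ u v)).1

theorem QJ.eG_coe (h : QJ Q J) {u v : ι → F} (hu : Q u = 0) (huv : bf idF J.1 u v = 0) :
    (h.eG u v).1 = 1 + vecMulVec u ((v - Q v • u) ᵥ* J.1) - vecMulVec v (u ᵥ* J.1) :=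
  mat_ext_mulVec fun x => by
    rw [QJ.eG, Orth.toOG_symm_mulVec, Orth.eich_apply hu (by rwa [h.coe_toQ, h.polar_eq]), h.coe_toQ,
      h.polar_eq, sub_mulVec, add_mulVec, one_mulVec, Orth.vecMulVec_mulVec', Orth.vecMulVec_mulVec',
      ← dotProduct_mulVec, ← dotProduct_mulVec, ← bf_id, ← bf_id, bf_sub_left, bf_smul_left]

theorem QJ.eG_mem (h : QJ Q J) (hn : 5 ≤ Fintype.card ι) (u v : ι → F) : h.eG u v ∈ omegaGL Q :=
  ⟨_, (Orth.mem_Omega_iff (Q := h.toQ) _).2 (by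
    rw [MulEquiv.apply_symm_apply]
    exact h.nd.eich_mem_commutator (Orth.good_of_five_le (by simpa)) u v), rfl⟩

omit [DecidableEq ι] in
theorem vmv_mul (J : Matrix ι ι F) (a b c d : ι → F) :
    vecMulVec a (b ᵥ* J) * vecMulVec c d = bf idF J b c • vecMulVec a d := by
  rw [vecMulVec_mul_vecMulVec, ← dotProduct_mulVec, ← bf_id, vecMulVec_smul]

omit [DecidableEq ι] in
theorem dot_vm (J : Matrix ι ι F) (a b : ι → F) : a ⬝ᵥ b ᵥ* J = bf idF J b a := by
  rw [dotProduct_comm, ← dotProduct_mulVec, ← bf_id]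

theorem amb_O [Fintype F] (h : QJ Q J) (hn : 7 ≤ Fintype.card ι) : Amb (omegaGL Q) := by
  have hn5 : 5 ≤ finrank F (ι → F) := by simp; omega
  have hG := Orth.good_of_five_le hn5
  have : Nonempty ι := Fintype.card_pos_iff.1 (by omega)
  obtain ⟨e, f, hf⟩ : ∃ e f : Fin 2 → ι → F, Orth.HypFrame h.toQ e f := by
    obtain ⟨W, -, h1, h2⟩ := Orth.exists_maximal_sing (Orth.sing_bot (Q := h.toQ))
    obtain ⟨A, -, -, h3, h4⟩ := h.nd.exists_witt_decomp h1 h2 rfl
    have := Orth.finrank_le_two_of_aniso (Q := h.toQ.restrict A) h3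
    obtain ⟨e, he⟩ := exists_linearIndependent_of_le_finrank (R := F) (M := W) (n := 2) (by
      simp at h4; omega)
    exact ⟨_, h.nd.exists_frame _ (he.map' W.subtype W.ker_subtype) (fun i => h1 _ (e i).2)
      fun i j => h1.polar (e i).2 (e j).2⟩
  obtain ⟨qe, qf, ee, ff, ef⟩ := id hf
  have fe := hf.fe
  simp only [h.coe_toQ, h.polar_eq] at qe qf ee ff ef fe
  have he : e 0 ≠ 0 := fun e' => by simpa [e', bf_zero_left] using ef 0 0
  have ht := h.eG_mem (by omega)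
  have hz : h.eG (e 0) (e 1) ∉ scalars ι F := fun h1 => by
    obtain ⟨c, hc⟩ := mem_scalars_iff'.1 h1
    have := congrArg (fun g : GL ι F => bf idF J.1 (f 0) (g.1 *ᵥ f 1)) hc
    simp [h.eG_coe (qe _) (ee _ _), sc_coe, add_mulVec, sub_mulVec, Orth.vecMulVec_mulVec',
      dotProduct_comm _ (f 1), dot_vm, smul_mulVec, bf_add_right, bf_smul_right, qe, ff, ef, fe] at this
  let φ : commutator (Orth.OG h.toQ) →* GL ι F := (isometryGroup F Q).subtype.comp
    ((Omega F Q).subtype.comp (Orth.omegaEquiv h.toQ).symm.toMonoidHom)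
  have hφ : Function.Injective φ := Subtype.val_injective.comp
    (Subtype.val_injective.comp (Orth.omegaEquiv h.toQ).symm.injective)
  have hr : φ.range = omegaGL Q := by
    refine le_antisymm ?_ ?_
    · rintro _ ⟨g, rfl⟩; exact ⟨_, ((Orth.omegaEquiv h.toQ).symm g).2, rfl⟩
    · rintro _ ⟨g, hg, rfl⟩
      exact ⟨Orth.omegaEquiv h.toQ ⟨g, hg⟩, congrArg (fun x : Omega F Q => x.1.1)
        ((Orth.omegaEquiv h.toQ).symm_apply_apply ⟨g, hg⟩)⟩
  obtain ⟨h1, h2⟩ := minNS_of φ (fun g hg => by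
    have hv : ∀ v, (φ g).1 *ᵥ v = g.1.1 v := Orth.toOG_symm_mulVec g.1
    rcases (h.nd.mem_center_commutator_iff hG (by omega) g).1 hg with h1 | h1
    · exact mem_scalars_of_smul (c := 1) (mat_ext_mulVec fun v => by rw [hv, h1]; simp)
    · exact mem_scalars_of_smul (c := -1) (mat_ext_mulVec fun v => by
        rw [hv, h1, Orth.negOne_apply]; simp [neg_mulVec]))
    (h.nd.commutator_perfect hn5) (h.nd.isSimpleGroup hn5) fun h1 => hz (h1 (hr ▸ ht _ _))
  rw [hr] at h1 h2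
  have hI : Irr (omegaGL Q) := fun W hW => by
    by_contra hc
    push Not at hc
    obtain ⟨g, h3, h4⟩ := Max.exists_om_not_stab h.nd hn5 hc.1 hc.2
    refine h4 fun v => ?_
    rw [← Orth.toOG_symm_mulVec]
    exact mem_subspaceStabilizer.1 (le_subspaceStabilizer hW (hr ▸ ⟨⟨g, h3⟩, rfl⟩)) v
  refine ⟨h1, h2, spanA_eq_top_of_rank_one hI he (w := e 0 ᵥ* J.1) (fun e' => he ?_) ?_,
    fun F₀ h3 => eq_top_iff.2 fun a _ => ?_, ⟨_, ht _ _, hz, ?_⟩, ?_⟩
  · exact eq_zero_of_bf_right (σ := idF) J fun x => by rw [bf_id, dotProduct_mulVec, e']; simp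
  · convert mul_mem (sub_mem (coe_mem_spanA (ht (e 0) (e 1))) (one_mem _))
      (sub_mem (coe_mem_spanA (ht (f 1) (e 0))) (one_mem _)) using 1
    simp [h.eG_coe (qe _) (ee _ _), h.eG_coe (qf _) (fe 1 0), add_sub_right_comm,
      mul_add, add_mul, vmv_mul, *]
  · have key : ∀ a : F, (h.eG (e 0) (e 1 + a • f 1) * h.eG (f 0) (e 1 + f 1)).1.trace =
        (1 : Matrix ι ι F).trace - 2 - a := fun a => by
      rw [Units.val_mul, h.eG_coe (qe _) (by simp [bf_add_right, bf_smul_right, *]),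
        h.eG_coe (qf _) (by simp [bf_add_right, *])]
      simp [mul_add, add_mul, mul_sub, sub_mul, vmv_mul, dot_vm, h.add, h.smul, bf_add_left,
        bf_add_right, bf_sub_left, bf_smul_left, bf_smul_right, *]
      ring
    have := sub_mem (h3 _ (mul_mem (ht _ _) (ht _ _))) (h3 _ (mul_mem (ht _ _) (ht _ _)))
      (x := (h.eG (e 0) (e 1 + (0 : F) • f 1) * h.eG (f 0) (e 1 + f 1)).1.trace)
      (y := (h.eG (e 0) (e 1 + a • f 1) * h.eG (f 0) (e 1 + f 1)).1.trace)
    rw [key, key] at this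
    simpa using this
  · refine le_trans (Submodule.finrank_mono ?_) (Orth.finrank_span_pair_le (e 0) (e 1))
    rintro _ ⟨v, rfl⟩
    rw [h.eG_coe (qe _) (ee _ _), add_sub_right_comm, add_sub_right_comm, sub_right_comm, sub_self,
      toLin'_apply, add_mulVec, sub_mulVec, Orth.vecMulVec_mulVec', Orth.vecMulVec_mulVec', zero_mulVec]
    exact add_mem (sub_mem (zero_mem _) (Submodule.smul_mem _ _ (Submodule.subset_span (by simp))))
      (Submodule.smul_mem _ _ (Submodule.subset_span (by simp)))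
  · let E := h.nd.embedIso (Orth.nd_plusQ 2) _ hf.frameMap_Q
    have h3 := (h.nd.of_iso E.symm).prod_right
    have h4 := Orth.finrank_sum E
    have h5 : (Nat.card F : ℤ) ^ (2 * Fintype.card ι - 6) ∣ Nat.card (Orth.OG h.toQ) := by
      rw [← Orth.card_OG_iso E, Orth.card_OG_plus_prod_succ h3 1, Orth.card_OG_plus_prod_succ h3 0,
        show 2 * Fintype.card ι - 6 = (2 * 1 + _) + (2 * 0 + _) from ?_, pow_add]
      · exact mul_dvd_mul (dvd_mul_left _ _) ((dvd_mul_left _ _).mul_right _)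
      · simp at h4; omega
    rw [← hr, ← Nat.card_congr (MonoidHom.ofInjective hφ).toEquiv]
    norm_cast at h5
    rw [← Subgroup.index_mul_card (commutator (Orth.OG h.toQ)), Nat.card_eq_fintype_card] at h5
    have h6 := ((pow_dvd_pow _ (show Fintype.card ι + 1 ≤ 2 * Fintype.card ι - 6 by omega)).trans
      (pow_dvd_pow_of_dvd ringChar_dvd_card _)).trans h5
    have hp := CharP.char_is_prime F (ringChar F)
    by_cases h2 : (2 : F) = 0
    · rw [h.nd.index_commutator_even hG h2 (by omega),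
        CharP.ringChar_of_prime_eq_zero Nat.prime_two (by simpa using h2), pow_succ'] at h6
      rw [CharP.ringChar_of_prime_eq_zero Nat.prime_two (by simpa using h2)]
      exact Nat.dvd_of_mul_dvd_mul_left two_pos h6
    · rw [h.nd.index_commutator_odd h2 (by omega)] at h6
      exact (Nat.Coprime.pow _ 2 ((Nat.coprime_primes hp Nat.prime_two).2
        (Orth.ringChar_ne_two h2))).dvd_of_dvd_mul_left ((pow_dvd_pow _ (by omega)).trans h6)

theorem OCls.not_le [Fintype F] (h : QJ Q J) (hn : 7 ≤ Fintype.card ι) {M : Subgroup (GL ι F)}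
    (hM : OCls Q J M) : ¬ omegaGL Q ≤ M := by
  have A := amb_O h hn
  have := A.nonempty
  rcases hM with ⟨W, h1, h2, rfl⟩ | ⟨W, h1, h2, h3, -, rfl⟩ | ⟨v, -, h1, rfl⟩ |
    ⟨t, D, -, -, h1, rfl⟩ | ⟨t, k, D, -, h1, -, -, -, -, rfl⟩ | ⟨k, D, h1, -, rfl⟩ |
    ⟨r, K, h1, h2, -, -, -, -, rfl⟩ | ⟨K, h1, -, -, -, rfl⟩ |
    ⟨n₁, n₂, e, P, f₁, f₂, -, h1, h2, -, -, -, -, -, -, rfl⟩ |
    ⟨n₁, n₂, e, P, f₁, f₂, h1, h2, -, -, -, -, -, -, -, -, rfl⟩ |
    ⟨F₀, r, P, ζ, h1, h2, -, -, rfl⟩ | ⟨k, t, e, P, f₁, -, h1, h2, -, -, -, rfl⟩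
  · exact A.not_le_subspace h1 (ne_top_of_ts (fun _ => rfl) (h.ts_of_tsq h2))
  · exact A.not_le_subspace h1 (by rintro rfl; simp at h3; omega)
  · have h2 : v ≠ 0 := by rintro rfl; exact h1 h.zero
    exact A.not_le_subspace (by simpa) fun e => by
      have := finrank_span_singleton (K := F) h2
      rw [e] at this; simp at this; omega
  · exact A.not_le_decomp h1.decomp.decomp
  · exact A.not_le_decomp h1.decomp.decomp
  · exact A.not_le_decomp h1
  · exact A.not_le_field h1.two_le h2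
  · exact A.not_le_field le_rfl h1
  · exact A.not_le_tensor (by omega) (by omega) e P
  · refine A.not_le_tensor h1 (by_contra fun h3 => ?_) e P
    obtain rfl : n₂ = 2 := by omega
    obtain rfl : n₁ = 2 := by omega
    have := Fintype.card_congr e
    simp at this; omega
  · exact A.not_le_subfield h1 h2 P
  · exact A.not_le_wreath (by omega) h2 (.inl h1) e P

theorem o_max [Fintype F] (h : QJ Q J) (hn : 7 ≤ Fintype.card ι)
    (hH : IsMaximalIn (omegaGL Q) H) : (∃ M, OCls Q J M ∧ H = M ⊓ omegaGL Q) ∨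
      (∃ k t : ℕ, Even k ∧ 2 ≤ t ∧ Fintype.card ι = k ^ t ∧ (k = 2 → IsPlusTypeOn Q ⊤)) ∨
      InOrthogonalResidualClass H := by
  rw [← or_assoc]
  exact (o_main ⟨h, hH.1.le.trans omegaGL_le_IQ, hH.1.le.trans omegaGL_le_SL, by omega⟩).imp_left
    (.imp_left fun ⟨M, h1, h2⟩ => ⟨M, h1, eq_inf_of_max hH h2 (h1.not_le h hn)⟩)

theorem not_max_of_between {G : Type*} [Group G] {I H : Subgroup G} (h : ∃ K, H < K ∧ K < I) :
    ¬ IsMaximalIn I H := fun hH => by
  obtain ⟨K, h1, h2⟩ := h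
  exact (hH.2 K h1.le h2.le).elim h1.ne' h2.ne

theorem QJ.four_le [Fintype F] (h : QJ Q J) (hn : 5 ≤ Fintype.card ι) {W : Submodule F (ι → F)}
    (hH : IsMaximalIn (omegaGL Q) (subspaceStabilizer W ⊓ omegaGL Q)) (hd : finrank F W = 2)
    (hW : IsNondegenerateOn (QuadraticMap.polar Q) W) (hp : IsPlusTypeOn Q W) :
    4 ≤ Fintype.card F := by_contra fun hq =>
  not_max_of_between (Max.not_max_om_plane h.nd hn (by simp; omega) hd hW hp) hH

theorem QJ.not_parab [Finite F] (h : QJ Q J) (hn : 5 ≤ Fintype.card ι) (hp : IsPlusTypeOn Q ⊤)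
    {W : Submodule F (ι → F)} (hH : IsMaximalIn (omegaGL Q) (subspaceStabilizer W ⊓ omegaGL Q))
    (hW : IsTotallySingularQuad Q W) : 2 * (finrank F W + 1) ≠ Fintype.card ι := fun hd =>
  not_max_of_between (Max.not_max_om_parab h.nd hn hp hW hd) hH

theorem QJ.odd_of_nd [Fintype F] (h : QJ Q J) {W : Submodule F (ι → F)}
    (hW : IsNondegenerateOn (bf idF J.1) W) (ho : Odd (finrank F W)) : Odd (Fintype.card F) :=
  odd_card_iff.2 fun h2 => Nat.not_even_iff_odd.2 ho ((h.alt h2).even_finrank hW)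

theorem QJ.odd_of_dec [Fintype F] (h : QJ Q J) {t k : ℕ} {D : Fin t → Submodule F (ι → F)}
    (hD : IsOrthogonalMDecomposition Q k D) (ho : Odd k) : Odd (Fintype.card F) := by
  have := hD.decomp.decomp.two_le
  exact h.odd_of_nd (h.polar_eq ▸ hD.decomp.nondegenerate ⟨0, by omega⟩)
    (hD.decomp.decomp.finrank_eq _ ▸ ho)

theorem QJ.plus_iff_mod [Fintype F] (h : QJ Q J) (ho : Odd (Fintype.card F)) {m : ℕ}
    (hm : Fintype.card ι = 2 * m) :
    IsPlusTypeOn Q ⊤ ↔ (IsSquare J.1.det ↔ (Even m ∨ Fintype.card F % 4 = 1)) := by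
  have h2 := odd_card_iff.1 ho
  rw [h.plus_iff_disc h2 hm, Orth.isSquare_mul_iff (isUnits_det_units J).ne_zero (by simp)]
  refine iff_congr .rfl ?_
  rcases Nat.even_or_odd m with he | he
  · simp [he, he.neg_one_pow]
  · rw [he.neg_one_pow, FiniteField.isSquare_neg_one_iff, ← Nat.not_odd_iff_even]
    obtain ⟨k, hk⟩ := ho
    simp [he]; omega

theorem QJ.stab_perp (h : QJ Q J) (W : Submodule F (ι → F)) :
    subspaceStabilizer W ⊓ omegaGL Q = subspaceStabilizer (perp idF J.1 W) ⊓ omegaGL Q := by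
  have hs := omegaGL_le_IQ.trans (h.le_Iso.trans (Iso_le_sim _ _))
  refine le_antisymm (fun g hg => ⟨perp_mem_of_sim (hs hg.2) hg.1, hg.2⟩) fun g hg => ⟨?_, hg.2⟩
  exact h.gram.perp_perp W ▸ perp_mem_of_sim (hs hg.2) hg.1

theorem QJ.half [Fintype F] (h : QJ Q J) (hn : 7 ≤ Fintype.card ι) {W : Submodule F (ι → F)}
    (hH : IsMaximalIn (omegaGL Q) (subspaceStabilizer W ⊓ omegaGL Q)) (h0 : W ≠ ⊥)
    (hW : IsNondegenerateOn (bf idF J.1) W) {k : ℕ} (hk : finrank F W = k)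
    (hd : 2 * k = Fintype.card ι) :
    IsNondegenerateMDecomposition (bf idF J.1) k ![W, perp idF J.1 W] ∧
      subspaceStabilizer W ⊓ omegaGL Q =
        decompositionStabilizer ![W, perp idF J.1 W] ⊓ omegaGL Q := by
  subst hk
  have h1 := h.gram.nd_pair h0 hW hd
  exact ⟨h1, eq_inf_of_max hH (le_decomp_pair inf_le_left ((h.stab_perp W).le.trans inf_le_left))
    ((amb_O h hn).not_le_decomp h1.decomp)⟩

theorem QJ.isometric_half [Finite F] (h : QJ Q J) {W : Submodule F (ι → F)}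
    (hW : IsNondegenerateOn (bf idF J.1) W) (he : Even (finrank F W))
    (hd : 2 * finrank F W = Fintype.card ι) (hp : IsPlusTypeOn Q ⊤) :
    AreIsometricFor Q W (perp idF J.1 W) := by
  have := finrank_perp (σ := idF) (fun _ => rfl) J W
  refine (h.isometric_iff _ _).2 ((h.nd_restrict hW).iso_of_isPlus_iff
    (h.nd_restrict (h.gram.nd_perp hW)) (by omega) he ?_)
  rw [← h.plusOn_iff, ← h.plusOn_iff, ← h.plus_perp hW he ⟨finrank F W, by omega⟩]
  exact hp

theorem QJ.odd_index [Fintype F] (h : QJ Q J) (he : Even (Fintype.card ι))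
    (hp : ¬ IsPlusTypeOn Q ⊤) {F₀ : Subfield F} {r : ℕ} {P : GL ι F} {ζ : F} (hr : r.Prime)
    (hF : Fintype.card F = Nat.card F₀ ^ r) (hζ : ζ ≠ 0)
    (hR : IsQuadFormRationalStructure (fun v => ζ * Q v) F₀ P) : Odd r :=
  hr.eq_two_or_odd'.resolve_left fun e => hp <| by
    obtain ⟨U, h1, h2, h3⟩ := ((h.pq (Equiv.refl ι) P).smul' (Units.mk0 ζ hζ)).plus_of_subfield he
      (by rw [Nat.card_eq_fintype_card, hF, e]) hR
    exact (h.plus_pq (Equiv.refl ι) P).1
      ⟨U, h1, fun w hw => (mul_eq_zero.1 (h2 w hw)).resolve_left hζ, h3⟩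

theorem QJ.rescale (h : QJ Q J) {m : ℕ} (hm : Fintype.card ι = 2 * m + 1) {F₀ : Subfield F}
    (hd : J.1.det ∈ F₀) {P : GL ι F} {ζ : F} (hζ : ζ ≠ 0)
    (hR : IsQuadFormRationalStructure (fun v => ζ * Q v) F₀ P) :
    ∃ P', IsQuadFormRationalStructure Q F₀ P' ∧ subfieldSubgroup F₀ P = subfieldSubgroup F₀ P' := by
  obtain ⟨Q₀, J₀, -, h1, -⟩ := ((h.pq (Equiv.refl ι) P).smul' (Units.mk0 ζ hζ)).exists_base hR
  have h2 : ζ ^ (2 * m + 1) * P.1.det ^ 2 ∈ F₀ := by
    have := congrArg (fun g : GL ι F => g.1.det) h1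
    simp only [Units.val_mul, sc_coe, smul_mul_assoc, one_mul, det_smul, det_pull, hm, map_coe,
      ← RingHom.mapMatrix_apply, ← RingHom.map_det, Units.val_mk0, RingHom.id_apply] at this
    rw [(eq_div_iff (isUnits_det_units J).ne_zero).2 (by rw [← this]; ring :
      ζ ^ (2 * m + 1) * P.1.det ^ 2 * J.1.det = F₀.subtype J₀.1.det)]
    exact div_mem J₀.1.det.2 hd
  refine ⟨P * sc ι (Units.mk0 ζ hζ ^ (m + 1) * GeneralLinearGroup.det P), fun u hu => ?_,
    (subfieldSubgroup_mul_sc _ _ _).symm⟩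
  convert mul_mem h2 (hR u hu) using 1
  simp only [Units.val_mul, sc_coe, mul_smul_comm, mul_one, smul_mulVec, h.smul,
    Units.val_pow_eq_pow_val, Units.val_mk0, GeneralLinearGroup.val_det_apply]
  ring

theorem exists_qj_odd (m : ℕ) (h2 : (2 : F) ≠ 0) :
    ∃ J, QJ (quadFormOdd m F) J ∧ ∀ F₀ : Subfield F, J.1.det ∈ F₀ := by
  obtain ⟨J, h⟩ := exists_QJ (Q := Orth.oddQ m F) ⟨Orth.q_smul _, ⟨QuadraticMap.polar_add_left _,
    Orth.p_smul_left _, QuadraticMap.polar_add_right _, fun c v x => Orth.p_smul_right _ c v x⟩,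
    fun v hv => by
      obtain ⟨y, hy⟩ := (Orth.nd_oddQ m h2).exists_polar_one hv
      exact ⟨⟨y, by simp [QuadraticMap.polar_comm _ y, hy]⟩, y, by simp [hy]⟩⟩
  refine ⟨J, h, fun F₀ => ?_⟩
  rw [← h.gram_toQ, show h.toQ = Orth.oddQ m F from QuadraticMap.ext fun _ => rfl, Orth.det_gram_oddQ]
  exact mul_mem (natCast_mem F₀ 2) (pow_mem (neg_mem (one_mem _)) _)

end Cfsg.Agent.Asch
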