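import Mathlib
import Cfsg.Agent.Asch.OAux
import Cfsg.Agent.Comp.Mat2

/-! The extraspecial group of order 27 in dimension three, and `GU₂(2)`, `GU₃(2)`. -/

set_option autoImplicit false

namespace Cfsg.Agent.Asch

open Matrix Cfsg.Geo Cfsg.Agent.Herm
open scoped MatrixGroups

variable {F : Type*} [Field F]

/-- A cyclic monomial matrix. -/
def m3 {R : Type*} [Zero R] (s : Fin 3) (d : Fin 3 → R) : Matrix (Fin 3) (Fin 3) R :=
  of fun i j => if i = j + s then d j else 0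

theorem m3_mul (s t : Fin 3) (d e : Fin 3 → F) :
    m3 s d * m3 t e = m3 (t + s) fun j => d (j + t) * e j := by
  ext i j
  simp [m3, mul_apply, add_assoc]

theorem m3_zero (c : F) : m3 0 (fun _ => c) = c • 1 := by
  ext i j
  simp [m3, one_apply]

theorem m3_cube {s : Fin 3} {d : Fin 3 → F} (h1 : ∀ i, d i ^ 3 = 1) (h2 : d 0 * d 1 * d 2 = 1) :
    m3 s d * (m3 s d * m3 s d) = 1 := by
  rw [m3_mul, m3_mul, show s + s + s = 0 by revert s; decide, ← one_smul F 1, ← m3_zero]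
  congr 1
  ext j
  have := h1 j
  fin_cases s <;> fin_cases j <;> simp at this ⊢ <;> grind

/-- The group `3^(1+2)`. -/
def R27 (F : Type*) [Field F] : Subgroup (GL (Fin 3) F) where
  carrier := {g | ∃ s d, (∀ i, d i ^ 3 = 1) ∧ d 0 * d 1 * d 2 = 1 ∧ g.1 = m3 s d}
  mul_mem' := by
    rintro x y ⟨s, d, h1, h2, h3⟩ ⟨t, e, h4, h5, h6⟩
    refine ⟨_, _, fun i => ?_, ?_, by rw [Units.val_mul, h3, h6, m3_mul]⟩
    · rw [mul_pow, h1, h4, one_mul]
    · fin_cases t <;> simp <;> grind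
  one_mem' := ⟨0, fun _ => 1, by simp, by simp, by simp [m3_zero]⟩
  inv_mem' := by
    rintro x ⟨s, d, h1, h2, h3⟩
    refine ⟨s + s, fun j => d (j + s) * d j, fun i => ?_, ?_, Units.inv_eq_of_mul_eq_one_right
      (by rw [h3, ← m3_mul, m3_cube h1 h2])⟩
    · rw [mul_pow, h1, h1, one_mul]
    · fin_cases s <;> simp <;> grind

theorem full_R27 : Full 3 (R27 F) := fun c hc =>
  have h : (c : F) ^ 3 = 1 := by rw [← Units.val_pow_eq_pow_val, hc, Units.val_one]
  ⟨0, fun _ => c, fun _ => h, by linear_combination h, by rw [m3_zero, sc_coe]⟩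

theorem R27_pow {x : GL (Fin 3) F} (hx : x ∈ R27 F) : x ^ 3 = 1 := by
  obtain ⟨s, d, h1, h2, h3⟩ := hx
  exact Units.ext (by simpa [pow_succ', h3] using m3_cube h1 h2)

theorem R27_det {x : GL (Fin 3) F} (hx : x ∈ R27 F) : x.1.det = 1 := by
  obtain ⟨s, d, -, h2, h3⟩ := hx
  rw [h3, det_fin_three]
  fin_cases s <;> simp [m3] <;> grind

theorem es_R27 {ω : F} (hω : ω ^ 2 + ω + 1 = 0) (h3 : (3 : F) ≠ 0) : ES 3 (R27 F) := by
  refine ⟨Nat.prime_three, eq_top_iff.2 fun x _ => ?_, ?_, fun x hx => R27_pow hx,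
    fun x hx => R27_pow hx ▸ one_mem _⟩
  · have key : ∀ s d, (∀ i, d i ^ 3 = 1) → d 0 * d 1 * d 2 = 1 → m3 s d ∈ spanA (R27 F) :=
      fun s d h1 h2 => coe_mem_spanA (g := ⟨_, _, m3_cube h1 h2, by
        rw [mul_assoc, m3_cube h1 h2]⟩) ⟨s, d, h1, h2, rfl⟩
    have h4 : ∀ s d, m3 s d ∈ spanA (R27 F) := fun s d => by
      convert add_mem (add_mem
        ((spanA (R27 F)).smul_mem (key s ![1, 1, 1] (fun i => by fin_cases i <;> simp) (by simp))
          ((d 0 + d 1 + d 2) / 3))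
        ((spanA (R27 F)).smul_mem (key s ![1, ω, ω ^ 2] (fun i => by fin_cases i <;> simp <;> grind)
          (by simp; grind)) ((d 0 + ω ^ 2 * d 1 + ω * d 2) / 3)))
        ((spanA (R27 F)).smul_mem (key s ![1, ω ^ 2, ω] (fun i => by fin_cases i <;> simp <;> grind)
          (by simp; grind)) ((d 0 + ω * d 1 + ω ^ 2 * d 2) / 3))
      ext i j
      simp only [m3, of_apply, Matrix.add_apply, Matrix.smul_apply, smul_eq_mul]
      split_ifs
      · fin_cases j <;> simp <;> field_simp <;> grind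
      · simp
    convert sum_mem fun s (_ : s ∈ Finset.univ) => h4 s fun j => x (j + s) j
    ext i j
    simp only [Matrix.sum_apply, m3, of_apply]
    rw [Finset.sum_eq_single (i - j) (fun s _ hs => if_neg (by rintro rfl; simp at hs)) (by simp)]
    simp
  · rintro x ⟨s, d, h1, h2, h3⟩ y ⟨t, e, h4, h5, h6⟩
    have h7 : e s * d 0 * (d t * e 0) ^ 2 ≠ 0 := by
      have := h1 0; have := h1 t; have := h4 0; have := h4 s; grind
    refine ⟨Units.mk0 _ h7, Units.ext ?_⟩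
    rw [Units.val_mul, Units.val_mul, Units.val_mul, sc_coe, h3, h6, ← m3_zero, m3_mul, m3_mul,
      m3_mul, add_zero, add_comm]
    congr 1
    ext j
    have := h1 0; have := h1 1; have := h1 2; have := h4 0; have := h4 1; have := h4 2
    fin_cases s <;> fin_cases t <;> fin_cases j <;> simp <;> grind

theorem R27_le_Iso {σ : F →+* F} (h : ∀ c : F, c ^ 3 = 1 → c * σ c = 1) :
    R27 F ≤ Iso σ (1 : GL (Fin 3) F).1 := by
  rintro x ⟨s, d, h1, -, h3⟩
  rw [mem_Iso, cg, h3]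
  ext i j
  simp only [Units.val_one, Matrix.mul_one, mul_apply, transpose_apply, map_apply, m3, of_apply]
  rw [Finset.sum_eq_single (i + s) (fun k _ hk => by simp [hk]) (by simp)]
  by_cases e : i = j <;> simp [e, h, h1, one_apply]

theorem exists_K4 [Fintype F] (h : Fintype.card F = 2 ^ 2) : Nonempty (Comp.K4 ≃+* F) :=
  ⟨FiniteField.ringEquivOfCardEq (Comp.card_K4.trans h.symm)⟩

set_option synthInstance.maxSize 4000 in
theorem u32_aux : ∀ a b c : Comp.K4, a * a ^ 2 + b * b ^ 2 + c * c ^ 2 = 1 →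
    ∀ d e f : Comp.K4, d * d ^ 2 + e * e ^ 2 + f * f ^ 2 = 1 → a * d ^ 2 + b * e ^ 2 + c * f ^ 2 = 0 →
    ∀ g h i : Comp.K4, g * g ^ 2 + h * h ^ 2 + i * i ^ 2 = 1 → a * g ^ 2 + b * h ^ 2 + c * i ^ 2 = 0 →
      d * g ^ 2 + e * h ^ 2 + f * i ^ 2 = 0 →
      a * e * i - a * h * f - d * b * i + d * h * c + g * b * f - g * e * c = 1 →
      let y := !![a, d, g; b, e, h; c, f, i]
      y * (y * y) = 1 → ∃ s, y = m3 s (fun j => y (j + s) j) ∧
        y (0 + s) 0 * y (1 + s) 1 * y (2 + s) 2 = 1 := by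
  dsimp only
  decide +kernel

theorem conj_mem_R27 [Fintype F] (hF : Fintype.card F = 2 ^ 2) {σ : F →+* F}
    (hσ : ∀ a, σ a = a ^ 2) {g : GL (Fin 3) F} (hg : g ∈ Iso σ (1 : GL (Fin 3) F).1) :
    ∀ x ∈ R27 F, g * x * g⁻¹ ∈ R27 F := by
  intro x hx
  have h0 : ∀ c : F, c ≠ 0 → c ^ 3 = 1 := fun c hc => by
    simpa [hF] using FiniteField.pow_card_sub_one_eq_one c hc
  have h1 := mul_mem (mul_mem hg (R27_le_Iso (fun c hc => by rw [hσ, ← pow_succ', hc]) hx))
    (inv_mem hg)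
  have h2 : (g * x * g⁻¹) ^ 3 = 1 := by rw [conj_pow, R27_pow hx]; simp
  have h3 : (g * x * g⁻¹).1.det = 1 := by
    rw [← cj_coe, cj_apply, det_units_conj, R27_det hx]
  generalize g * x * g⁻¹ = y at h1 h2 h3
  obtain ⟨φ⟩ := exists_K4 hF
  obtain ⟨z, hz⟩ := φ.mapMatrix.surjective y.1
  have h4 : ∀ i j, ∑ k, z k i * z k j ^ 2 = if i = j then 1 else 0 := fun i j => φ.injective (by
    have := congrFun (congrFun (mem_Iso.1 h1) i) j
    simpa [cg, mul_apply, ← hz, hσ, one_apply, apply_ite φ] using this)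
  have h5 : z.det = 1 := φ.injective (by rw [RingEquiv.map_det, hz, h3, map_one])
  have h6 : z * (z * z) = 1 := φ.mapMatrix.injective (by
    rw [map_mul, map_mul, hz, map_one]; simpa [pow_succ'] using congrArg Units.val h2)
  simp only [Fin.sum_univ_three] at h4
  rw [det_fin_three] at h5
  rw [eta_fin_three z] at h6
  obtain ⟨s, h7, h8⟩ := u32_aux _ _ _ (h4 0 0) _ _ _ (h4 1 1) (h4 0 1) _ _ _ (h4 2 2) (h4 0 2)
    (h4 1 2) (by linear_combination h5) h6
  rw [← eta_fin_three z] at h7 h8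
  have h9 : y.1 (0 + s) 0 * y.1 (1 + s) 1 * y.1 (2 + s) 2 = 1 := by
    simpa [← hz] using congrArg φ h8
  refine ⟨s, fun j => y.1 (j + s) j, fun j => h0 _ fun e => ?_, h9, ?_⟩
  · fin_cases j <;> simp at e h9 <;> simp [e] at h9
  · ext i j
    have := congrArg φ (congrFun (congrFun h7 i) j)
    simpa [m3, ← hz, apply_ite φ] using this

theorem mono_u2 [Fintype F] (hF : Fintype.card F = 2 ^ 2) {σ : F →+* F} (hσ : ∀ a, σ a = a ^ 2)
    {g : GL (Fin 2) F} (hg : g ∈ Iso σ (1 : GL (Fin 2) F).1) : Mono g.1 := by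
  have h0 : ∀ c : F, c ≠ 0 → c * c ^ 2 = 1 := fun c hc => by
    simpa [hF, pow_succ'] using FiniteField.pow_card_sub_one_eq_one c hc
  have h2 : (2 : F) = 0 := two_eq_zero_of_even (by rw [hF]; decide)
  intro j i i' h1 h3
  by_contra hne
  have := congrFun (congrFun (mem_Iso.1 hg) j) j
  simp only [cg, Units.val_one, Matrix.mul_one, mul_apply, transpose_apply, map_apply, hσ,
    Fin.sum_univ_two, one_apply_eq] at this
  have h4 : g.1 0 j ≠ 0 ∧ g.1 1 j ≠ 0 := by fin_cases i <;> fin_cases i' <;> simp_all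
  rw [h0 _ h4.1, h0 _ h4.2] at this
  simp at this

end Cfsg.Agent.Asch
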