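import Mathlib
import Cfsg.Agent.Asch.U3
import Cfsg.Agent.Asch.Orth2
import Cfsg.Agent.Herm.Matrix

/-! Subgroups of unitary groups. -/

set_option autoImplicit false

namespace Cfsg.Agent.Asch

open Matrix Cfsg.Geo Cfsg.Agent.Herm Module
open scoped MatrixGroups Kronecker commutatorElement

variable {ι κ : Type} [Fintype ι] [DecidableEq ι] [Fintype κ] [DecidableEq κ] {F : Type*} [Field F]

local notation "idF" => RingHom.id _

/-- The geometric classes for a unitary group, without most members that lie in others. -/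
def UCls [Fintype F] (q : ℕ) (σ : F →+* F) (J : GL ι F) (M : Subgroup (GL ι F)) : Prop :=
  (∃ W : Submodule F (ι → F), W ≠ ⊥ ∧ IsTotallySingularFor (bf σ J.1) W ∧
    M = subspaceStabilizer W) ∨
  (∃ W : Submodule F (ι → F), W ≠ ⊥ ∧ IsNondegenerateOn (bf σ J.1) W ∧
    2 * finrank F W < Fintype.card ι ∧ M = subspaceStabilizer W) ∨
  (∃ (t k : ℕ) (D : Fin t → Submodule F (ι → F)), IsNondegenerateMDecomposition (bf σ J.1) k D ∧
    ¬ (q = 2 ∧ k = 2) ∧ ¬ (q = 3 ∧ k = 1 ∧ t = 4) ∧ M = decompositionStabilizer D) ∨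
  (∃ (k : ℕ) (D : Fin 2 → Submodule F (ι → F)), IsMDecomposition k D ∧
    (∀ i, IsTotallySingularFor (bf σ J.1) (D i)) ∧ ¬ (q ≤ 3 ∧ k = 2) ∧
    M = decompositionStabilizer D) ∨
  (∃ (F₀ : Subfield F) (r : ℕ) (P : GL ι F), r.Prime ∧ Odd r ∧
    Fintype.card F = Nat.card F₀ ^ r ∧ IsFormRationalStructure (bf σ J.1) F₀ 1 P ∧
    M = subfieldSubgroup F₀ P) ∨
  (∃ P : GL ι F, Odd q ∧ (cg σ P.1 J.1).map σ = cg σ P.1 J.1 ∧ M = subfieldSubgroup (fixF σ) P) ∨
  (∃ (F₀ : Subfield F) (P : GL ι F) (ζ : F), Even (Fintype.card ι) ∧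
    Fintype.card F = Nat.card F₀ ^ 2 ∧ ζ ≠ 0 ∧ ζ + σ ζ = 0 ∧
    IsFormRationalStructure (bf σ J.1) F₀ ζ P ∧
    (∀ u : ι → F, (∀ i, u i ∈ F₀) → bf σ J.1 (P.1 *ᵥ u) (P.1 *ᵥ u) = 0) ∧
    M = subfieldSubgroup F₀ P) ∨
  (∃ (r : ℕ) (R : Subgroup (GL ι F)) (p e k : ℕ), ES r R ∧ IsSymplecticTypeGroup r R ∧
    R ≤ similarityGroup (bf σ J.1) ∧ r ≠ p ∧
    IsMinimalFieldFor (Nat.card (Subgroup.center R)) p e F ∧ Fintype.card ι = r ^ k ∧ 1 ≤ k ∧
    ((Odd r ∧ R ≤ Iso σ J.1 ∧ Nat.card (Subgroup.center R) = r ∧ Nat.card R = r ^ (1 + 2 * k)) ∨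
      (r = 2 ∧ e = 2 ∧ Nat.card (Subgroup.center R) = 4 ∧ Nat.card R = 2 ^ (2 + 2 * k))) ∧
    M = subgroupNormalizer R) ∨
  (∃ (r : ℕ) (K : Subalgebra F (Matrix ι ι F)), r.Prime ∧ Odd r ∧ IsFieldSubalgebra r K ∧
    AdjSt σ J K ∧ M = subalgebraNormalizer K) ∨
  (∃ (n₁ n₂ : ℕ) (e : ι ≃ Fin n₁ × Fin n₂) (P : GL ι F), 2 ≤ n₁ ∧ n₁ < n₂ ∧ ¬ (q = 2 ∧ n₁ = 2) ∧
    pull σ e P J = 1 ∧ M = tensorProductSubgroup n₁ n₂ e P) ∨
  (∃ (k t : ℕ) (e : ι ≃ (Fin t → Fin k)) (P : GL ι F), 3 ≤ k ∧ 2 ≤ t ∧ ¬ (q = 2 ∧ k = 3) ∧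
    pull σ e P J = 1 ∧ M = tensorWreathSubgroup k t e P)

/-- `H` lies in a geometric subgroup. -/
def UOut [Fintype F] (q : ℕ) (σ : F →+* F) (J : GL ι F) (H : Subgroup (GL ι F)) : Prop :=
  ∃ M, UCls q σ J M ∧ H ≤ M

/-- The standing hypotheses on the form. -/
structure UF [Fintype F] (q : ℕ) (σ : F →+* F) (J : GL ι F) : Prop where
  inv : Herm.Inv σ
  card : Fintype.card F = q ^ 2
  gram : Gram σ 1 J
  three : 3 ≤ Fintype.card ι

variable {σ : F →+* F} {J : GL ι F} {H : Subgroup (GL ι F)} {q : ℕ}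

theorem exists_equiv_of_inv (h : Herm.Inv σ) :
    ∃ ψ : F ≃+* F, ψ.toRingHom = σ ∧ orderOf ψ = 2 := by
  let ψ : F ≃+* F := { σ with invFun := σ, left_inv := h.invol, right_inv := h.invol }
  refine ⟨ψ, rfl, orderOf_eq_prime (RingEquiv.ext h.invol) fun e => ?_⟩
  obtain ⟨a, ha⟩ := h.ne
  exact ha (congrArg (· a) e)

theorem eq_of_order_two [Fintype F] (h : Herm.Inv σ) (hF : Fintype.card F = q ^ 2) {ψ : F ≃+* F}
    (h2 : orderOf ψ = 2) : ψ.toRingHom = σ := by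
  have h3 : Herm.Inv ψ.toRingHom := ⟨fun a => congrArg (· a) (h2 ▸ pow_orderOf_eq_one ψ), by
    by_contra hc
    push Not at hc
    rw [show ψ = 1 from RingEquiv.ext hc] at h2
    simp at h2⟩
  ext a
  rw [h3.apply_pow (natCard_of_card hF), h.apply_pow (natCard_of_card hF)]

/-- The form as a sesquilinear map. -/
def gB (σ : F →+* F) (J : Matrix ι ι F) : (ι → F) →ₛₗ[σ] (ι → F) →ₗ[F] F :=
  LinearMap.mk₂'ₛₗ σ idF (fun u v => bf σ J v u) (fun _ _ _ => bf_add_right ..)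
    (fun _ _ _ => bf_smul_right ..) (fun _ _ _ => bf_add_left ..) fun _ _ _ => bf_smul_left ..

omit [DecidableEq ι] in
theorem gB_apply (J : Matrix ι ι F) (u v : ι → F) : gB σ J u v = bf σ J v u := rfl

theorem Gram.hf (hσ : Herm.Inv σ) (hJ : Gram σ 1 J) : HF (gB σ J.1) :=
  ⟨hσ, fun x y => by rw [gB_apply, gB_apply, hJ.symm x, one_mul],
    fun _ h => eq_zero_of_bf_left J h⟩

theorem Gram.exists_pull_one [Finite F] (hσ : Herm.Inv σ) (hJ : Gram σ 1 J) (e : ι ≃ κ) :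
    ∃ P, Asch.pull σ e P J = 1 := by
  obtain ⟨b, hb⟩ := (hJ.hf hσ).exists_orthonormal (n := Fintype.card κ)
    (by rw [finrank_fintype_fun_eq_card, Fintype.card_congr e])
  obtain ⟨P, hP, -⟩ := exists_frame_of_gram (σ := σ) (J := J) e
    (fun x => b (Fintype.equivFin κ x)) 1 fun x y => by
      rw [← gB_apply, hb]; simp [one_apply, eq_comm]
  exact ⟨P, hP⟩

theorem Gram.exists_cgG_one [Finite F] (hσ : Herm.Inv σ) (hJ : Gram σ 1 J) :
    ∃ P, Asch.cgG σ P J = 1 := by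
  simpa only [pull_refl] using hJ.exists_pull_one hσ (Equiv.refl _)

theorem bmG_one {α τ : Type} [Fintype α] [DecidableEq α] [Fintype τ] [DecidableEq τ] :
    bmG (fun _ : τ => (1 : GL α F)) 1 = 1 := Units.ext bm_one

theorem Gram.exists_on_frame [Finite F] (hσ : Herm.Inv σ) (hJ : Gram σ 1 J) {t k : ℕ}
    {D : Fin t → Submodule F (ι → F)} (hD : IsNondegenerateMDecomposition (bf σ J.1) k D) :
    ∃ (e : ι ≃ Fin k × Fin t) (P : GL ι F), DFrame D e P ∧ Asch.pull σ e P J = 1 := by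
  obtain ⟨e, P, hP⟩ := exists_dFrame' hD.decomp
  obtain ⟨a, ha⟩ := hP.pull_nd hD
  choose c hc using fun i => (Gram.of_bmG (ha ▸ hJ.pull e P) i).exists_cgG_one hσ
  refine ⟨e, _, hP.mul c, Units.ext ?_⟩
  rw [pull_mul, ha, cgG_coe, bmG_coe, bmG_coe, cg_bm]
  simp only [Equiv.Perm.coe_one, id, ← cgG_coe, hc, Units.val_one, bm_one]

theorem Gram.exists_kG_one [Finite F] (hσ : Herm.Inv σ) (hJ : Gram σ 1 J) {α β : Type} [Fintype α]
    [DecidableEq α] [Fintype β] [DecidableEq β] [Nonempty α] [Nonempty β] {e : ι ≃ α × β}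
    {P : GL ι F} {J₁ : GL α F} {J₂ : GL β F} (hp : Asch.pull σ e P J = Asch.kG J₁ J₂) :
    ∃ a b, Asch.pull σ e (P * frG e 1 (Asch.kG a b)) J = 1 := by
  obtain ⟨ε₁, ε₂, g1, g2, hε⟩ := (hp ▸ hJ.pull e P).of_kG
  obtain ⟨c, hc⟩ := g1.exists_herm hσ
  have h1 : Asch.kG J₁ J₂ = Asch.kG (sc _ c * J₁) (sc _ c⁻¹ * J₂) := by
    rw [kG_sc_left, kG_sc_right, ← mul_assoc, ← map_mul]; simp
  obtain ⟨δ₁, δ₂, g3, g4, hδ⟩ := (h1 ▸ hp ▸ hJ.pull e P).of_kG
  rw [g3.unique hc, one_mul] at hδ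
  obtain ⟨a, ha⟩ := hc.exists_cgG_one hσ
  obtain ⟨b, hb⟩ := (hδ ▸ g4).exists_cgG_one hσ
  exact ⟨a, b, by rw [pull_mul, hp, h1, cgG_kG, ha, hb]; ext1; simp [kG_coe]⟩

theorem exists_norm_unit [Finite F] (hσ : Herm.Inv σ) {c : Fˣ} (hc : σ c = c) :
    ∃ a : Fˣ, (a : F) * σ a = c := by
  obtain ⟨x, hx⟩ := hσ.exists_norm hc
  exact ⟨Units.mk0 x (by rintro rfl; simp at hx; exact c.ne_zero hx.symm), by simpa [mul_comm] using hx⟩

theorem pull_mul_sc (σ : F →+* F) (e : ι ≃ κ) (P J : GL ι F) (a : Fˣ) :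
    (pull σ e (P * sc ι a) J).1 = (a * σ a) • (pull σ e P J).1 := by
  rw [← frG_sc e 1, pull_mul, cgG_coe, sc_coe, cg_smul_left, cg_one]

theorem frG_mul_sc (e : ι ≃ κ) (P : GL ι F) (a : Fˣ) : frG e (P * sc ι a) = frG e P := by
  ext1 g
  rw [← frG_mul e P (sc κ a), frG_sc, mul_assoc, ← sc_comm a g, inv_mul_cancel_left]

theorem Gram.exists_ptG_one [Finite F] (hσ : Herm.Inv σ) (hJ : Gram σ 1 J) {k t : ℕ} (hk : 0 < k)
    {e : ι ≃ (Fin t → Fin k)} {P : GL ι F} {c : Fˣ} {J₁ : GL (Fin k) F} {δ : F} (h1 : Gram σ δ J₁)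
    (hp : Asch.pull σ e P J = sc _ c * Asch.ptG fun _ => J₁) :
    ∃ P', Asch.pull σ e P' J = 1 ∧ tensorWreathSubgroup k t e P' = tensorWreathSubgroup k t e P := by
  have : Nonempty (Fin k) := ⟨⟨0, hk⟩⟩
  obtain ⟨d, hd⟩ := h1.exists_herm hσ
  obtain ⟨b, hb⟩ := hd.exists_cgG_one hσ
  have h2 : Asch.pull σ e (P * frG e 1 (Asch.ptG fun _ => b)) J = sc _ (c * ∏ _ : Fin t, d⁻¹) := by
    have : (fun _ : Fin t => J₁) = (fun _ => sc _ d⁻¹) * fun _ => sc _ d * J₁ := by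
      ext1; simp
    rw [pull_mul, hp, this, ptG_mul, ptG_sc, ← mul_assoc, ← map_mul, cgG_ptG, hb]
    exact (congrArg _ ptG_one).trans (mul_one _)
  generalize c * _ = c' at h2
  obtain ⟨a, ha⟩ := exists_norm_unit hσ (c := c'⁻¹) (by
    have := congrFun (congrFun (h2 ▸ hJ.pull e _).herm fun _ => ⟨0, hk⟩) fun _ => ⟨0, hk⟩
    simp only [sc_coe, transpose_apply, Matrix.smul_apply, one_apply_eq, smul_eq_mul, mul_one,
      one_mul, map_apply] at this
    simp [← this])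
  refine ⟨P * frG e 1 (Asch.ptG fun _ => b) * sc ι a, Units.ext ?_, ?_⟩
  · rw [pull_mul_sc, h2, ha, sc_coe, smul_smul]; simp
  · rw [← tensorWreathSubgroup_mul e P b]
    ext g
    simp only [mem_tensorWreathSubgroup, frG_mul_sc]

theorem mem_sim_id {M : Matrix ι ι F} {k : GL ι F} (hk : k.1.map σ = k.1) {a : Fˣ}
    (h : k * sc ι a ∈ similarityGroup (bf σ M)) : k * sc ι a ∈ similarityGroup (bf idF M) := by
  rw [mul_mem_cancel_right (scalars_le_sim _ _ (sc_mem a)), mem_sim] at h ⊢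
  simpa only [cg, hk, RingHom.coe_id, map_id] using h

omit [DecidableEq ι] in
theorem bf_eq_id {M : Matrix ι ι F} {u v : ι → F} (h : ∀ i, v i ∈ fixF σ) :
    bf σ M u v = bf idF M u v := by
  rw [bf, bf, show σ ∘ v = v from funext h]; rfl

theorem frG_refl (P g : GL ι F) : frG (Equiv.refl ι) P g = P * g * P⁻¹ := Units.ext rfl

section

variable [Fintype F]

theorem UF.nonempty (U : UF q σ J) : Nonempty ι :=
  Fintype.card_pos_iff.1 (by have := U.three; omega)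

theorem UF.two_le (U : UF q σ J) : 2 ≤ q := two_le_of_card (natCard_of_card U.card)

theorem UF.pow (U : UF q σ J) (a : F) : σ a = a ^ q := U.inv.apply_pow (natCard_of_card U.card) a

theorem UF.odd_iff (U : UF q σ J) : Odd q ↔ (2 : F) ≠ 0 := by
  rw [← odd_card_iff, U.card, Nat.odd_pow_iff two_ne_zero]

theorem UF.card_eq (U : UF q σ J) : Fintype.card F = Nat.card (fixF σ) ^ 2 := by
  rw [← U.inv.card_eq_sq, Nat.card_eq_fintype_card]

theorem UF.pull (U : UF q σ J) (e : ι ≃ κ) (P : GL ι F) : UF q σ (pull σ e P J) :=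
  ⟨U.inv, U.card, U.gram.pull e P, Fintype.card_congr e ▸ U.three⟩

theorem UOut.mono {G : Subgroup (GL ι F)} (h : UOut q σ J G) (hle : H ≤ G) : UOut q σ J H :=
  h.imp fun _ h => ⟨h.1, hle.trans h.2⟩

theorem u_sub (U : UF q σ J) (hH : Irr H) (hs : H ≤ similarityGroup (bf σ J.1)) {ψ : F ≃+* F}
    (hψ : (orderOf ψ).Prime) {P : GL ι F} (h : H ≤ subfieldSubgroup (fixF ψ.toRingHom) P) {ν : F}
    (hν : (cg σ P.1 J.1).map ψ = ν • cg σ P.1 J.1) : UOut q σ J H := by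
  have := U.nonempty
  obtain ⟨ζ, hζ, hf⟩ := exists_smul_fixed (ψ := ψ.toRingHom) (J := cgG σ P J) hν
  have hG := U.gram.cgG P
  have hc := aut_comm ψ.toRingHom σ
  have alt : ∀ (P : GL ι F) (ζ : Fˣ), ζ + σ ζ = 0 → H ≤ subfieldSubgroup (fixF σ) P →
      ((ζ : F) • cg σ P.1 J.1).map σ = (ζ : F) • cg σ P.1 J.1 → Alt (sc ι ζ * cgG σ P J).1 →
      UOut q σ J H := fun P ζ h1 h2 h3 h4 =>
    ⟨_, .inr <| .inr <| .inr <| .inr <| .inr <| .inr <| .inl ⟨_, P, ζ, h4.even, U.card_eq,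
      ζ.ne_zero, h1, rational_of_fixed h3, fun u hu => by
        have := h4 u
        rw [Units.val_mul, sc_coe, smul_mul_assoc, one_mul, bf_smul, ← bf_eq_id hu, cgG_coe,
          bf_cg] at this
        simpa using this, rfl⟩, h2⟩
  by_cases hA : ∃ b, ψ b = b ∧ b ≠ 0 ∧ σ (ζ * b) = ζ * b
  · obtain ⟨b, h1, h2, h3⟩ := hA
    obtain ⟨a, ha⟩ := exists_norm_unit U.inv (c := Units.mk0 _ (mul_ne_zero hζ h2)) h3
    rw [← subfieldSubgroup_mul_sc _ P a] at h
    have h4 : (cg σ (P * sc ι a).1 J.1).map ψ.toRingHom = cg σ (P * sc ι a).1 J.1 := by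
      rw [Units.val_mul, cg_mul, sc_coe, cg_smul_left, cg_one, ha, Units.val_mk0, mul_comm,
        mul_smul, map_smul'', ← cgG_coe, hf]
      exact congrArg (· • _) h1
    generalize P * sc ι a = P at h h4
    rcases hψ.eq_two_or_odd' with h5 | h5
    swap
    · exact ⟨_, .inr <| .inr <| .inr <| .inr <| .inl ⟨_, _, P, hψ, h5, card_eq_pow ψ,
        rational_of_fixed (by rwa [one_smul]), rfl⟩, h⟩
    rw [eq_of_order_two U.inv U.card h5] at h h4
    by_cases h2 : (2 : F) = 0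
    swap
    · exact ⟨_, .inr <| .inr <| .inr <| .inr <| .inr <| .inl ⟨P, U.odd_iff.2 h2, h4, rfl⟩, h⟩
    refine alt P 1 (by simp [one_add_one_eq_two, h2]) h (by simpa using h4) ?_
    rw [map_one, one_mul]
    refine Gram.alt_of_irr (ε := 1) (irr_comap_frG hH (Equiv.refl _) P)
      (by have := U.three; omega) h2 ⟨fun _ => rfl, by
        rw [(U.gram.cgG P).herm, cgG_coe, h4]; rfl⟩ fun x hx => ?_
    obtain ⟨k, c, e⟩ := mem_subfieldSubgroup.1 (h hx)
    have h6 := (frG_mem_sim _ P J x).1 (hs hx)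
    obtain rfl := (frG (Equiv.refl ι) P).injective (e.trans (frG_refl _ _).symm)
    exact mem_sim_id (by ext i j; exact (k.1 i j).2) (pull_refl σ P J ▸ h6)
  obtain ⟨i, hi⟩ := Function.ne_iff.1 (cgG σ P J).ne_zero
  obtain ⟨j, hj⟩ := Function.ne_iff.1 hi
  have hj' : (cgG σ P J).1 i j ≠ 0 := hj
  have h1 : ψ (ζ * (cgG σ P J).1 i j) = ζ * (cgG σ P J).1 i j := congrFun (congrFun hf i) j
  have h2 : ψ (ζ * (cgG σ P J).1 j i) = ζ * (cgG σ P J).1 j i := congrFun (congrFun hf j) i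
  have h3 : (cgG σ P J).1 j i = σ ((cgG σ P J).1 i j) := by
    simpa using congrFun (congrFun hG.herm i) j
  have hc' : ∀ a, ψ (σ a) = σ (ψ a) := hc
  have h4 : ψ (σ ζ * (cgG σ P J).1 i j) = σ ζ * (cgG σ P J).1 i j := by
    have := congrArg σ h2
    rwa [← hc', h3, map_mul σ, U.inv.invol] at this
  have h5 : ψ (σ ζ / ζ) = σ ζ / ζ := by
    rw [← mul_div_mul_right _ _ hj', map_div₀, h1, h4]
  have h6 : ∀ c, ψ c = c → c + σ ζ / ζ * σ c = 0 := fun c h7 => by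
    by_contra h8
    refine hA ⟨_, by rw [map_add, map_mul, h5, hc', h7], h8, ?_⟩
    rw [mul_add, ← mul_assoc, mul_div_cancel₀ _ hζ, map_add, map_mul, map_mul, U.inv.invol,
      U.inv.invol, add_comm]
  have h7 : ζ + σ ζ = 0 := by
    have := h6 1 (map_one _)
    field_simp at this
    simpa using this
  have h8 : fixF ψ.toRingHom ≤ fixF σ := fun c hc => by
    have := h6 c hc
    rw [eq_neg_of_add_eq_zero_right h7, neg_div, div_self hζ] at this
    exact mem_fixF.2 (by linear_combination -this)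
  have h9 : orderOf ψ = 2 := by
    let _ := (Subfield.inclusion h8).toAlgebra
    have := card_eq_pow ψ
    rw [U.card_eq, natCard_eq_pow_finrank (K := fixF ψ.toRingHom), ← pow_mul] at this
    exact ((Nat.prime_dvd_prime_iff_eq Nat.prime_two hψ).1
      (Nat.pow_right_injective Finite.one_lt_card this ▸ Nat.dvd_mul_left _ _)).symm
  have h10 := eq_of_order_two U.inv U.card h9
  rw [h10] at h hf
  refine alt P (Units.mk0 ζ hζ) h7 h hf (Gram.alt ⟨fun _ => rfl, ?_⟩ fun h2 => hA ⟨1, map_one _,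
    one_ne_zero, by rw [mul_one]; linear_combination h7 - ζ * h2⟩)
  rw [map_smul'', eq_neg_of_add_eq_zero_right h7] at hf
  rw [Units.val_mul, sc_coe, smul_mul_assoc, one_mul, transpose_smul, hG.herm, Units.val_mk0,
    RingHom.coe_id, map_id, ← hf]
  simp

theorem u_subfield (U : UF q σ J) (hs : H ≤ similarityGroup (bf σ J.1)) {N : Subgroup (GL ι F)}
    (hN : spanA N = ⊤) (hH : Nrm H N) {ψ : F ≃+* F} (hψ : (orderOf ψ).Prime)
    (h : ∀ x ∈ N, ψ x.1.trace = x.1.trace)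
    (hI : ∀ x ∈ N, ∃ c, ψ c = c ∧ cg σ x.1 J.1 = c • J.1) : UOut q σ J H := by
  have := U.nonempty
  obtain ⟨P, h1, h2⟩ := exists_subfield_of_trace ψ hN (G := H ⊔ N)
    (nrm_iff.2 (sup_le (nrm_iff.1 hH) (nrm_iff.1 (nrm_self N)))) h
  obtain ⟨ν, hν⟩ := h2 σ J hI
  exact (u_sub U ((irr_of_span hN).mono le_sup_right) (sup_le hs fun x hx =>
    (hI x hx).elim fun _ h => mem_sim_of_eq h.2) hψ h1 hν).mono le_sup_left

theorem u_subfield' (U : UF q σ J) (hs : H ≤ similarityGroup (bf σ J.1)) {N : Subgroup (GL ι F)}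
    (hN : spanA N = ⊤) (hH : Nrm H N) {ψ : F ≃+* F} (hψ : (orderOf ψ).Prime)
    (h : ∀ x ∈ N, ψ x.1.trace = x.1.trace) (hI : N ≤ Iso σ J.1) : UOut q σ J H :=
  u_subfield U hs hN hH hψ h fun x hx => ⟨1, map_one _, by rw [one_smul]; exact mem_Iso.1 (hI hx)⟩

/-- A compatible bilinear form gives a subfield structure. -/
theorem u_bilin (U : UF q σ J) (hH : Irr H) (hs : H ≤ Iso σ J.1) (e : ι ≃ κ) (P : GL ι F)
    {B T : GL κ F} {ε d : F} (hB : Gram idF ε B) (h1 : B * T = pull σ e P J)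
    (h2 : T.1 * T.1.map σ = d • 1)
    (h : ∀ g, frG e P g ∈ H → g ∈ similarityGroup (bf idF B.1)) : UOut q σ J H := by
  have := U.nonempty
  have : Nonempty κ := e.symm.nonempty
  obtain ⟨ψ, rfl, hψ⟩ := exists_equiv_of_inv U.inv
  have hG := U.gram.pull e P
  obtain ⟨Q, h3, h4⟩ := exists_of_semilinear ψ T (by
    rw [hψ]
    exact mem_scalars_of_smul (c := d) (by simpa [Classical.Lang.nrm, map_coe] using h2))
  have hd : d ≠ 0 := by
    rintro rfl
    exact (T * GeneralLinearGroup.map ψ.toRingHom T).ne_zero (by simpa [map_coe] using h2)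
  obtain ⟨ν, hν⟩ := h4 ψ.toRingHom (pull ψ.toRingHom e P J).1 (ε * d⁻¹) (by
    have h5 := hG.herm
    have h6 : B.1ᵀ = ε • B.1 := hB.herm
    have h7 : ε * ε = 1 := hB.eps
    rw [one_smul] at h5
    erw [← h5]
    rw [cg, ← h1, Units.val_mul, Matrix.mul_assoc, Matrix.mul_assoc, h2, transpose_mul, h6]
    simp [smul_smul, hd])
  refine u_sub U hH (hs.trans (Iso_le_sim _ _)) (hψ ▸ Nat.prime_two) (P := P * frG e 1 Q)
    (ν := ν) (fun g hg => ?_) ?_
  · obtain ⟨g, rfl⟩ := (frG e P).surjective g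
    obtain ⟨c, hc⟩ := mem_sim.1 (h g hg)
    obtain ⟨k, a, hk⟩ := mem_subfieldSubgroup.1 (h3 g c⁻¹ (by
      have h5 : trG g * (B * T) * GeneralLinearGroup.map ψ.toRingHom g = B * T :=
        Units.ext (h1 ▸ mem_Iso.1 ((frG_mem_Iso e P J g).1 (hs hg)))
      have h6 : trG g * B * g = B * sc κ c := Units.ext (by
        rw [Units.val_mul B, sc_coe, Matrix.mul_smul, mul_one, ← hc]; rfl)
      rw [map_inv, eq_mul_inv_iff_mul_eq, ← mul_right_inj (trG g * B), h6]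
      simp only [← mul_assoc] at h5 ⊢
      rw [h5, mul_inv_cancel_right]))
    rw [← frG_mul e P Q]
    refine mem_subfield_of_entries _ _ a⁻¹ fun x y => ?_
    rw [hk]
    simp [mul_assoc, sc_coe]
    exact (k.1 x y).2
  · have : cg ψ.toRingHom (P * frG e 1 Q).1 J.1 =
        (cg ψ.toRingHom Q.1 (pull ψ.toRingHom e P J).1).submatrix e e := by
      rw [← cgG_coe _ Q, ← pull_mul, pull_coe]; simp
    rw [this, ← submatrix_map, hν]; rfl

theorem u_ES (U : UF q σ J) (hs : H ≤ similarityGroup (bf σ J.1)) {r : ℕ} {R : Subgroup (GL ι F)}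
    (h : ES r R) (hf : Full (r * Nat.gcd 2 r) R) (hR : R ≤ similarityGroup (bf σ J.1))
    (hH : Nrm H R) : UOut q σ J H := by
  have := U.nonempty
  have hn : 2 ≤ Fintype.card ι := by have := U.three; omega
  have h4 : r = 2 → 4 ∣ Fintype.card F - 1 := by
    rintro rfl
    obtain ⟨k, rfl⟩ := U.odd_iff.2 (h.two_ne hn)
    exact ⟨k ^ 2 + k, by rw [U.card]; ring_nf; omega⟩
  have hZ : ∀ x ∈ R, ∀ c : F, cg σ x.1 J.1 = c • J.1 → c ^ Nat.card (Subgroup.center R) = 1 := by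
    intro x hx c hc
    have := multiplier_pow hc (h.pow x hx)
    rcases h.center_cases hn hf with ⟨h1, h2⟩ | ⟨rfl, h2⟩ | ⟨h1, -, h2⟩
    · rwa [h2, ← mul_one r, ← (Nat.coprime_two_left.2 h1).gcd_eq_one]
    · rwa [h2]
    · exact absurd (h4 h1) h2
  obtain ⟨k, hk, hc, hR'⟩ := h.exists_pow hn
  rcases exists_minimal h.center_dvd with ⟨p, e, hmin⟩ | ⟨ψ, hψ, hfix⟩
  swap
  · refine u_subfield U hs h.span hH hψ (fun x hx => h.trace_fixed (ψ := ψ.toRingHom)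
      (fun c hc => hfix _ (h.pow_center hc)) hx) fun x hx => ?_
    obtain ⟨c, hc⟩ := mem_sim.1 (hR hx)
    exact ⟨c, hfix _ (hZ x hx c hc), hc⟩
  have := hmin.2.1
  refine ⟨_, .inr <| .inr <| .inr <| .inr <| .inr <| .inr <| .inr <| .inl ⟨r, R, p, e, k, h,
    h.isSymplecticTypeGroup' hn fun h2 => ?_, hR, h.ne_char hn, hmin, hc, hk, ?_, rfl⟩,
    nrm_iff.1 hH⟩
  · obtain ⟨c, h1, h3⟩ := exists_sq_eq_neg_one (h4 h2)
    exact ⟨c, h1, hf c (by rw [h2]; exact h3)⟩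
  rcases h.center_cases hn hf with ⟨h1, h2⟩ | ⟨rfl, h2⟩ | ⟨h1, -, h2⟩
  · refine .inl ⟨h1, fun x hx => ?_, h2, by rw [hR', h2, pow_add, pow_one]⟩
    obtain ⟨c, hc'⟩ := mem_sim.1 (hR hx)
    have h3 := hZ x hx c hc'
    have h5 : σ c = c := by
      have := (U.gram.cgG x).herm
      rw [cgG_coe, hc', transpose_smul, map_smul'', U.gram.herm, one_smul, one_smul] at this
      exact (smul_left_injective F (fun e => J.ne_zero (by
        rw [← map_map_inv U.inv.invol J.1, e]; simp)) this).symm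
    obtain ⟨a, ha, b, hb, hne⟩ := exists_noncomm h.span hn
    obtain ⟨d, hd⟩ := h.cz a ha b hb
    have h6 : (d : F) * σ d = 1 := by
      obtain ⟨u, hu⟩ := mem_sim.1 (hR ha)
      obtain ⟨v, hv⟩ := mem_sim.1 (hR hb)
      have := congrArg (fun g : GL ι F => cg σ g.1 J.1) hd
      simp only [Units.val_mul, cg_mul, sc_coe, cg_smul_left, cg_one, cg_smul, hu, hv,
        smul_smul] at this
      have := smul_left_injective F J.ne_zero this
      exact mul_right_cancel₀ (mul_ne_zero u.ne_zero v.ne_zero) (by linear_combination -this)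
    have := Fact.mk h.prime
    have h7 : IsPrimitiveRoot (d : F) r := by
      rw [IsPrimitiveRoot.coe_units_iff, ← orderOf_eq_prime (pow_eq_one_of_comm hd (h.powZ a ha))
        (by rintro rfl; exact hne (by simpa using hd))]
      exact IsPrimitiveRoot.orderOf d
    rw [h2] at h3
    obtain ⟨i, -, hi⟩ := h7.eq_pow_of_pow_eq_one h3
    have h8 : (c : F) ^ 2 = 1 := by
      rw [sq]; nth_rw 2 [← h5]; rw [← hi, map_pow, ← mul_pow, h6, one_pow]
    obtain ⟨m, rfl⟩ := h1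
    rw [pow_succ, pow_mul, h8, one_pow, one_mul] at h3
    rw [mem_Iso, hc', h3, one_smul]
  · refine .inr ⟨rfl, (minimal_four (h2 ▸ hmin)).resolve_left ?_, h2, by rw [hR', h2, pow_add]; rfl⟩
    rintro rfl
    have h3 := hmin.1
    rw [← pow_one p, ← hmin.2.2.1, U.card] at h3
    exact Nat.Prime.not_prime_pow le_rfl h3
  · exact absurd (h4 h1) h2

theorem u_ES_frame (U : UF q σ J) (hs : H ≤ similarityGroup (bf σ J.1)) (e : ι ≃ κ) (P : GL ι F)
    {r : ℕ} {R : Subgroup (GL κ F)} (h : ES r R) (hf : Full (r * Nat.gcd 2 r) R)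
    (hR : R ≤ Iso σ (pull σ e P J).1) (hH : ∀ g, frG e P g ∈ H → ∀ x ∈ R, g * x * g⁻¹ ∈ R) :
    UOut q σ J H :=
  u_ES U hs (h.map_frG e P) (hf.map_frG e P) (by
    rintro _ ⟨x, hx, rfl⟩; exact (frG_mem_sim e P J x).2 (Iso_le_sim _ _ (hR hx)))
    (nrm_map_frG e P hH)

/-- `H` lies in the special unitary group. -/
structure UH (q : ℕ) (σ : F →+* F) (J : GL ι F) (H : Subgroup (GL ι F)) : Prop
    extends UF q σ J where
  iso : H ≤ Iso σ J.1
  det : H ≤ specialLinear ι F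

theorem UH.sim (U : UH q σ J H) : H ≤ similarityGroup (bf σ J.1) := U.iso.trans (Iso_le_sim _ _)

omit [Fintype F] in
theorem mon_mem_Iso {τ : Type} [Fintype τ] [DecidableEq τ] {d : τ → Fˣ} {ρ : Equiv.Perm τ} :
    mon d ρ ∈ Iso σ (1 : GL (Fin 1 × τ) F).1 ↔ ∀ i, (d i : F) * σ (d i) = 1 := by
  rw [mon, ← bmG_one, bmG_mem_Iso]
  exact forall_congr' fun i => mem_Iso.symm.trans sc_mem_Iso

theorem u_frame (U : UH q σ J H) {t : ℕ} {D : Fin t → Submodule F (ι → F)}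
    (hD : IsNondegenerateMDecomposition (bf σ J.1) 1 D) (h : H ≤ decompositionStabilizer D) :
    UOut q σ J H := by
  by_cases hc : q = 3 ∧ t = 4
  swap
  · exact ⟨_, .inr <| .inr <| .inl ⟨t, 1, D, hD, by simp, by simpa using hc, rfl⟩, h⟩
  obtain ⟨rfl, rfl⟩ := hc
  obtain ⟨e, P, hP, hp⟩ := U.gram.exists_on_frame U.inv hD
  have key : ∀ c : Fˣ, c * σ c = 1 ↔ c ^ 4 = 1 := fun c => by
    rw [U.toUF.pow, ← pow_succ', ← Units.val_pow_eq_pow_val, Units.val_eq_one]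
  refine u_ES_frame U.toUF U.sim e P (es_R64 (U.toUF.odd_iff.1 (by decide))) full_R64 ?_
    fun g hg x hx => ?_
  · rintro _ ⟨d, ρ, -, -, -, h4, rfl⟩
    exact hp ▸ mon_mem_Iso.2 fun i => (key _).2 (h4 i)
  · obtain ⟨d, ρ, e'⟩ := hP.exists_mon (h hg)
    obtain rfl := (frG e P).injective e'
    refine mon_conj_mem_R64 ?_ (fun i => (key _).1
      (mon_mem_Iso.1 (hp ▸ (frG_mem_Iso e P J _).1 (U.iso hg)) i)) ρ hx
    have := congrArg (· ^ 2) ((det_mon d ρ).symm.trans ((frG_mem_SL e P _).1 (U.det hg)))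
    simp only [mul_pow, ← Int.cast_pow, ← Units.val_pow_eq_pow_val, Int.units_sq] at this
    exact Units.ext (by simpa using this)

theorem u_mono (U : UH q σ J H) (e : ι ≃ κ) (P : GL ι F) (hp : pull σ e P J = 1)
    (hm : ∀ g, frG e P g ∈ H → Mono g.1) : UOut q σ J H := by
  obtain ⟨e', D, h1, h3⟩ := exists_mono_frame e P hm
  exact u_frame U (h1.nd (a := fun _ => 1) (by
    rw [← Fintype.card_congr e]; have := U.three; omega) (by
      rw [pull_trans', hp, bmG_one]; simpa using pull_sc σ e' 1)) h3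

theorem u_dec (U : UH q σ J H) {t k : ℕ} {D : Fin t → Submodule F (ι → F)}
    (hD : IsNondegenerateMDecomposition (bf σ J.1) k D) (h : H ≤ decompositionStabilizer D) :
    UOut q σ J H := by
  by_cases h1 : k = 1
  · exact u_frame U (h1 ▸ hD) h
  by_cases hc : q = 2 ∧ k = 2
  swap
  · exact ⟨_, .inr <| .inr <| .inl ⟨t, k, D, hD, hc, by simp [h1], rfl⟩, h⟩
  obtain ⟨rfl, rfl⟩ := hc
  obtain ⟨e, P, hP, hp⟩ := U.gram.exists_on_frame U.inv hD
  refine u_mono U e P hp fun g hg => ?_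
  obtain ⟨a, ρ, e'⟩ := hP.exists_bmG (h hg)
  obtain rfl := (frG e P).injective e'
  have := (frG_mem_Iso e P J _).1 (U.iso hg)
  rw [hp, ← bmG_one, bmG_mem_Iso] at this
  exact Mono.bm (fun i => mono_u2 U.card U.toUF.pow (mem_Iso.2 (this i))) ρ

theorem u_pair (U : UH q σ J H) (hH : Irr H) {k : ℕ} {D : Fin 2 → Submodule F (ι → F)}
    (hD : IsMDecomposition k D) (hs : ∀ i, IsTotallySingularFor (bf σ J.1) (D i))
    (h : H ≤ decompositionStabilizer D) : UOut q σ J H := by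
  by_cases hc : q ≤ 3 ∧ k = 2
  swap
  · exact ⟨_, .inr <| .inr <| .inr <| .inl ⟨k, D, hD, hs, hc, rfl⟩, h⟩
  obtain ⟨hq, rfl⟩ := hc
  obtain ⟨e, P, B, hP, h1, h3⟩ := exists_pair_frame U.gram hD hs 1
  obtain rfl : B = 1 := Units.ext (by simpa using h3)
  refine u_bilin U.toUF hH U.iso e P (B := bmG (fun _ => om2 F) 1)
    (T := bmG (fun _ => (om2 F)⁻¹) (Equiv.swap 0 1)) (d := -1) (Alt.bmG fun _ => alt_om2).gram
    (by rw [h1, bmG_mul]; congr 1; ext1 i; fin_cases i <;> simp) ?_ fun g hg => ?_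
  · rw [bmG_coe, bm_map, bm_mul, Equiv.swap_mul_self, ← bm_one, ← bm_smul]
    congr 1
    ext _ i j
    fin_cases i <;> fin_cases j <;> simp [om2, mul_apply]
  obtain ⟨a, ρ, e'⟩ := hP.exists_bmG (h hg)
  obtain rfl := (frG e P).injective e'
  have h4 := mem_Iso.1 ((frG_mem_Iso e P J _).1 (U.iso hg))
  rw [h1, cg, bmG_coe, bmG_coe, bm_transpose, bm_map, bm_mul, bm_mul] at h4
  have h5 : (a 0).1ᵀ * (a 1).1.map σ = 1 := by
    rcases perm_two ρ with rfl | rfl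
    · simp only [inv_one, one_mul, mul_one] at h4
      simpa using congrFun (bm_inj h4) 1
    · simp only [Equiv.swap_inv, Equiv.swap_mul_self, one_mul] at h4
      simpa using congrFun (bm_inj h4) 1
  have h6 : (a 0).1.det * σ (a 1).1.det = 1 := by
    rw [RingHom.map_det, ← det_transpose, ← det_mul]; exact h5 ▸ det_one
  have h7 := (det_bm (fun i => (a i).1) ρ).symm.trans ((frG_mem_SL e P _).1 (U.det hg))
  simp only [Fintype.card_fin, ← Int.cast_pow, ← Units.val_pow_eq_pow_val, Int.units_sq,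
    Fin.prod_univ_two, Units.val_one, Int.cast_one, one_mul] at h7
  have h8 : (a 0).1.det = (a 1).1.det := by
    rw [U.toUF.pow] at h6
    have := U.toUF.two_le
    interval_cases q <;> grind
  refine bmG_mem_sim (c := (a 0).1.det) fun j => (cg_om2 _).trans ?_
  fin_cases j <;> simp [h8]

theorem u_comm (U : UH q σ J H) (hH : Irr H) (h : CommData σ J H) : UOut q σ J H := by
  have := U.toUF.nonempty
  obtain ⟨E, hc, hE, ha, hne⟩ := h
  rcases U.gram.comm_cases hH U.sim hc hE ha with hi | ⟨t, k, D, h1, h2⟩ | ⟨k, D, h1, h2, h3⟩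
  · obtain ⟨r, K, h1, h2, h3, -, h4, h5⟩ := U.gram.field_herm U.inv hc hi hE ha hne
    exact ⟨_, .inr <| .inr <| .inr <| .inr <| .inr <| .inr <| .inr <| .inr <| .inl
      ⟨r, K, h1, h2, h3, h4, rfl⟩, h5.le_normalizer⟩
  · exact u_dec U h1 h2
  · exact u_pair U hH h1 h2 h3

omit [Fintype F] in
theorem ES.ptR {r : ℕ} {α τ : Type} [Fintype α] [DecidableEq α] [Fintype τ] [DecidableEq τ]
    {R : Subgroup (GL α F)} (h : ES r R) : ES r (ptR τ R) :=
  have h' := PES.ptR (τ := τ) ⟨h.span, h.cz, h.powZ⟩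
  ⟨h.prime, h'.span, h'.cz, by
    rintro _ ⟨a, ha, rfl⟩
    rw [ptG_pow, ← ptG_one]
    exact congrArg _ (funext fun i => h.pow _ (ha i)), h'.powZ⟩

omit [Fintype F] in
theorem Full.ptR {s : ℕ} {α τ : Type} [Fintype α] [DecidableEq α] [Fintype τ] [DecidableEq τ]
    {R : Subgroup (GL α F)} (h : Full s R) (i : τ) : Full s (ptR τ R) := fun c hc =>
  ⟨fun j => sc α (Pi.mulSingle (M := fun _ => Fˣ) i c j), fun j => by
    by_cases e : j = i
    · subst e; simpa using h c hc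
    · simp [e], by rw [ptG_sc]; simp⟩

theorem UF.sim_le (U : UF 2 σ J) {α : Type} [Fintype α] [DecidableEq α] [Nonempty α] :
    similarityGroup (bf σ (1 : GL α F).1) ≤ Iso σ (1 : GL α F).1 := fun g hg => by
  obtain ⟨c, hc⟩ := mem_sim.1 hg
  obtain ⟨i⟩ : Nonempty α := inferInstance
  have := congrFun (congrFun (((gram_one σ U.inv.invol).cgG g).herm) i) i
  rw [cgG_coe, hc] at this
  simp only [Units.val_one, transpose_apply, Matrix.smul_apply, one_apply_eq, smul_eq_mul,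
    mul_one, map_apply, one_mul, U.pow] at this
  rw [mem_Iso, hc, mul_right_cancel₀ c.ne_zero (show (c : F) * c = 1 * c by
    linear_combination -this), one_smul]

theorem u_wreath (U : UH q σ J H) (hH : Irr H) {k t : ℕ} (hk : 2 ≤ k) (ht : 2 ≤ t)
    {e : ι ≃ (Fin t → Fin k)} {P : GL ι F} (h : H ≤ tensorWreathSubgroup k t e P)
    (hp : pull σ e P J = 1) : UOut q σ J H := by
  rcases hk.eq_or_lt with rfl | hk
  · refine u_bilin U.toUF hH U.iso e P (B := ptG fun _ => om2 F) (T := ptG fun _ => (om2 F)⁻¹)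
      (d := ∏ _ : Fin t, -1) alt_om2.gram.ptG (by
        rw [hp, ← ptG_mul, ← ptG_one]; congr 1; ext1; simp) ?_ fun g hg => ?_
    · rw [ptG_coe, pt_map, ← map_mul, ← map_one (pt (Fin t) (Fin 2) F), ← pt_smul]
      congr 1
      ext _ i j
      fin_cases i <;> fin_cases j <;> simp [om2, mul_apply]
    · obtain ⟨a, ρ, e'⟩ := (mem_tensorWreathSubgroup e P).1 (h hg)
      exact (frG e P).injective e' ▸ ptG_mem_sim_of ρ fun i => mem_sim_om2 _
  by_cases hc : q = 2 ∧ k = 3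
  swap
  · exact ⟨_, .inr <| .inr <| .inr <| .inr <| .inr <| .inr <| .inr <| .inr <| .inr <| .inr
      ⟨k, t, e, P, hk, ht, hc, hp, rfl⟩, h⟩
  obtain ⟨rfl, rfl⟩ := hc
  have h2 : (2 : F) = 0 := by simpa using U.toUF.odd_iff.not.1 (by decide)
  obtain ⟨ω, hω⟩ := U.inv.exists_trace_one
  have h1 : (1 : GL (Fin t → Fin 3) F) = sc _ 1 * ptG fun _ => 1 := by
    rw [map_one, one_mul]; exact ptG_one.symm
  refine u_ES_frame U.toUF U.sim e P (es_R27 (ω := ω) (by rw [U.toUF.pow] at hω; grind)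
    fun h3 => one_ne_zero (by linear_combination h3 - h2 : (1 : F) = 0)).ptR (full_R27.ptR ⟨0, by omega⟩) (hp ▸ h1 ▸ ptR_le_Iso (R27_le_Iso fun c hc => by
      rw [U.toUF.pow, ← pow_succ', hc]) 1) fun g hg => ?_
  obtain ⟨a, ρ, e'⟩ := (mem_tensorWreathSubgroup e P).1 (h hg)
  obtain rfl := (frG e P).injective e'
  exact wreath_conj_mem ρ fun i => conj_mem_R27 U.card U.toUF.pow (U.toUF.sim_le
    (ptG_mem_sim (h1 ▸ hp ▸ (frG_mem_sim e P J _).1 (U.sim hg)) i))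

theorem u_tensor' (U : UH q σ J H) (hH : Irr H) {n₁ n₂ : ℕ} (h1 : 2 ≤ n₁) (h2 : n₁ ≤ n₂)
    {e : ι ≃ Fin n₁ × Fin n₂} {P : GL ι F} (h : H ≤ tensorProductSubgroup n₁ n₂ e P)
    (hp : pull σ e P J = 1) : UOut q σ J H := by
  have : Nonempty (Fin n₁) := ⟨⟨0, by omega⟩⟩
  have : Nonempty (Fin n₂) := ⟨⟨0, by omega⟩⟩
  have h0 : (1 : GL (Fin n₁ × Fin n₂) F) = kG 1 1 := by ext1; simp [kG_coe]
  rcases h2.eq_or_lt with rfl | h2
  · refine u_wreath U hH h1 le_rfl (h.trans (tensorProduct_le_wreath e P)) ?_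
    rw [pull_two σ e P J (c := 1) (J₁ := 1) (by rw [hp, map_one, one_mul, h0]), map_one, one_mul]
    exact ptG_one
  by_cases hc : q = 2 ∧ n₁ = 2
  swap
  · exact ⟨_, .inr <| .inr <| .inr <| .inr <| .inr <| .inr <| .inr <| .inr <| .inr <| .inl
      ⟨n₁, n₂, e, P, h1, h2, hc, hp, rfl⟩, h⟩
  obtain ⟨rfl, rfl⟩ := hc
  obtain ⟨D, hD⟩ := exists_D (e.trans (Equiv.prodComm _ _)) P
  refine u_dec U (hD.nd (a := fun _ => 1) le_rfl (by
    rw [pull_swap σ e P J (hp.trans h0), bmG_one]; ext1; simp [kG_coe]))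
    (le_decomp_of_fun hD fun g hg => ?_)
  obtain ⟨a, b, e'⟩ := (tenF_iff.2 h).swap _ hg
  obtain rfl := (frG _ _).injective e'
  rw [← frG_swap] at hg
  obtain ⟨ρ, hρ⟩ := exists_perm_of_cols (mono_u2 U.card U.toUF.pow (U.toUF.sim_le
    (kG_mem_sim (h0 ▸ hp ▸ (frG_mem_sim e P J _).1 (U.sim hg))).1))
  exact ⟨ρ, fun x y hxy => by simp [kG_coe, hρ _ _ hxy]⟩

theorem u_tensor (U : UH q σ J H) (hH : Irr H) {n₁ n₂ : ℕ} {e : ι ≃ Fin n₁ × Fin n₂} {P : GL ι F}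
    (h : TenData H n₁ n₂ e P) : UOut q σ J H := by
  wlog hn : n₁ ≤ n₂ generalizing n₁ n₂
  · exact this h.swap (by omega)
  have h1 := h.h1
  have : Nonempty (Fin n₁) := ⟨⟨0, by omega⟩⟩
  have : Nonempty (Fin n₂) := ⟨⟨0, by omega⟩⟩
  obtain ⟨J₁, J₂, hp⟩ := h.form σ J U.inv.invol U.sim
  obtain ⟨a, b, hab⟩ := U.gram.exists_kG_one U.inv hp
  exact u_tensor' U hH h1 hn ((tensorProductSubgroup_mul e P a b).symm ▸ h.le) hab

theorem u_pow (U : UH q σ J H) (hH : Irr H) {k t : ℕ} {e : ι ≃ (Fin t → Fin k)} {P : GL ι F}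
    (h : PowData H k t e P) : UOut q σ J H := by
  have hk := h.hk
  have ht := h.ht
  have : Nonempty (Fin k) := ⟨⟨0, by omega⟩⟩
  have : Nonempty (Fin t) := ⟨⟨0, by omega⟩⟩
  obtain ⟨c, J₁, hp⟩ := h.form σ J U.inv.invol U.sim
  obtain ⟨δ, g1, -⟩ := (hp ▸ U.gram.pull e P).of_ptG
  obtain ⟨P', h1, h2⟩ := U.gram.exists_ptG_one U.inv (by omega) g1 hp
  exact u_wreath U hH hk ht (h2.symm ▸ h.le) h1

theorem u_main (U : UH q σ J H) : UOut q σ J H ∨ InUnitaryResidualClass H := by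
  have hn : 2 ≤ Fintype.card ι := by have := U.three; omega
  have := U.toUF.nonempty
  have hs := U.sim
  by_cases hc : UOut q σ J H
  · exact Or.inl hc
  right
  have hH : Irr H := by
    by_contra h
    rcases U.gram.ts_or_nd hs h with ⟨W, h1, h2, h3⟩ | ⟨W, h1, h2, h3, h4⟩
    · exact hc ⟨_, .inl ⟨W, h1, h2, rfl⟩, h3⟩
    · rcases h3.eq_or_lt with h3 | h3
      · exact hc (u_dec U (U.gram.nd_pair h1 h2 h3)
          (le_decomp_pair h4 fun g hg => perp_mem_of_sim (hs hg) (h4 hg)))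
      · exact hc ⟨_, .inr <| .inl ⟨W, h1, h2, h3, rfl⟩, h4⟩
  rcases core hH hn with ⟨N, h0, h1, h2⟩ | ⟨n₁, n₂, e, P, h⟩ | ⟨k, t, e, P, h⟩ |
    ⟨r, N, h1, h2, h3, h4, h5⟩ | ⟨P, h⟩
  · exact (hc (u_comm U hH (commData_of_cen U.gram (h0.trans hs) h1 h2))).elim
  · exact (hc (u_tensor U hH h)).elim
  · exact (hc (u_pow U hH h)).elim
  · obtain ⟨R, h6, h7, h8, h9⟩ := h1.exists_ES h2 h3 hn h4 h5
    exact (hc (u_ES U.toUF hs h6 h8
      (h9.trans (sup_le (h1.le.trans hs) (scalars_le_sim _ _))) h7)).elim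
  have hPI := h.le.trans U.iso
  have key : ∀ B : GL ι F, ¬ FixesForm (matrixSet P) (bf idF B.1) := fun B hB => by
    obtain ⟨ψ, rfl, hψ⟩ := exists_equiv_of_inv U.inv
    refine hc (u_subfield' U.toUF hs h.span h.nrm (hψ ▸ Nat.prime_two) (fun x hx => ?_) hPI)
    have := trace_inv_of_iso (fun _ => rfl) (mem_Iso.2 (fixesForm_iff.1 hB x hx))
    rwa [trace_inv_of_iso U.inv.invol (hPI hx)] at this
  refine ⟨P, h.no_subfield hc fun ψ hψ hx => u_subfield' U.toUF hs h.span h.nrm hψ hx hPI, ?_, ?_⟩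
  · rintro ⟨Q, hQ, hf⟩
    obtain ⟨B, -, e⟩ := exists_gram_of_quad hQ
    exact key B (e ▸ fixes_polar hf)
  · rintro ⟨f, hf, hf'⟩
    obtain ⟨B, -, rfl⟩ := exists_alt_of_isSymplecticForm hf
    exact key B hf'

end

end Cfsg.Agent.Asch
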