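import Mathlib
import Cfsg.Agent.Asch.Unit
import Cfsg.Agent.Asch.OMax
import Cfsg.Agent.Herm.SU
import Cfsg.Agent.Herm.Iso

/-! Maximal subgroups of special unitary groups. -/

set_option autoImplicit false

namespace Cfsg.Agent.Asch

open Matrix Cfsg.Geo Cfsg.Agent.Herm Module
open scoped MatrixGroups Kronecker commutatorElement

variable {ι : Type} [Fintype ι] [DecidableEq ι] {F : Type*} [Field F] {q n : ℕ}

theorem herm_eq [Finite F] (hF : Nat.card F = q ^ 2) (n : ℕ) :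
    hermForm n F q = bf (frob hF) (1 : GL (Fin n) F).1 := by
  ext u v
  simp [hermForm, bf, dotProduct, frob_apply]

theorem GU_eq [Finite F] (hF : Nat.card F = q ^ 2) (n : ℕ) :
    GU n F q = Iso (frob hF) (1 : GL (Fin n) F).1 := by
  rw [GU, herm_eq hF]; rfl

theorem sB_eq [Finite F] (hF : Nat.card F = q ^ 2) (u v : Fin n → F) :
    sB hF n u v = bf (frob hF) (1 : GL (Fin n) F).1 v u := by rw [← herm_eq, hermForm_eq]

theorem uf_one [Fintype F] (hF : Fintype.card F = q ^ 2) (hn : 3 ≤ n) :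
    UF q (frob (natCard_of_card hF)) (1 : GL (Fin n) F) :=
  ⟨inv_frob _, hF, gram_one _ (inv_frob _).invol, by simpa⟩

/-- The special unitary group as a group of matrices. -/
noncomputable def suHom [Finite F] (hF : Nat.card F = q ^ 2) (n : ℕ) :
    SUG (sB hF n) →* GL (Fin n) F :=
  (GU n F q).subtype.comp ((toUG hF n).symm.toMonoidHom.comp (SUG _).subtype)

theorem suHom_mulVec [Finite F] (hF : Nat.card F = q ^ 2) (g : SUG (sB hF n)) (v : Fin n → F) :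
    (suHom hF n g).1 *ᵥ v = g.1.1 v := toUG_symm_mulVec hF _ _

theorem range_suHom [Finite F] (hF : Nat.card F = q ^ 2) :
    (suHom hF n).range = GU n F q ⊓ specialLinear (Fin n) F := by
  ext g
  refine ⟨?_, fun h => ⟨⟨toUG hF n ⟨g, h.1⟩, ?_⟩, by simp [suHom]⟩⟩
  · rintro ⟨g, rfl⟩
    refine ⟨((toUG hF n).symm g).2, mem_SL.2 ?_⟩
    have := detU_toUG hF ((toUG hF n).symm g)
    rw [MulEquiv.apply_symm_apply] at this
    exact (congrArg Units.val this).symm.trans (mem_SUG.1 g.2)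
  · rw [mem_SUG, detU_toUG]; exact mem_SL.1 h.2

theorem card_SU' [Finite F] (hF : Nat.card F = q ^ 2) :
    Nat.card (GU n F q ⊓ specialLinear (Fin n) F : Subgroup _) = Nat.card (SUG (sB hF n)) := by
  rw [← range_suHom hF]
  exact (Nat.card_congr (MonoidHom.ofInjective fun a b e =>
    Subtype.ext ((toUG hF n).symm.injective (Subtype.ext e))).toEquiv).symm

theorem exists_iso_ne {V : Type*} [AddCommGroup V] [Module F V] [FiniteDimensional F V] [Finite F]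
    {σ : F →+* F} {B : V →ₛₗ[σ] V →ₗ[F] F} (hB : HF B) (hn : 2 ≤ finrank F V) {x : V}
    (hx : x ≠ 0) : ∃ v, B v v = 0 ∧ B v x ≠ 0 := by
  obtain ⟨e, f, he, hf, hef⟩ := hB.exists_hyp_pair hn
  by_contra hc
  push Not at hc
  obtain ⟨y, hy⟩ := hB.exists_b_eq hx 1
  replace hy := hB.one_symm hy
  by_cases h : B e y = 0
  · obtain ⟨a, ha⟩ := hB.exists_iso_sub he (x := y + f) (by simp [h, hef])
    simpa [hy, hc e he, hc f hf] using hc _ ha
  · obtain ⟨a, ha⟩ := hB.exists_iso_sub he h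
    simpa [hy, hc e he] using hc _ ha

theorem SU_trans [Finite F] (hF : Nat.card F = q ^ 2) (hn : 3 ≤ n) {x y : Fin n → F} (hx0 : x ≠ 0)
    (hy0 : y ≠ 0) (hx : sB hF n x x = 0) (hy : sB hF n y y = 0) :
    ∃ g ∈ GU n F q ⊓ specialLinear (Fin n) F, g.1 *ᵥ x = y := by
  obtain ⟨g, hg, e⟩ := (hf_sB hF n).SUG_trans_iso (by simpa) hx0 hy0 hx hy
  exact ⟨suHom hF n ⟨g, hg⟩, range_suHom hF ▸ ⟨_, rfl⟩, (suHom_mulVec ..).trans e⟩

theorem tvG_mem_SU [Finite F] (hF : Nat.card F = q ^ 2) {v : Fin n → F}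
    (hv : bf (frob hF) (1 : GL (Fin n) F).1 v v = 0) {c : F} (hc : c + frob hF c = 0) :
    tvG hv c ∈ GU n F q ⊓ specialLinear (Fin n) F :=
  ⟨GU_eq hF n ▸ tvG_mem_Iso (gram_one _ (inv_frob hF).invol) hv (by rw [mul_one, add_comm, hc]),
    mem_SL.2 (det_tvG hv c)⟩

theorem amb_SU [Fintype F] (hF : Fintype.card F = q ^ 2) (hn : 3 ≤ n) (hex : ¬ (n = 3 ∧ q = 2)) :
    Amb (GU n F q ⊓ specialLinear (Fin n) F) := by
  have hF' := natCard_of_card hF
  have hB := hf_sB hF' n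
  have : Nonempty (Fin n) := ⟨⟨0, by omega⟩⟩
  have hn' : finrank F (Fin n → F) = n := by simp
  obtain ⟨e, f, he, hf, hef⟩ := hB.exists_hyp_pair (by omega)
  have he0 := ne_zero_of_b (hef ▸ one_ne_zero : sB hF' n e f ≠ 0)
  have hf0 := ne_zero_of_b' (hef ▸ one_ne_zero : sB hF' n e f ≠ 0)
  obtain ⟨c, hc0, hc⟩ := (inv_frob hF').exists_skew
  have ht := tvG_mem_SU hF' (sB_eq hF' e e ▸ he) hc
  have hz := tvG_not_mem (sB_eq hF' e e ▸ he) he0 hc0
  obtain ⟨h1, h2⟩ := minNS_of (suHom hF' n) (fun g hg => by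
    obtain ⟨a, ha⟩ := (hB.mem_center_SUG (by omega) g).1 hg
    exact mem_scalars_of_smul (c := a.1) (mat_ext_mulVec fun v => by
      rw [suHom_mulVec, ha, scal_apply, smul_mulVec, one_mulVec]))
    (hB.SUG_perfect hF' (by omega) (by omega)) (hB.isSimpleGroup hF' (by omega) (by omega))
    (fun h => hz (h (range_suHom hF' ▸ ht)))
  rw [range_suHom] at h1 h2
  refine ⟨h1, h2, spanA_of_tvG (fun W hW => ?_) _ he0 hc0 ht,
    fun F₀ h => eq_top_iff.2 fun a _ => ?_, ⟨_, ht, hz, finrank_tvG _ _⟩, ?_⟩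
  · refine (eq_or_ne W ⊥).imp_right fun h0 => eq_top_iff.2 fun x _ => ?_
    obtain ⟨w, hw, hw0⟩ := W.exists_mem_ne_zero_of_ne_bot h0
    obtain ⟨v, hv, hvw⟩ := exists_iso_ne hB (by omega) hw0
    have h3 := W.sub_mem (hW _ (tvG_mem_SU hF' (sB_eq hF' v v ▸ hv) hc) w hw) hw
    rw [tvG_mulVec, add_sub_cancel_left, W.smul_mem_iff (mul_ne_zero hc0 (sB_eq hF' v w ▸ hvw))]
      at h3
    have h4 : ∀ y, sB hF' n y y = 0 → y ∈ W := fun y hy => by
      by_cases hy0 : y = 0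
      · exact hy0 ▸ W.zero_mem
      obtain ⟨g, hg, rfl⟩ := SU_trans hF' hn (ne_zero_of_b hvw) hy0 hv hy
      exact hW g hg v h3
    by_cases hx : x = 0
    · exact hx ▸ W.zero_mem
    obtain ⟨u, hu, hux⟩ := exists_iso_ne hB (by omega) hx
    obtain ⟨b, hb⟩ := hB.exists_iso_sub hu hux
    simpa using W.add_mem (h4 _ hb) (W.smul_mem b (h4 _ hu))
  · by_cases ha : a = 0
    · exact ha ▸ zero_mem _
    obtain ⟨g, hg, e'⟩ := SU_trans hF' hn he0 (smul_ne_zero (div_ne_zero ha hc0) hf0) he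
      (by simp [hf])
    have := sub_mem (h _ (mul_mem ht hg)) (h _ hg)
    rw [Units.val_mul, tvG_coe, add_mul, one_mul, trace_add, add_sub_cancel_left, smul_mul_assoc,
      trace_smul, trace_mul_comm, mul_vecMulVec, trace_vecMulVec, e'] at this
    convert this using 1
    change a = c * bf _ _ _ e
    rw [← sB_eq, map_smul, hef]
    simp [mul_div_cancel₀ _ hc0]
  · have hp := CharP.char_is_prime F (ringChar F)
    rw [card_SU' hF']
    refine pow_dvd_of_mul (a := q + 1) (by rw [hF, ← one_pow 2, Nat.sq_sub_sq]; simp) ?_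
    rw [hB.card_SUG hF', hB.card_UG hF' hn', Fintype.card_fin]
    refine ((pow_dvd_pow_of_dvd (hp.dvd_of_dvd_pow (hF ▸ ringChar_dvd_card)) _).trans
      (pow_dvd_pow _ ?_)).mul_right _
    exact (Nat.le_div_iff_mul_le two_pos).2 (Nat.mul_le_mul_left _ (by omega))

theorem UCls.not_le [Fintype F] {σ : F →+* F} {J : GL ι F} (U : UF q σ J)
    (A : Amb (Iso σ J.1 ⊓ specialLinear ι F)) {M : Subgroup (GL ι F)} (h : UCls q σ J M) :
    ¬ Iso σ J.1 ⊓ specialLinear ι F ≤ M := by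
  have := A.nonempty
  rcases h with ⟨W, h1, h2, rfl⟩ | ⟨W, h1, h2, h3, rfl⟩ | ⟨t, k, D, h1, -, -, rfl⟩ |
    ⟨k, D, h1, -, -, rfl⟩ | ⟨F₀, r, P, h1, -, h2, -, rfl⟩ | ⟨P, -, -, rfl⟩ |
    ⟨F₀, P, ζ, -, h1, -, -, -, -, rfl⟩ | ⟨r, R, p, e, k, h1, -, h2, -, -, -, -, -, rfl⟩ |
    ⟨r, K, h1, -, h2, -, rfl⟩ | ⟨n₁, n₂, e, P, h1, h2, -, -, rfl⟩ | ⟨k, t, e, P, h1, h2, -, -, rfl⟩
  · exact A.not_le_subspace h1 (ne_top_of_ts U.inv.invol h2)
  · exact A.not_le_subspace h1 (by rintro rfl; simp at h3; omega)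
  · exact A.not_le_decomp h1.decomp
  · exact A.not_le_decomp h1
  · exact A.not_le_subfield h1 h2 P
  · exact A.not_le_subfield Nat.prime_two U.card_eq P
  · exact A.not_le_subfield Nat.prime_two h1 P
  · exact fun h => A.not_nrm h1.span h1.cz ((nrm_Iso h2).inf (nrm_SL _)) (nrm_iff.2 h)
  · exact A.not_le_field h1.two_le h2
  · exact A.not_le_tensor h1 (by omega) e P
  · exact A.not_le_wreath (by omega) h2 (.inl h1) e P

theorem uh_one [Fintype F] (hF : Fintype.card F = q ^ 2) (hn : 3 ≤ n)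
    {H : Subgroup (GL (Fin n) F)} (hH : H ≤ GU n F q ⊓ specialLinear (Fin n) F) :
    UH q (frob (natCard_of_card hF)) 1 H :=
  ⟨uf_one hF hn, GU_eq (natCard_of_card hF) n ▸ hH.trans inf_le_left, hH.trans inf_le_right⟩

theorem u_max [Fintype F] (hF : Fintype.card F = q ^ 2) (hn : 3 ≤ n) (hex : ¬ (n = 3 ∧ q = 2))
    {H : Subgroup (GL (Fin n) F)} (hH : IsMaximalIn (GU n F q ⊓ specialLinear (Fin n) F) H) :
    (∃ M, UCls q (frob (natCard_of_card hF)) 1 M ∧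
      H = M ⊓ (GU n F q ⊓ specialLinear (Fin n) F)) ∨ InUnitaryResidualClass H := by
  refine (u_main (uh_one hF hn hH.1.le)).imp_left fun ⟨M, h1, h2⟩ => ⟨M, h1, ?_⟩
  have := amb_SU hF hn hex
  rw [GU_eq (natCard_of_card hF)] at this hH ⊢
  exact eq_inf_of_max hH h2 (h1.not_le (uf_one hF hn) this)

theorem isUnitary_one [Finite F] (hF : Nat.card F = q ^ 2) (n : ℕ) :
    IsUnitaryFormPow q (bf (frob hF) (1 : GL (Fin n) F).1) :=
  ⟨fun _ _ _ => bf_add_left .., fun _ _ _ => bf_smul_left .., fun v w => by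
    rw [(gram_one _ (inv_frob hF).invol).symm, one_mul, frob_apply], nondeg_bf _ _⟩

theorem tensor_one {σ : F →+* F} {n₁ n₂ : ℕ} {e : ι ≃ Fin n₁ × Fin n₂} {P J : GL ι F}
    (h : pull σ e P J = 1) : IsTensorFormStructure σ (bf σ J.1) (bf σ (1 : GL (Fin n₁) F).1)
      (bf σ (1 : GL (Fin n₂) F).1) e P :=
  isTensorFormStructure one_ne_zero (by simp [h])

theorem power_one {σ : F →+* F} {k t : ℕ} {e : ι ≃ (Fin t → Fin k)} {P J : GL ι F}
    (h : pull σ e P J = 1) :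
    IsTensorPowerFormStructure σ (bf σ J.1) (bf σ (1 : GL (Fin k) F).1) e P :=
  isTensorPowerFormStructure (c := 1) (by rw [h, map_one, one_mul]; exact ptG_one.symm)

theorem rational_one [Finite F] {σ : F →+* F} {P J : GL ι F}
    (h : (cg σ P.1 J.1).map σ = cg σ P.1 J.1) :
    IsFormRationalStructure (bf σ J.1) (fixF σ) 1 P := rational_of_fixed (by rwa [one_smul])

theorem UCls.inClass [Fintype F] (hF : Fintype.card F = q ^ 2) (hn : 3 ≤ n)
    {M : Subgroup (GL (Fin n) F)} (h : UCls q (frob (natCard_of_card hF)) 1 M) :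
    InUnitaryClass n F q (M ⊓ GU n F q) := by
  have U := uf_one hF hn
  simp only [InUnitaryClass, InUnitaryPartialClass, herm_eq (natCard_of_card hF)]
  rcases h with ⟨W, h1, h2, rfl⟩ | ⟨W, h1, h2, h3, rfl⟩ | ⟨t, k, D, h1, -, -, rfl⟩ |
    ⟨k, D, h1, h2, -, rfl⟩ | ⟨F₀, r, P, h1, h2, h3, h4, rfl⟩ | ⟨P, h1, h2, rfl⟩ |
    ⟨F₀, P, ζ, h1, h2, h3, h4, h5, h6, rfl⟩ | ⟨r, R, p, e, k, h1, h2, h3, h4, h5, -, h6, h7, rfl⟩ |
    ⟨r, K, h1, h2, h3, h4, rfl⟩ | ⟨n₁, n₂, e, P, h1, h2, -, h3, rfl⟩ |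
    ⟨k, t, e, P, h1, h2, h3, h4, rfl⟩
  · exact .inl <| .inl ⟨W, h1, h2, rfl⟩
  · exact .inl <| .inr <| .inl ⟨W, h1, h2, by simpa using h3, rfl⟩
  · exact .inl <| .inr <| .inr <| .inl ⟨t, k, D, h1, rfl⟩
  · exact .inl <| .inr <| .inr <| .inr <| .inl ⟨k, D, by
      have := IsMDecomposition.card_eq h1; simp at this; omega, h1, h2, rfl⟩
  · exact .inl <| .inr <| .inr <| .inr <| .inr <| .inl ⟨F₀, r, P, h1, h2, h3, h4, rfl⟩
  · exact .inl <| .inr <| .inr <| .inr <| .inr <| .inr <| .inl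
      ⟨_, P, h1, U.card_eq, rational_one h2, rfl⟩
  · exact .inl <| .inr <| .inr <| .inr <| .inr <| .inr <| .inr <| .inl
      ⟨F₀, P, ζ, by simpa using h1, h2, h3, h4, h5, h6, rfl⟩
  · exact .inl <| .inr <| .inr <| .inr <| .inr <| .inr <| .inr <| .inr
      ⟨r, R, p, e, k, h2, absIrr_of_span h1.span, h3, h4, h5,
        h7.imp_left fun h => ⟨h.1, h.2.2.1, h6, h.2.2.2⟩, rfl⟩
  · exact .inr <| .inl ⟨r, K, h1, h2, h3, h4.isAdjointClosed U.inv.invol, rfl⟩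
  · exact .inr <| .inr <| .inl ⟨n₁, n₂, e, P, _, _, h1, h2, isUnitary_one _ _, isUnitary_one _ _,
      tensor_one h3, rfl⟩
  · exact .inr <| .inr <| .inr ⟨k, t, e, P, _, h1, h2, h3, isUnitary_one _ _, power_one h4, rfl⟩

/-- The arithmetic of a minimal field with `q ^ 2` elements. -/
theorem minimal_sq [Fintype F] (hF : Fintype.card F = q ^ 2) {r p e : ℕ} (hr : r.Prime)
    (hne : r ≠ p) (h : IsMinimalFieldFor r p e F) : ∃ f, e = 2 * f ∧ q = p ^ f ∧ 2 * f ∣ r - 1 ∧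
      p ^ (2 * f) % r = 1 ∧ ∀ d, 0 < d → d < 2 * f → p ^ d % r ≠ 1 := by
  have h1 := h.2.2.1
  rw [hF] at h1
  obtain ⟨f, -, rfl⟩ := (Nat.dvd_prime_pow h.1).1 (h1 ▸ dvd_pow_self q two_ne_zero)
  rw [← pow_mul, mul_comm] at h1
  obtain rfl := Nat.pow_right_injective h.1.two_le h1
  exact ⟨f, rfl, rfl, minimal_facts hr hne h⟩

theorem minimal_four_sq [Fintype F] (hF : Fintype.card F = q ^ 2) {p : ℕ} (hne : 2 ≠ p)
    (h : IsMinimalFieldFor 4 p 2 F) : q = p ∧ p % 4 = 3 := by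
  have h1 := h.2.2.2.2 1 one_pos one_lt_two
  have h2 := h.1.eq_two_or_odd
  have h3 := h.1.two_le
  rw [pow_one] at h1
  exact ⟨Nat.pow_left_injective two_ne_zero (hF.symm.trans h.2.2.1), by omega⟩

end Cfsg.Agent.Asch
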