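import Mathlib
import Cfsg.Agent.Asch.UMax
import Cfsg.Agent.Conj.Class
import Cfsg.Agent.Herm.Conj

/-! Tools for excluding geometric subgroups of small unitary groups. -/

set_option autoImplicit false

namespace Cfsg.Agent.Asch

open Matrix Cfsg.Geo Cfsg.Agent.Herm Module Polynomial
open scoped MatrixGroups Pointwise

variable {ι κ : Type} [Fintype ι] [DecidableEq ι] [Fintype κ] [DecidableEq κ] {F L : Type*}
  [Field F] [Field L] {q n : ℕ}

theorem max_comap {G G' : Type*} [Group G] [Group G'] (f : G' ≃* G) {I H : Subgroup G}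
    {I' : Subgroup G'} (h : IsMaximalIn I H) (hI : ∀ g, f g ∈ I ↔ g ∈ I') :
    IsMaximalIn I' (H.comap f.toMonoidHom) := by
  obtain rfl : I' = I.comap f.toMonoidHom := by ext g; exact (hI g).symm
  have hf : Function.Surjective f.toMonoidHom := f.surjective
  refine ⟨(Subgroup.comap_lt_comap_of_surjective hf).2 h.1, fun M h1 h2 => ?_⟩
  rw [← Subgroup.comap_map_eq_self_of_injective (f := f.toMonoidHom) f.injective M] at h1 h2 ⊢
  rw [Subgroup.comap_le_comap_of_surjective hf] at h1 h2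
  exact (h.2 _ h1 h2).imp (congrArg _) (congrArg _)

theorem not_max_of_le {G : Type*} [Group G] {I H K : Subgroup G} (h : H ≤ K) {x y : G} (hx : x ∈ I)
    (hxK : x ∈ K) (hxH : x ∉ H) (hy : y ∈ I) (hyK : y ∉ K) : ¬ IsMaximalIn I H := fun hH =>
  (hH.2 (K ⊓ I) (le_inf h hH.1.le) inf_le_right).elim (fun e => hxH (e ▸ ⟨hxK, hx⟩))
    fun e => hyK (e.ge hy).1

/-- The matrices preserving a set of vectors. -/
def setG [Finite F] (S : (ι → F) → Prop) : Subgroup (GL ι F) where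
  carrier := {g | ∀ v, S v → S (g.1 *ᵥ v)}
  mul_mem' ha hb v hv := by rw [Units.val_mul, ← mulVec_mulVec]; exact ha _ (hb v hv)
  one_mem' v hv := by simpa using hv
  inv_mem' {g} hg := by
    obtain ⟨k, hk⟩ := mem_powers_iff_mem_zpowers.2 (Subgroup.inv_mem _ (Subgroup.mem_zpowers g))
    rw [← hk]
    clear hk
    induction k with
    | zero => simp
    | succ k ih =>
      intro v hv
      simp only [pow_succ, Units.val_mul, ← mulVec_mulVec] at ih ⊢
      exact ih _ (hg v hv)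

/-- The special unitary group of the standard form. -/
def UU (σ : F →+* F) (ι : Type) [Fintype ι] [DecidableEq ι] : Subgroup (GL ι F) :=
  Iso σ (1 : GL ι F).1 ⊓ specialLinear ι F

theorem UU_eq [Fintype F] (hF : Fintype.card F = q ^ 2) {σ : F →+* F} (h : Herm.Inv σ) :
    GU n F q ⊓ specialLinear (Fin n) F = UU σ (Fin n) := by
  rw [GU_eq (natCard_of_card hF), UU,
    show frob _ = σ from RingHom.ext fun a => (h.apply_pow (natCard_of_card hF) a).symm]

theorem mem_UU {σ : F →+* F} {g : GL ι F} :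
    g ∈ UU σ ι ↔ g.1ᵀ * g.1.map σ = 1 ∧ g.1.det = 1 := by
  simp [UU, mem_Iso, mem_SL, cg]

theorem frG_mem_UU {σ : F →+* F} {e : ι ≃ κ} {P : GL ι F} (hp : pull σ e P 1 = 1) (g : GL κ F) :
    frG e P g ∈ UU σ ι ↔ g ∈ UU σ κ := by
  rw [UU, UU, Subgroup.mem_inf, Subgroup.mem_inf, frG_mem_Iso, hp, frG_mem_SL, mem_SL]

/-- Change of field. -/
def glE (φ : L ≃+* F) : GL ι L ≃* GL ι F := Units.mapEquiv φ.mapMatrix.toMulEquiv

theorem glE_coe (φ : L ≃+* F) (g : GL ι L) : (glE φ g).1 = g.1.map φ := rfl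

theorem glE_mem_UU (φ : L ≃+* F) {σ : F →+* F} {τ : L →+* L} (h : ∀ a, σ (φ a) = φ (τ a))
    (g : GL ι L) : glE φ g ∈ UU σ ι ↔ g ∈ UU τ ι := by
  rw [mem_UU, mem_UU, glE_coe, ← φ.mapMatrix.injective.eq_iff (a := g.1ᵀ * _),
    ← φ.injective.eq_iff (a := g.1.det), φ.map_det, map_one, map_one, map_mul]
  refine and_congr (Eq.congr_left ?_) Iff.rfl
  congr 1
  ext i j
  exact h _

theorem exists_glE [Fintype F] [Fintype L] (hF : Fintype.card F = q ^ 2)
    (hL : Fintype.card L = q ^ 2) {σ : F →+* F} {τ : L →+* L} (h1 : Herm.Inv σ) (h2 : Herm.Inv τ) :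
    ∃ φ : L ≃+* F, ∀ a, σ (φ a) = φ (τ a) :=
  ⟨FiniteField.ringEquivOfCardEq (hL.trans hF.symm), fun a => by
    rw [h1.apply_pow (natCard_of_card hF), h2.apply_pow (natCard_of_card hL), map_pow]⟩

theorem uG_aux {σ : F →+* F} (h : ∀ a, σ (σ a) = a) {A : Matrix ι ι F} (hA : Aᵀ * A.map σ = 1) :
    (A.map σ)ᵀ * A = 1 := by
  have := congrArg (·.map σ) hA
  simpa only [Matrix.map_mul, map_map_inv h, Matrix.map_one σ σ.map_zero σ.map_one,
    transpose_map] using this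

/-- An invertible matrix from a unitary matrix. -/
def uG {σ : F →+* F} (h : ∀ a, σ (σ a) = a) (A : Matrix ι ι F) (hA : Aᵀ * A.map σ = 1) : GL ι F :=
  ⟨A, (A.map σ)ᵀ, mul_eq_one_comm.1 (uG_aux h hA), uG_aux h hA⟩

theorem Mono.exists {g : GL ι F} (h : Mono g.1) : ∃ (ρ : Equiv.Perm ι) (d : ι → F),
    (∀ v i, (g.1 *ᵥ v) i = d i * v (ρ i)) ∧ (∀ i, g.1 i (ρ i) = d i) ∧
      g.1.det = (Equiv.Perm.sign ρ : ℤ) * ∏ i, d i := by
  obtain ⟨ρ, hρ⟩ := exists_perm_of_cols h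
  refine ⟨ρ⁻¹, fun i => g.1 i (ρ⁻¹ i), fun v i => ?_, fun _ => rfl, ?_⟩
  · exact Finset.sum_eq_single (ρ⁻¹ i) (fun j _ hj =>
      mul_eq_zero_of_left (hρ i j (by rintro rfl; simp at hj)) _) (by simp)
  · have := det_permute' ρ⁻¹ g.1
    rw [show g.1.submatrix id ⇑ρ⁻¹ = diagonal fun i => g.1 i (ρ⁻¹ i) by
      ext i j
      by_cases e : i = j
      · simp [e]
      · rw [diagonal_apply_ne _ e]
        exact hρ i _ (by simpa using e), det_diagonal] at this
    rw [this, ← mul_assoc, ← Int.cast_mul, ← Units.val_mul, Int.units_mul_self]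
    simp

theorem exists_on_mono [Finite F] {σ : F →+* F} (hσ : Herm.Inv σ) {t : ℕ}
    {D : Fin t → Submodule F (ι → F)}
    (hD : IsNondegenerateMDecomposition (bf σ (1 : GL ι F).1) 1 D) :
    ∃ (e : ι ≃ Fin t) (P : GL ι F), pull σ e P 1 = 1 ∧
      ∀ g, frG e P g ∈ decompositionStabilizer D → Mono g.1 := by
  obtain ⟨e, P, hP, hp⟩ := (gram_one σ hσ.invol).exists_on_frame hσ hD
  refine ⟨e.trans (Equiv.uniqueProd _ _), P, by
    rw [pull_trans', hp]; simpa using pull_sc σ (Equiv.uniqueProd (Fin t) (Fin 1)) 1,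
    fun g hg => ?_⟩
  rw [frG_trans'] at hg
  obtain ⟨a, ρ, e'⟩ := hP.exists_bmG hg
  refine Mono.of_submatrix (Equiv.uniqueProd (Fin t) (Fin 1)) ?_
  rw [← frG_one_coe, (frG e P).injective e']
  exact Mono.bm (a := fun i => (a i).1) (fun _ j i i' _ _ => Subsingleton.elim i i') ρ

theorem frame_reduce [Fintype F] [Fintype L] (hF : Fintype.card F = q ^ 2)
    (hL : Fintype.card L = q ^ 2) {τ : L →+* L} (hτ : Herm.Inv τ)
    {D : Fin n → Submodule F (Fin n → F)} (hD : IsNondegenerateMDecomposition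
      (bf (frob (natCard_of_card hF)) (1 : GL (Fin n) F).1) 1 D)
    (hH : IsMaximalIn (GU n F q ⊓ specialLinear (Fin n) F)
      (decompositionStabilizer D ⊓ (GU n F q ⊓ specialLinear (Fin n) F))) :
    ∃ H, IsMaximalIn (UU τ (Fin n)) H ∧ ∀ g ∈ H, Mono g.1 := by
  have hσ := inv_frob (natCard_of_card hF)
  obtain ⟨e, P, hp, h⟩ := exists_on_mono hσ hD
  obtain ⟨φ, hφ⟩ := exists_glE hF hL hσ hτ
  rw [UU_eq hF hσ] at hH
  exact ⟨_, max_comap (glE φ) (max_comap (frG e P) hH (frG_mem_UU hp)) (glE_mem_UU φ hφ),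
    fun g hg j i i' h1 h2 => h _ hg.1 j i i' (φ.map_ne_zero_iff.2 h1) (φ.map_ne_zero_iff.2 h2)⟩

theorem isConj_of_irred {A B : Matrix ι ι F} {p : F[X]} (hp : Irreducible p) (hm : p.Monic)
    (hA : aeval A p = 0) (hB : aeval B p = 0) : IsConj A B := by
  classical
  refine Conj.isConj_iff_sim.2 (Conj.sim_of_finrank_ker fun r j hr hr' => ?_)
  have key : ∀ A : Matrix ι ι F, aeval A p = 0 → LinearMap.ker (aeval (toLin' A) (r ^ j)) =
      if p = r ∧ j ≠ 0 then ⊤ else ⊥ := fun A hA => by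
    have hA' : aeval (toLin' A) p = 0 :=
      (aeval_algHom_apply toLinAlgEquiv' A p).trans (by rw [hA, map_zero])
    split_ifs with h
    · rw [map_pow, ← h.1, hA', zero_pow h.2, LinearMap.ker_zero]
    · by_cases hj : j = 0
      · simp [hj, Module.End.one_eq_id]
      obtain ⟨a, b, hab⟩ := (Conj.isCoprime_of_ne hp hr hm hr' fun e => h ⟨e, hj⟩).pow_right
        (n := j)
      have := congrArg (aeval (toLin' A)) hab
      rw [map_add, map_mul, hA', mul_zero, zero_add, map_mul, map_one] at this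
      exact LinearMap.ker_eq_bot'.2 fun v hv => by
        simpa only [Module.End.mul_apply, hv, map_zero, Module.End.one_apply, eq_comm] using
          LinearMap.congr_fun this v
  rw [key A hA, key B hB]

theorem IsFieldSubalgebra.exists_order [Fintype F] [Nonempty ι] {r : ℕ}
    {K : Subalgebra F (Matrix ι ι F)} (hK : IsFieldSubalgebra r K) {d : ℕ}
    (hd : d ∣ Fintype.card F ^ r - 1) : ∃ s : GL ι F, s.1 ∈ K ∧ orderOf s = d ∧
      ∀ k ∈ K, k ^ d = 1 → ∃ i, k = s.1 ^ i := by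
  let _ := (isField_of hK.comm hK.inv).toField
  obtain ⟨γ, hγ⟩ := IsCyclic.exists_ofOrder_eq_natCard (α := Kˣ)
  rw [← Nat.card_eq_fintype_card] at hd
  rw [Nat.card_units, card_fieldSub hK, ← Nat.card_eq_fintype_card] at hγ
  have h1 := orderOf_pow_orderOf_div (orderOf_pos γ).ne' (hγ ▸ hd)
  generalize γ ^ _ = s at h1
  have : NeZero d := ⟨h1 ▸ (orderOf_pos s).ne'⟩
  refine ⟨Units.map K.val.toRingHom.toMonoidHom s, s.1.2, (orderOf_injective _
    (Units.map_injective Subtype.val_injective) s).trans h1, fun k hk e => ?_⟩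
  obtain ⟨i, -, hi⟩ := (IsPrimitiveRoot.coe_units_iff.2 (h1 ▸ IsPrimitiveRoot.orderOf s)
    ).eq_pow_of_pow_eq_one (ξ := ⟨k, hk⟩) (Subtype.ext e)
  exact ⟨i, congrArg Subtype.val hi.symm⟩

theorem UF.field_iso [Fintype F] {σ : F →+* F} {J : GL ι F} (U : UF q σ J) {r : ℕ}
    {K : Subalgebra F (Matrix ι ι F)} (hK : IsFieldSubalgebra r K) (ha : AdjSt σ J K) {s : GL ι F}
    (hs : s.1 ∈ K) (h : s ^ (q ^ r + 1) = 1) : s ∈ Iso σ J.1 := by
  have := U.nonempty
  obtain ⟨a, hne⟩ := U.inv.ne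
  refine mem_Iso_of_adj U.inv.invol ?_
  rw [U.gram.adj_eq_pow (s := q ^ r) hK.comm hK.inv (by
    rw [card_fieldSub hK, U.card, ← pow_mul, ← pow_mul, mul_comm]) ha ⟨a • 1, K.smul_mem K.one_mem a,
      by rw [adj_smul, adj_one]; exact fun e => hne (smul_left_injective F one_ne_zero e)⟩ hs,
    ← pow_succ, ← Units.val_pow_eq_pow_val, h, Units.val_one]

theorem sylow_conj {G : Type*} [Group G] {I : Subgroup G} [Finite I] {p : ℕ} (hp : p.Prime)
    (h : ¬ p ^ 2 ∣ Nat.card I) {x y : G} (hx : x ∈ I) (hy : y ∈ I) (h1 : orderOf x = p)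
    (h2 : orderOf y = p) : ∃ g ∈ I, Subgroup.zpowers (g * y * g⁻¹) = Subgroup.zpowers x := by
  have := Fact.mk hp
  have h3 : ∀ x : I, orderOf x.1 = p → Nat.card (Subgroup.zpowers x) =
      p ^ (Nat.card I).factorization p := fun x hx => by
    have h4 := orderOf_dvd_natCard x
    rw [Nat.card_zpowers, ← Subgroup.orderOf_coe, hx] at *
    rw [← pow_one p, hp.pow_dvd_iff_le_factorization Nat.card_pos.ne'] at h4
    rw [hp.pow_dvd_iff_le_factorization Nat.card_pos.ne'] at h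
    rw [show (Nat.card I).factorization p = 1 by omega, pow_one]
  obtain ⟨g, hg⟩ := MulAction.exists_smul_eq I (Sylow.ofCard _ (h3 ⟨y, hy⟩ h2))
    (Sylow.ofCard _ (h3 ⟨x, hx⟩ h1))
  have h5 := congrArg (fun P : Sylow p I => (P : Subgroup I).map I.subtype) hg
  simp only [Sylow.coe_subgroup_smul, Sylow.coe_ofCard, MonoidHom.map_zpowers,
    Subgroup.pointwise_smul_def, Subgroup.subtype_apply] at h5
  erw [MonoidHom.map_zpowers, MonoidHom.map_zpowers] at h5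
  exact ⟨g, g.2, h5⟩

theorem mem_Iso_one {σ : F →+* F} {g : GL ι F} :
    g ∈ Iso σ (1 : GL ι F).1 ↔ g.1ᵀ * g.1.map σ = 1 := by
  simp [mem_Iso, cg]

theorem mem_Iso_ct {σ : F →+* F} (h : ∀ a, σ (σ a) = a) {g : GL ι F} :
    g ∈ Iso σ (1 : GL ι F).1 ↔ ct σ g.1 * g.1 = 1 :=
  mem_Iso_one.trans ⟨uG_aux h, fun e => by
    simpa only [map_map_inv h] using uG_aux h (A := g.1.map σ) (by rwa [map_map_inv h])⟩

theorem pull_one_of_mem {σ : F →+* F} (e : ι ≃ κ) {P : GL ι F} (h : P ∈ Iso σ (1 : GL ι F).1) :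
    pull σ e P 1 = 1 := Units.ext (by rw [pull_coe, mem_Iso.1 h]; simp)

theorem exists_frG_conj [Finite L] {τ : L →+* L} (hτ : Herm.Inv τ) (e : ι ≃ κ) {z : GL ι L}
    {z₀ : GL κ L} (hz : z ∈ Iso τ (1 : GL ι L).1) (h0 : z₀ ∈ Iso τ (1 : GL κ L).1) {p : L[X]}
    (hp : Irreducible p) (hm : p.Monic) (h1 : aeval z.1 p = 0) (h2 : aeval z₀.1 p = 0) :
    ∃ P, pull τ e P 1 = 1 ∧ frG e P z₀ = z := by
  obtain ⟨c, hc⟩ := isConj_of_irred (A := (frG e 1 z₀).1) hp hm (by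
    rw [frG_coe, aeval_algHom_apply, h2, map_zero]) h1
  have h3 : frG e 1 z₀ ∈ Iso τ (1 : GL ι L).1 := by
    rwa [frG_mem_Iso, pull_one_of_mem e (one_mem _)]
  obtain ⟨u, -, h4, h5, -⟩ := hτ.exists_unitary_conj ((mem_Iso_ct hτ.invol).1 h3)
    ((mem_Iso_ct hτ.invol).1 hz) c.isUnit hc
  let P : GL ι L := ⟨u, _, mul_eq_one_comm.1 h4, h4⟩
  refine ⟨P, pull_one_of_mem e ((mem_Iso_ct hτ.invol).2 h4), ?_⟩
  have h6 : P * frG e 1 z₀ = z * P := Units.ext h5
  rw [eq_mul_inv_of_mul_eq h6.symm]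
  simp [frG]

theorem field_reduce [Fintype F] [Fintype L] (hF : Fintype.card F = q ^ 2)
    (hL : Fintype.card L = q ^ 2) {τ : L →+* L} (hτ : Herm.Inv τ) (hn : 3 ≤ n) {r : ℕ}
    {K : Subalgebra F (Matrix (Fin n) (Fin n) F)} (hK : IsFieldSubalgebra r K)
    (ha : AdjSt (frob (natCard_of_card hF)) 1 K)
    (hH : IsMaximalIn (GU n F q ⊓ specialLinear (Fin n) F)
      (subalgebraNormalizer K ⊓ (GU n F q ⊓ specialLinear (Fin n) F))) {d : ℕ}
    (hd : d ∣ q ^ r + 1) : ∃ H, IsMaximalIn (UU τ (Fin n)) H ∧ ∃ s ∈ Iso τ (1 : GL (Fin n) L).1,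
      orderOf s = d ∧ (∀ g ∈ H, ∃ i, g * s * g⁻¹ = s ^ i) ∧
        ∀ c : L, c ^ d = 1 → ∃ i, c • 1 = s.1 ^ i := by
  have U := uf_one hF hn
  have := U.nonempty
  obtain ⟨φ, hφ⟩ := exists_glE hF hL U.inv hτ
  obtain ⟨s, h1, h2, h3⟩ := IsFieldSubalgebra.exists_order hK (d := d) (hd.trans (by
    rw [hF, ← pow_mul, mul_comm, pow_mul, ← one_pow 2, Nat.sq_sub_sq]; exact dvd_mul_right _ _))
  have h4 := U.field_iso hK ha h1 (orderOf_dvd_iff_pow_eq_one.1 (h2 ▸ hd))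
  obtain ⟨s, rfl⟩ := (glE φ).surjective s
  rw [UU_eq hF U.inv] at hH
  refine ⟨_, max_comap (glE φ) hH (glE_mem_UU φ hφ), s, ?_, (MulEquiv.orderOf_eq _ _).symm.trans h2,
    fun g hg => ?_, fun c hc => ?_⟩
  · rw [mem_Iso_one] at h4 ⊢
    refine φ.mapMatrix.injective ?_
    rw [map_mul, map_one, ← h4]
    congr 1
    ext i j
    exact (hφ _).symm
  · obtain ⟨i, hi⟩ := h3 _ ((hg.1 _).1 h1) (by
      change (glE φ g * glE φ s * (glE φ g)⁻¹).1 ^ d = 1
      rw [← Units.val_pow_eq_pow_val, conj_pow, ← h2, pow_orderOf_eq_one]; simp)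
    exact ⟨i, (glE φ).injective (by
      rw [map_mul, map_mul, map_inv, map_pow]; exact Units.ext hi)⟩
  · obtain ⟨i, hi⟩ := h3 _ (K.smul_mem K.one_mem (φ c)) (by
      rw [_root_.smul_pow, ← map_pow, hc]; simp)
    refine ⟨i, φ.mapMatrix.injective ?_⟩
    rw [map_pow]
    refine Eq.trans ?_ hi
    ext i j
    simp [one_apply, apply_ite φ]

end Cfsg.Agent.Asch
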