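import Mathlib
import Cfsg.Agent.Asch.UAux

/-! Two non-maximal geometric subgroups of `SU₆(2)`. -/

set_option autoImplicit false

namespace Cfsg.Agent.Asch

open Matrix Cfsg.Geo Cfsg.Agent.Herm Module Polynomial
open scoped MatrixGroups Kronecker

variable {F : Type*} [Field F] {q : ℕ}

local notation "τ₄" => starRingEnd Comp.K4
local notation "ω" => Comp.w4

theorem inv_K4 : Herm.Inv τ₄ := ⟨by decide +kernel, ω, by decide +kernel⟩

theorem tvG_mem_UU {ι : Type} [Fintype ι] [DecidableEq ι] {σ : F →+* F} (h : ∀ a, σ (σ a) = a)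
    {v : ι → F} (hv : bf σ (1 : GL ι F).1 v v = 0) {c : F} (hc : σ c + c * 1 = 0) :
    tvG hv c ∈ UU σ ι := ⟨tvG_mem_Iso (gram_one _ h) hv hc, mem_SL.2 (det_tvG hv c)⟩

/-- The roots of Mitchell's reflection group modulo two. -/
def S6 (v : Fin 6 → Comp.K4) : Prop := (Finset.univ.filter (v · ≠ 0)).card = 2 ∨ ∏ i, v i = 1

instance : DecidablePred S6 := fun _ => inferInstanceAs (Decidable (_ ∨ _))

theorem S6_aux : ∀ a b c d e f : Comp.K4, S6 ![a, b, c, d, e, f] →
    S6 (![a, b, c, d, e, f] + (a + b + c + d + e + f) • 1) := by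
  decide +kernel

theorem su6_frame [Fintype F] (hF : Fintype.card F = q ^ 2) {D : Fin 6 → Submodule F (Fin 6 → F)}
    (hD : IsNondegenerateMDecomposition (bf (frob (natCard_of_card hF)) (1 : GL (Fin 6) F).1) 1 D)
    (hH : IsMaximalIn (GU 6 F q ⊓ specialLinear (Fin 6) F)
      (decompositionStabilizer D ⊓ (GU 6 F q ⊓ specialLinear (Fin 6) F))) : 3 ≤ q := by
  have := (uf_one hF (n := 6) (by norm_num)).two_le
  by_contra h
  obtain rfl : q = 2 := by omega
  obtain ⟨H, h1, h2⟩ := frame_reduce hF Comp.card_K4 inv_K4 hD hH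
  have h3 : bf τ₄ (1 : GL (Fin 6) Comp.K4).1 1 1 = 0 := by decide +kernel
  have h4 : bf τ₄ (1 : GL (Fin 6) Comp.K4).1 ![ω, 1, 1, 1, 1, 1] ![ω, 1, 1, 1, 1, 1] = 0 := by
    decide +kernel
  refine not_max_of_le (K := setG S6) (fun g hg v hv => ?_)
    (tvG_mem_UU inv_K4.1 h3 (c := 1) (by decide +kernel)) (fun v hv => ?_)
    (fun h => absurd (h2 _ h 0 1 2) (by rw [tvG_coe]; decide +kernel))
    (tvG_mem_UU inv_K4.1 h4 (c := 1) (by decide +kernel))
    (fun h => absurd (h 1) (by rw [tvG_mulVec]; decide +kernel)) h1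
  · obtain ⟨ρ, d, h5, -, h6⟩ := (h2 g hg).exists
    rw [(mem_UU.1 (h1.1.le hg)).2, show ((Equiv.Perm.sign ρ : ℤ) : Comp.K4) = 1 by
      rcases Int.units_eq_one_or (Equiv.Perm.sign ρ) with e | e <;> rw [e] <;> decide +kernel,
      one_mul] at h6
    have h7 : ∀ i, d i ≠ 0 := fun i => Finset.prod_ne_zero_iff.1 (h6 ▸ one_ne_zero) i (by simp)
    refine hv.imp (Eq.trans (Finset.card_equiv ρ fun i => by simp [h5, h7])) fun e => ?_
    simp only [h5, Finset.prod_mul_distrib, ← h6, Equiv.prod_comp ρ v, e, one_mul]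
  · rw [tvG_mulVec]
    convert S6_aux (v 0) (v 1) (v 2) (v 3) (v 4) (v 5) (by convert hv; funext i; fin_cases i <;> rfl)
    · funext i; fin_cases i <;> rfl
    · simp [bf, dotProduct, Fin.sum_univ_six]

/-- A cube root of `ω`. -/
def z3 : Matrix (Fin 3) (Fin 3) Comp.K4 := !![0, 0, ω; 1, 0, 0; 0, 1, 0]

/-- The same in dimension six. -/
def z6 : GL (Fin 3 × Fin 2) Comp.K4 := uG inv_K4.1 (z3 ⊗ₖ 1) (by decide +kernel)

/-- The symplectic forms for which `z6` is self-adjoint. -/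
def A3 (a b c : Comp.K4) : Matrix (Fin 3) (Fin 3) Comp.K4 := !![a, b, c; b, c, ω * a; c, ω * a, ω * b]

/-- A symplectic form. -/
def B6 : GL (Fin 3 × Fin 2) Comp.K4 :=
  uG inv_K4.1 (A3 0 0 1 ⊗ₖ !![0, 1; 1, 0]) (by decide +kernel)

theorem A3_aux : ∀ a b c : Comp.K4,
    (A3 a b c ⊗ₖ !![0, 1; 1, 0])ᵀ * (A3 a b c ⊗ₖ !![0, 1; 1, 0]).map τ₄ = 1 →
      (a * c * (ω * b) - a * (ω * a) * (ω * a) - b * b * (ω * b) + b * (ω * a) * c +
        c * b * (ω * a) - c * c * c) ^ 2 = 1 → A3 a b c ⊗ₖ !![0, 1; 1, 0] = c • B6.1 := by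
  decide +kernel

theorem det_A3 (a b c : Comp.K4) : (A3 a b c ⊗ₖ !![(0 : Comp.K4), 1; 1, 0]).det =
    (a * c * (ω * b) - a * (ω * a) * (ω * a) - b * b * (ω * b) + b * (ω * a) * c +
      c * b * (ω * a) - c * c * c) ^ 2 := by
  rw [det_kronecker, det_fin_two_of, det_fin_three, show ((0 : Comp.K4) * 0 - 1 * 1) ^
    Fintype.card (Fin 3) = 1 by decide +kernel, mul_one]
  rfl

theorem eq_A3 {M : Matrix (Fin 3 × Fin 2) (Fin 3 × Fin 2) Comp.K4} (h1 : M * z6.1 = z6.1ᵀ * M)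
    (h2 : Alt M) (h3 : Alt (M * z6.1)) : ∃ a b c, M = A3 a b c ⊗ₖ !![0, 1; 1, 0] := by
  have h4 : ∀ x y, M y x = M x y := fun x y => by
    have := h2 (Pi.single x 1 + Pi.single y 1)
    rw [bf_add_left, bf_add_right, bf_add_right, bf_single, bf_single, bf_single, bf_single, h2.diag,
      h2.diag, zero_add, add_zero, add_eq_zero_iff_eq_neg] at this
    rw [this]
    generalize M y x = a
    revert a
    decide +kernel
  have h5 : ∀ (M : Matrix (Fin 3 × Fin 2) (Fin 3 × Fin 2) Comp.K4) x l,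
      (M * z6.1) x (0, l) = M x (1, l) ∧ (M * z6.1) x (1, l) = M x (2, l) ∧
        (M * z6.1) x (2, l) = ω * M x (0, l) := fun M x l => by
    simp [z6, uG, z3, mul_apply, Fintype.sum_prod_type, Fin.sum_univ_three, one_apply, mul_comm]
  have h6 : ∀ x y, (M * z6.1) x y = (M * z6.1) y x := fun x y => by
    rw [h1, ← transpose_apply (z6.1ᵀ * M), transpose_mul, transpose_transpose,
      show Mᵀ = M from Matrix.ext fun _ _ => h4 _ _, h1]
  have h7 : ∀ j l i k, M (i, j) (k, l) =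
      A3 (M (0, j) (0, l)) (M (0, j) (1, l)) (M (0, j) (2, l)) i k := fun j l i k => by
    have a1 := h6 (0, j) (0, l)
    have a2 := h6 (0, j) (1, l)
    have a3 := h6 (0, j) (2, l)
    have a4 := h6 (1, j) (0, l)
    have a5 := h6 (1, j) (1, l)
    have a6 := h6 (1, j) (2, l)
    simp only [h5, h4 (_, j) (_, l)] at a1 a2 a3 a4 a5 a6
    fin_cases i <;> fin_cases k <;> simp [A3, ← a1, ← a2, ← a3, ← a4, ← a5, ← a6]
  have h8 : ∀ j i k, M (i, j) (k, j) = 0 := fun j i k => by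
    have a1 := h3.diag (0, j)
    have a2 := h7 j j 1 1
    rw [(h5 M _ _).1] at a1
    rw [h2.diag] at a2
    rw [h7, h2.diag, a1, show M (0, j) (2, j) = 0 from a2.symm]
    fin_cases i <;> fin_cases k <;> simp [A3]
  refine ⟨M (0, 0) (0, 1), M (0, 0) (1, 1), M (0, 0) (2, 1), Matrix.ext fun ⟨i, j⟩ ⟨k, l⟩ => ?_⟩
  have h9 : ∀ a b c i k, A3 a b c i k = A3 a b c k i := fun a b c i k => by
    fin_cases i <;> fin_cases k <;> rfl
  fin_cases j <;> fin_cases l
  · simp [h8]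
  · simpa using h7 0 1 i k
  · simpa [h9 _ _ _ i] using (h4 _ _).trans (h7 0 1 k i)
  · simp [h8]

theorem mem_sim_B6 {g : GL (Fin 3 × Fin 2) Comp.K4} (hg : g ∈ UU τ₄ _) {c : Comp.K4}
    (h : g.1 * z6.1 = c • (z6.1 * g.1)) : g ∈ similarityGroup (bf (RingHom.id _) B6.1) := by
  have h1 : B6.1 * z6.1 = z6.1ᵀ * B6.1 := by decide +kernel
  have h2 : Alt B6.1 := alt_of_skew (by decide +kernel) (by decide +kernel)
  have h3 : Alt (B6.1 * z6.1) := alt_of_skew (by decide +kernel) (by decide +kernel)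
  have h4 : cg (RingHom.id _) g.1 B6.1 * z6.1 = c • cg (RingHom.id _) g.1 (B6.1 * z6.1) := by
    simp [cg, Matrix.mul_assoc, h]
  obtain ⟨a, b, d, h5⟩ := eq_A3 (M := cg (RingHom.id _) g.1 B6.1) (by
    rw [h4, h1]
    simp only [cg, ← Matrix.mul_assoc, ← transpose_mul, h, transpose_smul, Matrix.smul_mul])
    (fun v => by rw [bf_cg, h2]) fun v => by rw [h4, bf_smul, bf_cg, h3, mul_zero]
  refine mem_sim_of_eq (h5.trans (A3_aux a b d ?_ ?_))
  · have h6 : B6.1ᵀ * B6.1.map τ₄ = 1 := by decide +kernel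
    have h7 := (mem_UU.1 hg).1
    have h8 : g.1 * (g.1.map τ₄)ᵀ = 1 := mul_eq_one_comm.1 (uG_aux inv_K4.1 h7)
    rw [← h5]
    simp only [cg, RingHom.coe_id, map_id, Matrix.map_mul, transpose_mul, transpose_transpose,
      transpose_map, Matrix.mul_assoc]
    rw [← Matrix.mul_assoc g.1, h8, Matrix.one_mul, ← Matrix.mul_assoc B6.1ᵀ, h6, Matrix.one_mul, h7]
  · rw [← det_A3, ← h5]
    simp only [cg, RingHom.coe_id, map_id, det_mul, det_transpose, (mem_UU.1 hg).2, one_mul, mul_one]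
    exact (det_A3 0 0 1).trans (by decide +kernel)

theorem su6_field [Fintype F] (hF : Fintype.card F = q ^ 2)
    {K : Subalgebra F (Matrix (Fin 6) (Fin 6) F)} (hK : IsFieldSubalgebra 3 K)
    (ha : AdjSt (frob (natCard_of_card hF)) 1 K)
    (hH : IsMaximalIn (GU 6 F q ⊓ specialLinear (Fin 6) F)
      (subalgebraNormalizer K ⊓ (GU 6 F q ⊓ specialLinear (Fin 6) F))) : 3 ≤ q := by
  have := (uf_one hF (n := 6) (by norm_num)).two_le
  by_contra h
  obtain rfl : q = 2 := by omega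
  obtain ⟨H, h1, s, h2, h3, h4, h5⟩ := field_reduce hF Comp.card_K4 inv_K4 (by norm_num) hK ha hH
    (d := 9) (by norm_num)
  obtain ⟨i, hi⟩ := h5 ω (by decide +kernel)
  have h6 : ω ^ 3 = 1 := by decide +kernel
  obtain ⟨j, rfl⟩ : 3 ∣ i := by
    have : s ^ (i * 3) = 1 := Units.ext (by
      rw [Units.val_pow_eq_pow_val, pow_mul, ← hi, _root_.smul_pow, h6]; simp)
    rw [← orderOf_dvd_iff_pow_eq_one, h3] at this
    omega
  have h7 : z6.1 ^ 3 = ω • 1 := by decide +kernel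
  obtain ⟨P, hp, hP⟩ := exists_frG_conj inv_K4 (finProdFinEquiv (m := 3) (n := 2)).symm
    (pow_mem h2 j) (z₀ := z6) (mem_Iso_one.2 (by decide +kernel)) (p := X ^ 3 - C ω)
    (irreducible_of_degree_le_three_of_not_isRoot (by rw [natDegree_X_pow_sub_C]; decide) (by
      simp only [IsRoot.def, eval_sub, eval_pow, eval_X, eval_C]; decide +kernel))
    (monic_X_pow_sub_C _ (by norm_num)) (by
      simp [← pow_mul, mul_comm j, ← hi, Algebra.algebraMap_eq_smul_one])
    (by simp [h7, Algebra.algebraMap_eq_smul_one])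
  have h8 : ∀ g, frG _ P g ∈ H → ∃ c : Comp.K4, g.1 * z6.1 = c • (z6.1 * g.1) := fun g hg => by
    obtain ⟨i, hi⟩ := h4 _ hg
    have h9 : g * z6 * g⁻¹ = z6 ^ i := (frG _ P).injective (by
      rw [map_mul, map_mul, map_inv, map_pow, hP, ← conj_pow, hi, pow_right_comm])
    have h10 : ω ^ i • (1 : Matrix (Fin 3 × Fin 2) (Fin 3 × Fin 2) Comp.K4) = ω • 1 := by
      have := congrArg (fun x => (x ^ 3).1) h9
      simp only [conj_pow, pow_right_comm z6 i, Units.val_mul, Units.val_pow_eq_pow_val, h7] at this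
      simpa [_root_.smul_pow] using this.symm
    have h11 := smul_left_injective _ one_ne_zero h10
    rw [← Nat.div_add_mod i 3, pow_add, pow_mul, h6, one_pow, one_mul] at h11
    have h12 : i % 3 = 1 := by
      have := Nat.mod_lt i (show 0 < 3 by norm_num)
      generalize i % 3 = k at *
      revert h11
      interval_cases k <;> decide +kernel
    refine ⟨ω ^ (i / 3), ?_⟩
    have := congrArg Units.val (eq_mul_of_mul_inv_eq h9)
    rwa [Units.val_mul, Units.val_mul, Units.val_pow_eq_pow_val, ← Nat.div_add_mod i 3, h12, pow_add,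
      pow_mul, h7, _root_.smul_pow, one_pow, pow_one, Matrix.smul_mul, Matrix.one_mul,
      Matrix.smul_mul] at this
  have h9 := max_comap _ h1 (frG_mem_UU hp)
  have hx : bf τ₄ (1 : GL (Fin 3 × Fin 2) Comp.K4).1 (Pi.single (0, 0) 1 + Pi.single (2, 1) 1)
    (Pi.single (0, 0) 1 + Pi.single (2, 1) 1) = 0 := by decide +kernel
  have hy : bf τ₄ (1 : GL (Fin 3 × Fin 2) Comp.K4).1 (Pi.single (0, 0) 1 + Pi.single (1, 0) 1)
    (Pi.single (0, 0) 1 + Pi.single (1, 0) 1) = 0 := by decide +kernel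
  exact not_max_of_le (fun g hg => (h8 g hg).elim fun c => mem_sim_B6 (h9.1.le hg))
    (tvG_mem_UU inv_K4.1 hx (c := 1) (by decide +kernel))
    (mem_sim_of_eq (c := 1) (by rw [tvG_coe]; decide +kernel))
    (fun h => absurd (h8 _ h) (by rw [tvG_coe]; decide +kernel))
    (tvG_mem_UU inv_K4.1 hy (c := 1) (by decide +kernel))
    (fun h => (mem_sim.1 h).elim fun c => by
      rw [tvG_coe]; generalize c.1 = c; revert c; decide +kernel) h9

end Cfsg.Agent.Asch
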