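import Mathlib
import Cfsg.Agent.Asch.U6

/-! Kernel computations with vectors over a small quadratic extension of a prime field. -/

set_option autoImplicit false

namespace Cfsg.Agent.Asch

open Matrix Cfsg.Geo Cfsg.Agent.Herm
open scoped MatrixGroups

/-- Codes of field elements. -/
abbrev CC := ℕ × ℕ
/-- Codes of vectors. -/
abbrev CV := List CC

/-- The characteristic and the equation `ω² = a + b ω`. -/
structure QP where
  p : ℕ
  a : ℕ
  b : ℕ

/-- Forced evaluation. -/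
def fN (x : ℕ) (k : ℕ → Bool) : Bool := Nat.casesOn x (k 0) fun m => k m.succ

theorem fN_eq (x : ℕ) (k : ℕ → Bool) : fN x k = k x := by cases x <;> rfl

/-- Sum. -/
def cadd (x y : CC) : CC := (x.1.add y.1, x.2.add y.2)

/-- Sum of vectors. -/
noncomputable def vadd (u : CV) : CV → CV :=
  List.rec (fun v => v) (fun x u ih v => List.casesOn v (x :: u) fun y v => cadd x y :: ih v) u

/-- `List.all`. -/
noncomputable def lall {α : Type} (l : List α) (f : α → Bool) : Bool :=
  List.rec true (fun x _ ih => Bool.rec false ih (f x)) l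

/-- `List.map`. -/
noncomputable def lmap {α β : Type} (f : α → β) (l : List α) : List β :=
  List.rec [] (fun x _ ih => f x :: ih) l

/-- Implication. -/
noncomputable def bimp (a b : Bool) : Bool := Bool.rec true b a

theorem lall_eq {α : Type} (l : List α) (f : α → Bool) : lall l f = l.all f := by
  induction l with
  | nil => rfl
  | cons x l ih => rw [List.all_cons, ← ih]; cases h : f x <;> simp [lall, h]

theorem lmap_eq {α β : Type} (f : α → β) (l : List α) : lmap f l = l.map f := by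
  induction l with
  | nil => rfl
  | cons x l ih => rw [List.map_cons, ← ih]; rfl

theorem bimp_true {a b : Bool} (h : bimp a b = true) (ha : a = true) : b = true := by
  subst ha; exact h

/-- All vectors of length `n` with entries in `E`. -/
noncomputable def allV (E : CV) (n : ℕ) : (CV → Bool) → Bool :=
  Nat.rec (fun f => f []) (fun _ ih f => lall E fun x => ih fun v => f (x :: v)) n

namespace QP
variable (Q : QP)

/-- Product. -/
def mul (x y : CC) : CC :=
  ((x.1.mul y.1).add (Q.a.mul (x.2.mul y.2)),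
    ((x.1.mul y.2).add (x.2.mul y.1)).add (Q.b.mul (x.2.mul y.2)))
/-- Conjugate. -/
def bar (x : CC) : CC := (x.1.add (Q.b.mul x.2), Q.p.pred.mul x.2)
/-- Reduction. -/
def red (x : CC) : CC := (x.1.mod Q.p, x.2.mod Q.p)
/-- Equality test. -/
def eq (x y : CC) : Bool := (x.1.mod Q.p).beq (y.1.mod Q.p) && (x.2.mod Q.p).beq (y.2.mod Q.p)
/-- Dot product. -/
noncomputable def dot (u : CV) : CV → CC := List.rec (fun _ => (0, 0))
  (fun x _ ih v => List.casesOn v (0, 0) fun y v => cadd (Q.mul x y) (ih v)) u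
/-- Hermitian product. -/
noncomputable def herm (u v : CV) : CC := Q.dot u (lmap Q.bar v)
/-- Matrix times vector. -/
noncomputable def mv (M : List CV) (v : CV) : CV := lmap (fun r => Q.dot r v) M
/-- The number of a vector. -/
noncomputable def enc (v : CV) : ℕ :=
  List.rec 0 (fun x _ ih => (x.1.mod Q.p).add (Q.p.mul ((x.2.mod Q.p).add (Q.p.mul ih)))) v
/-- Equality test of vectors. -/
noncomputable def eqV (n : ℕ) (u v : CV) : Bool :=
  lall (List.range n) fun i => Q.eq (u.getD i (0, 0)) (v.getD i (0, 0))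
/-- Linear combination. -/
noncomputable def comb (c : CV) : List CV → CV := List.rec (fun _ => [])
  (fun c _ ih U => List.casesOn U [] fun u U => vadd (lmap (Q.mul c) u) (ih U)) c
/-- Forced evaluation of a vector. -/
noncomputable def fV (v : CV) : (CV → Bool) → Bool := List.rec (fun k => k [])
  (fun x _ ih k => fN (x.1.mod Q.p) fun a => fN (x.2.mod Q.p) fun b => ih fun w => k ((a, b) :: w)) v
/-- Forced evaluation of a list of vectors. -/
noncomputable def fL (l : List CV) : (List CV → Bool) → Bool := List.rec (fun k => k [])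
  (fun v _ ih k => Q.fV v fun w => ih fun m => k (w :: m)) l
/-- The orbit of a vector. -/
noncomputable def orbL (s : List CV) : ℕ → CV → List CV
  | 0, _ => []
  | k + 1, u => u :: orbL s k ((Q.mv s u).map Q.red)
/-- The same, evaluated. -/
noncomputable def orb (s : List CV) (k : ℕ) : CV → (List CV → Bool) → Bool := Nat.rec
  (fun _ f => f []) (fun _ ih u f => Q.fV (Q.mv s u) fun w => ih w fun l => f (u :: l)) k
/-- The set of multiples of the vectors of `L` by elements of `μ` as a bit mask. -/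
noncomputable def mask (μ : CV) (L : List CV) : ℕ :=
  L.foldr (fun e m => μ.foldr (fun c m => m ||| 2 ^ Q.enc (e.map (Q.mul c))) m) 0
/-- Determinant. -/
noncomputable def det3 (u v w : CV) : CC :=
  let f (i j : ℕ) := Q.mul (v.getD i (0, 0)) (w.getD j (0, 0))
  let g (i j : ℕ) := cadd (f i j) (Q.mul (Q.p - 1, 0) (f j i))
  Q.dot u [g 1 2, g 2 0, g 0 1]
/-- Determinant test. -/
noncomputable def exDet : List CV → List CV → Bool
  | [a, b, c], [d, e, f] => Q.eq (Q.det3 d e f) (Q.det3 a b c)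
  | _, _ => true
/-- The vectors `s ^ (i * k) u`. -/
def pick (n m i : ℕ) (O : List CV) : List CV := (List.range n).map fun k => O.getD (i * k % m) []
/-- All combinations lie in the set. -/
noncomputable def combs (M : ℕ) (l : List CV) (U : List CV) : Bool :=
  Q.fL U fun U => lall l fun c => M.testBit (Q.enc (Q.comb c U))
/-- The normaliser of `s` preserves the multiples of `l`. -/
noncomputable def singer (n m : ℕ) (E μ : CV) (s : List CV) (e : CV) (l l₁ : List CV)
    (ex : List CV → List CV → Bool) : Bool :=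
  fN (Q.mask μ l) fun M => Q.orb s m e fun B =>
    (Q.fL (pick n m 1 B) fun B => lall l fun v => l₁.any fun c => Q.eqV n (Q.comb c B) v) &&
    allV E n fun u => bimp (Q.eq (Q.herm u u) (Q.herm e e)) <| Q.orb s m u fun O =>
      lall (List.range m) fun i => bimp (lall (List.range m) fun k =>
        Q.eq (Q.herm (O.getD (i * k % m) []) u) (Q.herm (B.getD k []) e)) <|
        bimp (ex (pick n m 1 B) (pick n m i O)) <| Q.combs M l₁ (pick n m i O)
/-- A matrix preserves the multiples of `l`. -/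
noncomputable def pres (μ : CV) (l : List CV) (x : List CV) : Bool :=
  fN (Q.mask μ l) fun M => lall l fun v => M.testBit (Q.enc (Q.mv x v))

theorem fV_eq (v : CV) (k : CV → Bool) : Q.fV v k = k (v.map Q.red) := by
  induction v generalizing k with
  | nil => rfl
  | cons x v ih =>
    change (fN _ fun a => fN _ fun b => Q.fV v fun w => k ((a, b) :: w)) = _
    rw [fN_eq, fN_eq, ih]
    rfl

theorem fL_eq (l : List CV) (k : List CV → Bool) : Q.fL l k = k (l.map (List.map Q.red)) := by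
  induction l generalizing k with
  | nil => rfl
  | cons x v ih => exact (Q.fV_eq _ _).trans (ih _)

theorem orb_eq (s : List CV) (k : ℕ) (u : CV) (f : List CV → Bool) :
    Q.orb s k u f = f (Q.orbL s k u) := by
  induction k generalizing u f with
  | zero => rfl
  | succ k ih => exact (Q.fV_eq _ _).trans (ih _ _)

theorem red_eq (x : CC) : Q.red x = (x.1 % Q.p, x.2 % Q.p) := rfl

theorem enc_cons (x : CC) (v : CV) :
    Q.enc (x :: v) = x.1 % Q.p + Q.p * (x.2 % Q.p + Q.p * Q.enc v) := rfl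

end QP

variable {L : Type*} [Field L] {n : ℕ}

/-- The element with a given code. -/
def dc (ω : L) (x : CC) : L := x.1 + x.2 * ω
/-- The vector with a given code. -/
def dv (ω : L) (n : ℕ) (v : CV) : Fin n → L := fun i => dc ω (v.getD i (0, 0))
/-- The matrix with a given code. -/
def dm (ω : L) (n : ℕ) (M : List CV) : Matrix (Fin n) (Fin n) L :=
  of fun i => dv ω n (M.getD i [])

/-- The field is described by the parameters. -/
structure QF (Q : QP) (τ : L →+* L) (ω : L) : Prop where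
  pos : 0 < Q.p
  char : (Q.p : L) = 0
  sq : ω * ω = Q.a + Q.b * ω
  bar : τ ω = Q.b - ω
  inj : ∀ x < Q.p, ∀ y < Q.p, ∀ z < Q.p, ∀ w < Q.p, dc ω (x, y) = dc ω (z, w) → x = z ∧ y = w

variable {Q : QP} {τ : L →+* L} {ω : L}

theorem dc_zero : dc ω (0, 0) = 0 := by simp [dc]

theorem dc_add (x y : CC) : dc ω (cadd x y) = dc ω x + dc ω y := by
  simp only [dc, cadd, Nat.add_eq]; push_cast; ring

theorem dv_nil : dv ω n [] = 0 := funext fun _ => dc_zero

theorem dv_cons (x : CC) (v : CV) : dv ω (n + 1) (x :: v) = vecCons (dc ω x) (dv ω n v) := by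
  ext i
  cases i using Fin.cases <;> rfl

theorem dv_vadd (u v : CV) : dv ω n (vadd u v) = dv ω n u + dv ω n v := by
  induction n generalizing u v with
  | zero => exact Subsingleton.elim _ _
  | succ n ih =>
    rcases u with _ | ⟨x, u⟩
    · rw [dv_nil, zero_add]; rfl
    rcases v with _ | ⟨y, v⟩
    · rw [dv_nil, add_zero]; rfl
    rw [dv_cons, dv_cons, cons_add_cons, ← ih, ← dc_add, ← dv_cons]
    rfl

theorem dv_map {f : CC → CC} {g : L → L} (h : ∀ x, dc ω (f x) = g (dc ω x)) (h0 : g 0 = 0) (v : CV) :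
    dv ω n (v.map f) = g ∘ dv ω n v := by
  ext i
  by_cases hi : i < v.length <;> simp [dv, hi, h, h0, dc_zero]

theorem allV_spec {E : CV} {f : CV → Bool} (h : allV E n f = true) {w : Fin n → L}
    (hw : ∀ i, ∃ x ∈ E, dc ω x = w i) : ∃ v, v.length = n ∧ dv ω n v = w ∧ f v = true := by
  induction n generalizing f with
  | zero => exact ⟨[], rfl, Subsingleton.elim _ _, h⟩
  | succ n ih =>
    obtain ⟨x, h1, h2⟩ := hw 0
    obtain ⟨v, h3, h4, h5⟩ := ih (List.all_eq_true.1 ((lall_eq _ _).symm.trans h) x h1) fun i => hw i.succ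
    exact ⟨x :: v, by simp [h3], by rw [dv_cons, h2, h4]; exact cons_head_tail w, h5⟩

/-- Norm one multiples of the vectors of a list. -/
def SS (τ : L →+* L) (ω : L) (n : ℕ) (l : List CV) (w : Fin n → L) : Prop :=
  ∃ e ∈ l, ∃ c, c * τ c = 1 ∧ w = c • dv ω n e

theorem SS.smul {l : List CV} {w : Fin n → L} (h : SS τ ω n l w) {c : L} (hc : c * τ c = 1) :
    SS τ ω n l (c • w) := by
  obtain ⟨e, h1, d, h2, rfl⟩ := h
  exact ⟨e, h1, c * d, by rw [map_mul, mul_mul_mul_comm, hc, h2, one_mul], smul_smul _ _ _⟩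

theorem mem_setG_SS [Finite L] {l : List CV} {g : GL (Fin n) L}
    (h : ∀ e ∈ l, SS τ ω n l (g.1 *ᵥ dv ω n e)) : g ∈ setG (SS τ ω n l) := by
  rintro _ ⟨e, h1, c, h2, rfl⟩
  rw [mulVec_smul]
  exact (h e h1).smul h2

namespace QF
variable (h : QF Q τ ω)
include h

theorem cast_mod (x : ℕ) : ((x % Q.p : ℕ) : L) = x := by
  conv_rhs => rw [← Nat.mod_add_div x Q.p]
  simp [h.char]

theorem cast_pred : ((Q.p - 1 : ℕ) : L) = -1 := by
  rw [Nat.cast_pred h.pos, h.char, zero_sub]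

theorem dc_mul (x y : CC) : dc ω (Q.mul x y) = dc ω x * dc ω y := by
  simp only [dc, QP.mul, Nat.add_eq, Nat.mul_eq]; push_cast; linear_combination -(x.2 * y.2 : L) * h.sq

theorem dc_bar (x : CC) : dc ω (Q.bar x) = τ (dc ω x) := by
  simp only [dc, QP.bar, map_add, map_mul, map_natCast, h.bar, Nat.cast_add, Nat.cast_mul,
    h.cast_pred, Nat.add_eq, Nat.mul_eq, Nat.pred_eq_sub_one]
  ring

theorem dc_red (x : CC) : dc ω (Q.red x) = dc ω x := by
  simp only [dc, QP.red_eq, h.cast_mod]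

theorem eq_iff {x y : CC} : Q.eq x y = true ↔ dc ω x = dc ω y := by
  simp only [QP.eq, Bool.and_eq_true, Nat.beq_eq]
  refine ⟨fun e => ?_, fun e => h.inj _ (Nat.mod_lt _ h.pos) _ (Nat.mod_lt _ h.pos) _
    (Nat.mod_lt _ h.pos) _ (Nat.mod_lt _ h.pos) ((h.dc_red x).trans (e.trans (h.dc_red y).symm))⟩
  rw [← h.dc_red x, ← h.dc_red y, QP.red, e.1, e.2, QP.red]

theorem eqV_iff {u v : CV} : Q.eqV n u v = true ↔ dv ω n u = dv ω n v := by
  simp only [QP.eqV, lall_eq, List.all_eq_true, List.mem_range, h.eq_iff, funext_iff, Fin.forall_iff, dv]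

theorem dc_dot (u : CV) {v : CV} (hv : v.length ≤ n) : dc ω (Q.dot u v) = dv ω n u ⬝ᵥ dv ω n v := by
  induction n generalizing u v with
  | zero =>
    obtain rfl := List.eq_nil_of_length_eq_zero (Nat.le_zero.1 hv)
    cases u <;> simp [QP.dot, dc_zero]
  | succ n ih =>
    rcases u with _ | ⟨x, u⟩
    · rw [dv_nil, zero_dotProduct]; exact dc_zero
    rcases v with _ | ⟨y, v⟩
    · rw [dv_nil, dotProduct_zero]; exact dc_zero
    rw [dv_cons, dv_cons, cons_dotProduct_cons, ← ih _ (by simpa using hv), ← h.dc_mul, ← dc_add]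
    rfl

theorem dc_herm (u : CV) {v : CV} (hv : v.length ≤ n) :
    dc ω (Q.herm u v) = bf τ (1 : GL (Fin n) L).1 (dv ω n u) (dv ω n v) := by
  rw [QP.herm, lmap_eq, h.dc_dot u (by simpa using hv), dv_map h.dc_bar τ.map_zero, bf, Units.val_one,
    one_mulVec]

theorem dv_mv (M : List CV) {v : CV} (hv : v.length ≤ n) :
    dv ω n (Q.mv M v) = dm ω n M *ᵥ dv ω n v := by
  ext i
  change _ = dv ω n (M.getD i []) ⬝ᵥ _
  rw [← h.dc_dot _ hv]
  by_cases hi : i < M.length <;> simp [dv, QP.mv, lmap_eq, hi, QP.dot]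

theorem dv_smul (c : CC) (v : CV) : dv ω n (v.map (Q.mul c)) = dc ω c • dv ω n v :=
  dv_map (g := (dc ω c * ·)) (h.dc_mul c) (mul_zero _) v

theorem dv_red (v : CV) : dv ω n (v.map Q.red) = dv ω n v := dv_map (g := id) h.dc_red rfl v

theorem dv_enc (v : CV) (i : ℕ) : dc ω (v.getD i (0, 0)) =
    dc ω (Q.red (Q.enc v / (Q.p * Q.p) ^ i, Q.enc v / (Q.p * Q.p) ^ i / Q.p)) := by
  have := h.pos
  induction v generalizing i with
  | nil => simp [QP.enc, QP.red_eq]
  | cons x v ih =>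
    have h1 : Q.enc (x :: v) / Q.p = x.2 % Q.p + Q.p * Q.enc v := by
      rw [QP.enc_cons, Nat.add_mul_div_left _ _ this, Nat.div_eq_of_lt (Nat.mod_lt _ this), zero_add]
    cases i with
    | zero =>
      rw [pow_zero, Nat.div_one, h1, List.getD_cons_zero, ← h.dc_red x]
      simp [QP.red_eq, QP.enc_cons]
    | succ i =>
      rw [List.getD_cons_succ, ih, pow_succ', ← Nat.div_div_eq_div_mul, ← Nat.div_div_eq_div_mul, h1,
        Nat.add_mul_div_left _ _ this, Nat.div_eq_of_lt (Nat.mod_lt _ this), zero_add]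

theorem dv_of_enc {u v : CV} (e : Q.enc u = Q.enc v) : dv ω n u = dv ω n v :=
  funext fun i => by rw [dv, dv, h.dv_enc, h.dv_enc, e]

theorem comb {g : Matrix (Fin n) (Fin n) L} (c : CV) {B U : List CV}
    (hg : List.Forall₂ (fun b u => g *ᵥ dv ω n b = dv ω n u) B U) :
    g *ᵥ dv ω n (Q.comb c B) = dv ω n (Q.comb c U) := by
  induction hg generalizing c with
  | nil => cases c <;> simp [QP.comb, dv_nil]
  | cons h1 _ ih =>
    cases c
    · simp [QP.comb, dv_nil]
    · change g *ᵥ dv ω n (vadd (lmap _ _) (Q.comb _ _)) = dv ω n (vadd (lmap _ _) (Q.comb _ _))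
      simp only [lmap_eq, dv_vadd, h.dv_smul, mulVec_add, mulVec_smul, h1, ih]

theorem orbL {s : List CV} (hs : s.length ≤ n) {k j : ℕ} (hj : j < k) {u : CV} (hu : u.length ≤ n) :
    dv ω n ((Q.orbL s k u).getD j []) = dm ω n s ^ j *ᵥ dv ω n u := by
  induction j generalizing k u with
  | zero => obtain ⟨k, rfl⟩ := Nat.exists_eq_add_one_of_ne_zero hj.ne'; simp [QP.orbL]
  | succ j ih =>
    obtain ⟨k, rfl⟩ := Nat.exists_eq_add_one_of_ne_zero (Nat.ne_zero_of_lt hj)
    rw [QP.orbL, List.getD_cons_succ, ih (by omega) (by simpa [QP.mv, lmap_eq] using hs), h.dv_red,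
      h.dv_mv _ hu, mulVec_mulVec, pow_succ]

theorem ss_of_mask {μ : CV} (hμ : ∀ c ∈ μ, dc ω c * τ (dc ω c) = 1) {l : List CV} {v : CV}
    (hv : (Q.mask μ l).testBit (Q.enc v) = true) : SS τ ω n l (dv ω n v) := by
  have key : ∀ (e : CV) (ν : CV) (m : ℕ), (ν.foldr (fun c m => m ||| 2 ^ Q.enc (e.map (Q.mul c)))
      m).testBit (Q.enc v) = true → m.testBit (Q.enc v) = true ∨
        ∃ c ∈ ν, Q.enc (e.map (Q.mul c)) = Q.enc v := fun e ν m hν => by
    induction ν with
    | nil => exact .inl hν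
    | cons c ν ih =>
      rw [List.foldr_cons, Nat.testBit_or, Bool.or_eq_true, Nat.testBit_two_pow,
        decide_eq_true_eq] at hν
      exact hν.elim (fun a => (ih a).imp_right fun ⟨d, h1, h2⟩ => ⟨d, .tail _ h1, h2⟩)
        fun a => .inr ⟨c, .head _, a⟩
  induction l with
  | nil => simp [QP.mask] at hv
  | cons e l ih =>
    rcases key e μ _ hv with h1 | ⟨c, h1, h2⟩
    · obtain ⟨e', h2, h3⟩ := ih h1
      exact ⟨e', .tail _ h2, h3⟩
    · exact ⟨e, .head _, _, hμ c h1, by rw [← h.dv_smul, h.dv_of_enc h2]⟩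

theorem not_ss {μ : CV} (hμ : ∀ c, c * τ c = 1 → ∃ x ∈ μ, dc ω x = c) {l : List CV} {v : CV}
    (hv : (l.all fun e => μ.all fun c => !Q.eqV n v (e.map (Q.mul c))) = true) :
    ¬ SS τ ω n l (dv ω n v) := by
  rintro ⟨e, h1, c, h2, h3⟩
  obtain ⟨x, h4, rfl⟩ := hμ c h2
  simp only [List.all_eq_true, Bool.not_eq_eq_eq_not, Bool.not_true, ← Bool.not_eq_true,
    h.eqV_iff, h.dv_smul] at hv
  exact hv e h1 x h4 h3

theorem dc_det3 {u v w : CV} : dc ω (Q.det3 u v w) = (dm ω 3 [u, v, w]).det := by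
  rw [QP.det3, h.dc_dot (n := 3) _ (by simp), det_fin_three]
  simp [dm, dv, dotProduct, Fin.sum_univ_three, dc_add, h.dc_mul, show dc ω (Q.p - 1, 0) = -1 by
    simp [dc, h.cast_pred]]
  ring

theorem exDet {g : Matrix (Fin 3) (Fin 3) L} (hg : g.det = 1) {B U : List CV}
    (e : List.Forall₂ (fun b u => g *ᵥ dv ω 3 b = dv ω 3 u) B U) : Q.exDet B U = true := by
  unfold QP.exDet
  split
  · simp only [List.forall₂_cons] at e
    rw [h.eq_iff, h.dc_det3, h.dc_det3, eq_comm, ← mul_one (det (dm ω 3 [_, _, _])), ← hg,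
      ← det_transpose g, ← det_mul, eq_comm]
    congr 1
    ext i j
    rw [mul_apply, ← dotProduct, dotProduct_comm]
    fin_cases i
    exacts [congrFun e.1.symm j, congrFun e.2.1.symm j, congrFun e.2.2.1.symm j]
  · rfl

theorem pres [Finite L] {μ : CV} (hμ : ∀ c ∈ μ, dc ω c * τ (dc ω c) = 1) {l x : List CV}
    (hl : ∀ v ∈ l, v.length ≤ n) (hx : Q.pres μ l x = true) {g : GL (Fin n) L}
    (hg : g.1 = dm ω n x) : g ∈ setG (SS τ ω n l) := mem_setG_SS fun v hv => by
  rw [QP.pres, fN_eq, lall_eq] at hx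
  rw [hg, ← h.dv_mv _ (hl v hv)]
  exact h.ss_of_mask hμ (List.all_eq_true.1 hx v hv)

theorem combs {μ : CV} (hμ : ∀ c ∈ μ, dc ω c * τ (dc ω c) = 1) {l l₁ B U : List CV}
    (hc : Q.combs (Q.mask μ l) l₁ U = true) {g : Matrix (Fin n) (Fin n) L}
    (hg : List.Forall₂ (fun b u => g *ᵥ dv ω n b = dv ω n u) B U) {c : CV} (h1 : c ∈ l₁) :
    SS τ ω n l (g *ᵥ dv ω n (Q.comb c B)) := by
  rw [QP.combs, QP.fL_eq, lall_eq] at hc
  rw [h.comb c (U := U.map (List.map Q.red))
    (by simpa only [List.forall₂_map_right_iff, h.dv_red] using hg)]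
  exact h.ss_of_mask hμ (List.all_eq_true.1 hc c h1)

theorem singer [Finite L] {m : ℕ} {E μ : CV} (hE : ∀ c, ∃ x ∈ E, dc ω x = c)
    (hμ : ∀ c ∈ μ, dc ω c * τ (dc ω c) = 1) {s : List CV} (hs : s.length ≤ n) {e : CV}
    (he : e.length ≤ n) (hm : dm ω n s ^ m = 1) {l l₁ : List CV} {ex : List CV → List CV → Bool}
    (hc : Q.singer n m E μ s e l l₁ ex = true) {g : GL (Fin n) L}
    (hg : g ∈ Iso τ (1 : GL (Fin n) L).1) {i : ℕ} (hi : i < m)
    (hgs : g.1 * dm ω n s = dm ω n s ^ i * g.1)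
    (hex : ∀ B U, List.Forall₂ (fun b u => g.1 *ᵥ dv ω n b = dv ω n u) B U → ex B U = true) :
    g ∈ setG (SS τ ω n l) := mem_setG_SS fun v hv => by
  simp only [QP.singer, fN_eq, QP.orb_eq, QP.fL_eq, lall_eq, Bool.and_eq_true] at hc
  obtain ⟨c, h1, h2⟩ := List.any_eq_true.1 (List.all_eq_true.1 hc.1 v hv)
  obtain ⟨u, h3, h4, h5⟩ := allV_spec (ω := ω) hc.2 (w := g.1 *ᵥ dv ω n e) fun _ => hE _
  have h6 : ∀ k, g.1 *ᵥ (dm ω n s ^ k *ᵥ dv ω n e) =
      dv ω n ((Q.orbL s m u).getD (i * k % m) []) := fun k => by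
    rw [h.orbL hs (Nat.mod_lt _ (by omega)) h3.le, ← pow_eq_pow_mod _ hm, h4, mulVec_mulVec,
      mulVec_mulVec, pow_mul, (SemiconjBy.pow_right hgs k).eq]
  have h7 : List.Forall₂ (fun b u => g.1 *ᵥ dv ω n b = dv ω n u)
      (QP.pick n m 1 (Q.orbL s m e)) (QP.pick n m i (Q.orbL s m u)) := by
    simp only [QP.pick, List.forall₂_map_left_iff, List.forall₂_map_right_iff, List.forall₂_same]
    intro k _
    rw [h.orbL hs (Nat.mod_lt _ (by omega)) he, ← pow_eq_pow_mod _ hm, one_mul, h6]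
  rw [← h.eqV_iff.1 h2]
  refine h.combs hμ (bimp_true (bimp_true (List.all_eq_true.1 (bimp_true h5 (h.eq_iff.2 ?_)) i
    (List.mem_range.2 hi)) (List.all_eq_true.2 fun k hk => h.eq_iff.2 ?_)) (hex _ _ h7)) ?_ h1
  · rw [h.dc_herm _ h3.le, h.dc_herm _ he, h4, mem_Iso'.1 hg]
  · rw [h.dc_herm _ h3.le, h.dc_herm _ he, h4, ← h6, mem_Iso'.1 hg,
      h.orbL hs (List.mem_range.1 hk) he]
  · simpa only [List.forall₂_map_left_iff, h.dv_red] using h7

end QF

variable {F : Type*} [Field F] {q : ℕ}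

theorem card_UU_dvd [Fintype L] (hL : Fintype.card L = q ^ 2) (hτ : Herm.Inv τ) (hn : 0 < n) :
    (q + 1) * Nat.card (UU τ (Fin n)) = q ^ (n * (n - 1) / 2) *
      ∏ i ∈ Finset.range n, (if Even i then q ^ (i + 1) + 1 else q ^ (i + 1) - 1) := by
  have : Nonempty (Fin n) := ⟨⟨0, hn⟩⟩
  rw [← UU_eq hL hτ, card_SU' (natCard_of_card hL), (hf_sB _ n).card_SUG (natCard_of_card hL),
    (hf_sB _ n).card_UG (natCard_of_card hL) (n := n) (by simp)]

theorem max_conj {H : Subgroup (GL (Fin n) L)} (h : IsMaximalIn (UU τ (Fin n)) H)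
    {u : GL (Fin n) L} (hu : u ∈ Iso τ (1 : GL (Fin n) L).1) :
    ∃ H', IsMaximalIn (UU τ (Fin n)) H' ∧ ∀ g, g ∈ H' ↔ u * g * u⁻¹ ∈ H :=
  ⟨_, max_comap _ h (frG_mem_UU (pull_one_of_mem (Equiv.refl _) hu)), fun g => by
    rw [← frG_refl]; rfl⟩

theorem singer_reduce [Fintype F] [Fintype L] (hF : Fintype.card F = q ^ 2)
    (hL : Fintype.card L = q ^ 2) (hτ : Herm.Inv τ) (hn : 3 ≤ n) {r : ℕ}
    {K : Subalgebra F (Matrix (Fin n) (Fin n) F)} (hK : IsFieldSubalgebra r K)
    (ha : AdjSt (frob (natCard_of_card hF)) 1 K)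
    (hH : IsMaximalIn (GU n F q ⊓ specialLinear (Fin n) F)
      (subalgebraNormalizer K ⊓ (GU n F q ⊓ specialLinear (Fin n) F))) {p : ℕ} (hp : p.Prime)
    (hd : p ∣ q ^ r + 1) (hdet : ∀ d : L, d ^ p = 1 → d = 1)
    (hc : ¬ p ^ 2 ∣ q ^ (n * (n - 1) / 2) *
      ∏ i ∈ Finset.range n, (if Even i then q ^ (i + 1) + 1 else q ^ (i + 1) - 1))
    {s : GL (Fin n) L} (hs : s ∈ Iso τ (1 : GL (Fin n) L).1) (h1 : s.1 ^ p = 1) (h2 : s.1 ≠ 1) :
    ∃ H, IsMaximalIn (UU τ (Fin n)) H ∧ ∀ g ∈ H, (∃ i < p, g.1 * s.1 = s.1 ^ i * g.1) ∧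
      (g * s * g⁻¹ * s).1 = (s * (g * s * g⁻¹)).1 := by
  classical
  obtain ⟨H, h3, t, h4, h5, h6, -⟩ := field_reduce hF hL hτ hn hK ha hH hd
  have := Fact.mk hp
  have h7 : orderOf s = p := orderOf_eq_prime (Units.ext h1) fun e => h2 (congrArg Units.val e)
  have key : ∀ x ∈ Iso τ (1 : GL (Fin n) L).1, orderOf x = p → x ∈ UU τ (Fin n) := fun x hx e =>
    ⟨hx, mem_SL.2 (hdet _ (by
      rw [← det_pow, ← Units.val_pow_eq_pow_val, ← e, pow_orderOf_eq_one]; simp))⟩
  obtain ⟨u, h8, h9⟩ := sylow_conj hp (fun e => hc (card_UU_dvd hL hτ (n := n) (by omega) ▸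
    e.mul_left _)) (key t h4 h5) (key s hs h7) h5 h7
  obtain ⟨H', h10, h11⟩ := max_conj h3 h8.1
  refine ⟨H', h10, fun g hg => ?_⟩
  obtain ⟨i, hi⟩ := h6 _ ((h11 g).1 hg)
  obtain ⟨a, ha⟩ := h9.le (Subgroup.mem_zpowers _)
  obtain ⟨b, hb⟩ := h9.ge (Subgroup.zpow_mem_zpowers t (i * a))
  have h12 : g * s * g⁻¹ ∈ Subgroup.zpowers s := ⟨b, (MulAut.conj u).injective (by
    simp only [MulAut.conj_apply] at ha hb ⊢
    rw [← conj_zpow, hb, _root_.zpow_mul, _root_.zpow_natCast, ← hi, conj_zpow, ha]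
    group)⟩
  obtain ⟨j, h13, h14⟩ := Finset.mem_image.1 (mem_zpowers_iff_mem_range_orderOf.1 h12)
  refine ⟨⟨j, h7 ▸ Finset.mem_range.1 h13, congrArg Units.val (eq_mul_of_mul_inv_eq h14.symm)⟩, ?_⟩
  rw [← h14, pow_mul_comm']

end Cfsg.Agent.Asch
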