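import Mathlib
import Cfsg.Agent.Asch.UComp

/-! Reductions and kernel checks for small unitary groups of dimension three. -/

set_option autoImplicit false

namespace Cfsg.Agent.Asch

open Matrix Cfsg.Geo Cfsg.Agent.Herm
open scoped MatrixGroups Pointwise

variable {F L : Type*} [Field F] [Field L] {q n : ℕ} {τ : L →+* L}

theorem orth_reduce [Fintype F] [Fintype L] (hF : Fintype.card F = q ^ 2)
    (hL : Fintype.card L = q ^ 2) (hτ : Herm.Inv τ) (hq : Odd q) {P : GL (Fin 3) F}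
    (hP : (cg (frob (natCard_of_card hF)) P.1 (1 : GL (Fin 3) F).1).map (frob (natCard_of_card hF)) =
      cg (frob (natCard_of_card hF)) P.1 (1 : GL (Fin 3) F).1)
    (hH : IsMaximalIn (GU 3 F q ⊓ specialLinear (Fin 3) F)
      (subfieldSubgroup (fixF (frob (natCard_of_card hF))) P ⊓
        (GU 3 F q ⊓ specialLinear (Fin 3) F))) :
    ∃ H, IsMaximalIn (UU τ (Fin 3)) H ∧
      ∀ g ∈ H, ∃ a : L, a * τ a = 1 ∧ (a • g.1).map τ = a • g.1 := by
  have U := uf_one hF (n := 3) le_rfl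
  rw [UU_eq hF U.inv] at hH
  generalize frob (natCard_of_card hF) = σ at *
  let A : Matrix (Fin 3) (Fin 3) (fixF σ) := fun i j => ⟨_, congrFun (congrFun hP i) j⟩
  have h1 : A.map (fixF σ).subtype = (cgG σ P 1).1 := rfl
  have h2 : A.det ≠ 0 := fun e => (cgG σ P 1).det_ne_zero (by
    rw [← h1, ← RingHom.mapMatrix_apply, ← RingHom.map_det, e, map_zero])
  obtain ⟨B, c, hB⟩ := exists_pull_eq_sc (fun e => U.odd_iff.1 hq (congrArg Subtype.val e))
    (Equiv.refl _) (J := GeneralLinearGroup.mkOfDetNeZero A h2) ⟨fun _ => rfl, by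
      ext i j
      have := congrFun (congrFun (U.gram.cgG P).herm i) j
      rw [cgG_coe, hP] at this
      exact this.trans (one_mul _) |>.trans (one_mul _).symm⟩ (by decide)
  have hc : σ c.1.1 = c.1.1 := c.1.2
  obtain ⟨a, ha⟩ := exists_norm_unit U.inv (c := (Units.map (fixF σ).subtype.toMonoidHom c)⁻¹)
    (by simpa using hc)
  have h3 : ∀ k : GL (Fin 3) (fixF σ), (k.1.map (fixF σ).subtype).map σ = k.1.map (fixF σ).subtype :=
    fun k => by ext i j; exact (k.1 i j).2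
  have hp : pull σ (Equiv.refl _) (P * GeneralLinearGroup.map (fixF σ).subtype B * sc _ a) 1 = 1 := by
    refine Units.ext ?_
    have := congrArg (·.1.map (fixF σ).subtype) hB
    simp only [pull_refl, cgG_coe, cg, Matrix.map_mul, transpose_map, RingHom.coe_id, map_id,
      GeneralLinearGroup.val_mkOfDetNeZero, h1] at this
    rw [pull_mul_sc, pull_refl, cgG_coe, Units.val_mul, cg_mul, map_coe, cg, h3, cg, this, ha]
    ext i j
    by_cases e : i = j <;> simp [sc_coe, e]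
  obtain ⟨φ, hφ⟩ := exists_glE hF hL U.inv hτ
  have h4 := max_comap _ hH (frG_mem_UU hp)
  refine ⟨_, max_comap (glE φ) h4 (glE_mem_UU φ hφ), fun g hg => ?_⟩
  obtain ⟨k, b, e⟩ := mem_subfieldSubgroup.1 hg.1
  have h5 : glE φ g = GeneralLinearGroup.map (fixF σ).subtype (B⁻¹ * k * B) * sc _ b := by
    change frG _ _ (glE φ g) = _ at e
    rw [frG_mul_sc, frG_refl] at e
    rw [map_mul, map_mul, map_inv, mul_assoc, ← sc_comm, ← mul_assoc, mul_assoc _ _ (sc _ b),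
      ← mul_inv_eq_iff_eq_mul, eq_inv_mul_iff_mul_eq, ← mul_left_inj P⁻¹,
      ← mul_right_inj P, ← mul_assoc P (_ * sc _ b), ← e]
    group
  generalize B⁻¹ * k * B = k at h5
  have h6 := (mem_UU.1 (h4.1.le hg)).2
  change (glE φ g).1.det = 1 at h6
  rw [h5, Units.val_mul, sc_coe, det_mul, det_smul, det_one, map_coe, ← RingHom.mapMatrix_apply,
    ← RingHom.map_det, Fintype.card_fin] at h6
  have h7 : σ k.1.det.1 = k.1.det.1 := k.1.det.2
  have h8 := congrArg σ h6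
  simp only [map_mul, map_pow, map_one, Subfield.coe_subtype, h7, mul_one] at h6 h8
  obtain ⟨d, hd⟩ := φ.surjective (σ b * (b * σ b * k.1.det.1))
  refine ⟨d, φ.injective (by
    rw [map_mul, ← hφ, hd, map_one, map_mul, map_mul, map_mul, U.inv.invol, h7]
    linear_combination (σ b ^ 3 * k.1.det.1) * h6 + h8), ?_⟩
  ext i j
  refine φ.injective ?_
  have h9 : φ (g.1 i j) = (k.1 i j).1 * b := by
    simpa [sc_coe, glE_coe, map_coe, mul_comm] using congrArg (·.1 i j) h5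
  have h10 : σ (k.1 i j).1 = (k.1 i j).1 := (k.1 i j).2
  simp only [map_apply, Matrix.smul_apply, smul_eq_mul, ← hφ, map_mul, hd, h9, h7, h10, U.inv.invol]
  ring

theorem sylow_conj' {G : Type*} [Group G] {I A B : Subgroup G} [Finite I] {p k : ℕ} (hp : p.Prime)
    (h : ¬ p ^ (k + 1) ∣ Nat.card I) (hA : A ≤ I) (hB : B ≤ I) (h1 : Nat.card A = p ^ k)
    (h2 : Nat.card B = p ^ k) : ∃ g ∈ I, ∀ x, x ∈ B ↔ g * x * g⁻¹ ∈ A := by
  have := Fact.mk hp
  have h3 : ∀ A ≤ I, Nat.card A = p ^ k → Nat.card (A.subgroupOf I) =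
      p ^ (Nat.card I).factorization p := fun A hA e => by
    have h4 := e ▸ Subgroup.card_dvd_of_le hA
    rw [hp.pow_dvd_iff_le_factorization Nat.card_pos.ne'] at h h4
    rw [show (Nat.card I).factorization p = k by omega, ← e]
    exact Nat.card_congr (Subgroup.subgroupOfEquivOfLe hA).toEquiv
  obtain ⟨g, hg⟩ := MulAction.exists_smul_eq I (Sylow.ofCard _ (h3 A hA h1))
    (Sylow.ofCard _ (h3 B hB h2))
  have h5 : ∀ x : I, x.1 ∈ B ↔ (g⁻¹ * x * g).1 ∈ A := fun x => by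
    have := SetLike.ext_iff.1 (congrArg Sylow.toSubgroup hg) x
    rw [Sylow.coe_subgroup_smul, Subgroup.mem_pointwise_smul_iff_inv_smul_mem] at this
    simpa [Subgroup.mem_subgroupOf] using this.symm
  refine ⟨g⁻¹, inv_mem g.2, fun x => ⟨fun hx => by simpa using (h5 ⟨x, hB hx⟩).1 hx, fun hx => ?_⟩⟩
  have h6 : x ∈ I := by simpa [mul_assoc] using mul_mem (mul_mem g.2 (hA hx)) (inv_mem g.2)
  exact (h5 ⟨x, h6⟩).2 (by simpa using hx)

theorem ES.det_three {R : Subgroup (GL (Fin 3) F)} (h : ES 3 R) {x : GL (Fin 3) F} (hx : x ∈ R) :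
    x.1.det = 1 := by
  have h1 : x.1 ^ 3 = 1 := congrArg Units.val (h.pow x hx)
  by_cases hZ : x ∈ scalars (Fin 3) F
  · obtain ⟨c, rfl⟩ := mem_scalars_iff'.1 hZ
    simpa [sc_coe, _root_.smul_pow] using congrFun (congrFun h1 0) 0
  have h2 := trace_eq_zero h.span h.cz hx hZ
  have h3 := congrArg trace h1
  refine mul_left_cancel₀ (h.cast_ne_zero (by simp)) ?_
  simp only [pow_three, trace_fin_three, mul_apply, Fin.sum_univ_three, one_apply_eq] at h2 h3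
  rw [det_fin_three]
  push_cast
  grind

theorem es_reduce [Fintype F] [Fintype L] (hF : Fintype.card F = 5 ^ 2)
    (hL : Fintype.card L = 5 ^ 2) (hτ : Herm.Inv τ) {ω : L} (hω : ω ^ 2 + ω + 1 = 0)
    {R : Subgroup (GL (Fin 3) F)} (h : ES 3 R)
    (hI : R ≤ Iso (frob (natCard_of_card hF)) (1 : GL (Fin 3) F).1) (hc : Nat.card R = 3 ^ 3)
    (hH : IsMaximalIn (GU 3 F 5 ⊓ specialLinear (Fin 3) F)
      (subgroupNormalizer R ⊓ (GU 3 F 5 ⊓ specialLinear (Fin 3) F))) :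
    ∃ H, IsMaximalIn (UU τ (Fin 3)) H ∧ ∀ g ∈ H, ∀ x ∈ R27 L, g * x * g⁻¹ ∈ R27 L := by
  have hσ := inv_frob (natCard_of_card hF)
  rw [UU_eq hF hσ] at hH
  obtain ⟨φ, hφ⟩ := exists_glE hF hL hσ hτ
  have h1 := es_R27 hω fun e => by
    have := FiniteField.cast_card_eq_zero L
    rw [hL] at this
    push_cast at this
    exact one_ne_zero (by linear_combination this - 8 * e : (1 : L) = 0)
  obtain ⟨m, -, h2, h3⟩ := h1.exists_pow (by simp)
  obtain rfl : m = 1 := Nat.pow_right_injective (show 2 ≤ 3 by norm_num) (by simpa using h2.symm)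
  rw [h1.card_center_of_full full_R27, hL] at h3
  have h4 := card_UU_dvd hL hτ (n := 3) (by norm_num)
  obtain ⟨u, h5, h6⟩ := sylow_conj' (I := UU τ (Fin 3)) (A := R.comap (glE φ).toMonoidHom)
    (B := R27 L) (k := 3) Nat.prime_three (by
      rw [show Nat.card (UU τ (Fin 3)) = 378000 by
        rw [show 5 ^ _ * ∏ i ∈ _, _ = 2268000 by decide +kernel] at h4; omega]; norm_num)
    (fun x hx => (glE_mem_UU φ hφ x).1 ⟨hI hx, mem_SL.2 (h.det_three hx)⟩)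
    (fun x hx => ⟨R27_le_Iso (fun c hc => by
      rw [hτ.apply_pow (natCard_of_card hL), ← pow_succ', show 5 + 1 = 3 * 2 from rfl, pow_mul, hc,
        one_pow]) hx, mem_SL.2 (R27_det hx)⟩)
    ((Nat.card_congr ((glE φ).toEquiv.subtypeEquiv fun _ => Iff.rfl)).trans hc) h3
  obtain ⟨H, h7, h8⟩ := max_conj (max_comap (glE φ) hH (glE_mem_UU φ hφ)) h5.1
  refine ⟨H, h7, fun g hg x hx => (h6 _).2 ?_⟩
  have := (((h8 g).1 hg).1 _).1 ((h6 x).1 hx)
  simpa [mul_assoc] using this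

namespace QP
variable (Q : QP)

/-- Unitary matrices of determinant one with entries in `E` preserve the multiples of `l`. -/
noncomputable def cols (E μ : CV) (l : List CV) : Bool :=
  fN (Q.mask μ l) fun M => allV E 3 fun u => bimp (Q.eq (Q.herm u u) (1, 0)) <|
    allV E 3 fun v => bimp (Q.eq (Q.herm v u) (0, 0)) <| bimp (Q.eq (Q.herm v v) (1, 0)) <|
    allV E 3 fun w => bimp (Q.eq (Q.herm w u) (0, 0)) <| bimp (Q.eq (Q.herm w v) (0, 0)) <|
    bimp (Q.eq (Q.herm w w) (1, 0)) <| bimp (Q.eq (Q.det3 u v w) (1, 0)) <| Q.combs M l [u, v, w]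

/-- The normaliser of `3^(1+2)` preserves the multiples of `l`. -/
noncomputable def es (E μ : CV) (l : List CV) (R : List (List CV)) : Bool :=
  fN (Q.mask μ l) fun M => allV E 3 fun u => bimp (Q.eq (Q.herm u u) (1, 0)) <|
    lall R fun X => bimp (Q.eqV 3 (Q.mv X u) u) <| lall R fun Y => Q.fV (Q.mv Y u) fun v =>
    bimp (Q.eq (Q.herm v u) (0, 0)) <| Q.fV (Q.mv Y v) fun w =>
    bimp (Q.eq (Q.det3 u v w) (1, 0)) <| Q.combs M l [u, v, w]

end QP

namespace QF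
variable {Q : QP} {ω : L} (h : QF Q τ ω)
include h

theorem of_cols [Finite L] {μ : CV} (hμ : ∀ c ∈ μ, dc ω c * τ (dc ω c) = 1) {l : List CV}
    (hl : ∀ v ∈ l, v.length = 3) {u v w : CV} (hc : Q.combs (Q.mask μ l) l [u, v, w] = true)
    {g : GL (Fin 3) L} (h0 : dv ω 3 u = g.1 *ᵥ Pi.single 0 1) (h1 : dv ω 3 v = g.1 *ᵥ Pi.single 1 1)
    (h2 : dv ω 3 w = g.1 *ᵥ Pi.single 2 1) : g ∈ setG (SS τ ω 3 l) := mem_setG_SS fun c hc' => by
  have := h.combs hμ hc (g := g.1) (B := [[(1, 0)], [(0, 0), (1, 0)], [(0, 0), (0, 0), (1, 0)]]) (by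
    simp only [List.forall₂_cons, h0, h1, h2, List.Forall₂.nil, and_true]
    refine ⟨?_, ?_, ?_⟩ <;> congr 1 <;> ext i <;> fin_cases i <;> simp [dv, dc]) hc'
  obtain ⟨a, b, c, rfl⟩ := List.length_eq_three.1 (hl c hc')
  convert this using 2
  change _ = dv ω 3 (vadd (lmap (Q.mul a) [(1, 0)]) (vadd (lmap (Q.mul b) [(0, 0), (1, 0)])
    (vadd (lmap (Q.mul c) [(0, 0), (0, 0), (1, 0)]) [])))
  simp only [dv_vadd, lmap_eq, h.dv_smul, dv_nil]
  ext i
  fin_cases i <;> simp [dv, dc]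

theorem eq_herm {g : GL (Fin 3) L} (hg : g ∈ UU τ (Fin 3)) {u v : CV} (hv : v.length ≤ 3)
    {i j : Fin 3} (h0 : dv ω 3 u = g.1 *ᵥ Pi.single i 1) (h1 : dv ω 3 v = g.1 *ᵥ Pi.single j 1) :
    Q.eq (Q.herm u v) (if i = j then 1 else 0, 0) = true := by
  rw [h.eq_iff, h.dc_herm _ hv, h0, h1, mem_Iso'.1 hg.1, bf_single]
  simp [dc, one_apply]

theorem eq_det {g : GL (Fin 3) L} (hg : g ∈ UU τ (Fin 3)) {u v w : CV}
    (h0 : dv ω 3 u = g.1 *ᵥ Pi.single 0 1) (h1 : dv ω 3 v = g.1 *ᵥ Pi.single 1 1)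
    (h2 : dv ω 3 w = g.1 *ᵥ Pi.single 2 1) : Q.eq (Q.det3 u v w) (1, 0) = true := by
  rw [h.eq_iff, h.dc_det3, show dm ω 3 [u, v, w] = g.1ᵀ by
    ext i j; fin_cases i <;> simp [dm, h0, h1, h2], det_transpose, (mem_UU.1 hg).2]
  simp [dc]

theorem cols [Finite L] {E μ : CV} (hμ : ∀ c ∈ μ, dc ω c * τ (dc ω c) = 1) {l : List CV}
    (hl : ∀ v ∈ l, v.length = 3) (hc : Q.cols E μ l = true) {g : GL (Fin 3) L}
    (hg : g ∈ UU τ (Fin 3)) (hE : ∀ i j, ∃ x ∈ E, dc ω x = g.1 i j) : g ∈ setG (SS τ ω 3 l) := by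
  have key : ∀ j i, ∃ x ∈ E, dc ω x = (g.1 *ᵥ Pi.single j 1) i := fun j i => by simpa using hE i j
  rw [QP.cols, fN_eq] at hc
  obtain ⟨u, h1, h2, h3⟩ := allV_spec hc (key 0)
  obtain ⟨v, h4, h5, h6⟩ := allV_spec (bimp_true h3 (h.eq_herm hg h1.le h2 h2)) (key 1)
  obtain ⟨w, h7, h8, h9⟩ := allV_spec (bimp_true (bimp_true h6 (h.eq_herm hg h1.le h5 h2))
    (h.eq_herm hg h4.le h5 h5)) (key 2)
  exact h.of_cols hμ hl (bimp_true (bimp_true (bimp_true (bimp_true h9 (h.eq_herm hg h1.le h8 h2))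
    (h.eq_herm hg h4.le h8 h5)) (h.eq_herm hg h7.le h8 h8)) (h.eq_det hg h2 h5 h8)) h2 h5 h8

theorem mono [Finite L] {μ : CV} (hμ : ∀ c ∈ μ, dc ω c * τ (dc ω c) = 1)
    (hμ' : ∀ c, c * τ c = 1 → ∃ x ∈ μ, dc ω x = c) {l : List CV}
    (hl : ∀ v ∈ l, v.length = 3) (hc : Q.cols ((0, 0) :: μ) μ l = true) {g : GL (Fin 3) L}
    (hg : g ∈ UU τ (Fin 3)) (hm : Mono g.1) : g ∈ setG (SS τ ω 3 l) :=
  h.cols hμ hl hc hg fun i j => by
    by_cases e : g.1 i j = 0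
    · exact ⟨_, .head _, dc_zero.trans e.symm⟩
    have := congrFun (congrFun (mem_UU.1 hg).1 j) j
    simp only [mul_apply, transpose_apply, map_apply] at this
    rw [Finset.sum_eq_single i (fun k _ hk => mul_eq_zero_of_left
      (by_contra fun e' => hk (hm j k i e' e)) _) (by simp), one_apply_eq] at this
    exact (hμ' _ this).imp fun x hx => ⟨.tail _ hx.1, hx.2⟩

theorem orth [Finite L] {E μ : CV} (hμ : ∀ c ∈ μ, dc ω c * τ (dc ω c) = 1)
    (hτ : ∀ a, τ (τ a) = a) (hE : ∀ c, τ c = c → ∃ x ∈ E, dc ω x = c) {l : List CV}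
    (hl : ∀ v ∈ l, v.length = 3) (hc : Q.cols E μ l = true) {g : GL (Fin 3) L}
    (hg : g ∈ UU τ (Fin 3)) {a : L} (ha : a * τ a = 1) (hr : (a • g.1).map τ = a • g.1) :
    g ∈ setG (SS τ ω 3 l) := by
  have h1 : τ (a ^ 3) = a ^ 3 := by
    simpa [(mem_UU.1 hg).2] using (τ.map_det (a • g.1)).trans (congrArg det hr)
  have h2 : a ^ 4 * τ (a ^ 4) = 1 := by rw [map_pow, ← mul_pow, ha, one_pow]
  let c : Lˣ := ⟨_, _, h2, (mul_comm _ _).trans h2⟩
  have h3 : sc (Fin 3) c ∈ UU τ (Fin 3) := ⟨sc_mem_Iso.2 h2, mem_SL.2 (by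
    rw [map_pow] at h1
    simp only [sc_coe, det_smul, Fintype.card_fin, det_one, c]
    grind)⟩
  have h4 := h.cols hμ hl hc (mul_mem h3 hg) fun i j => hE _ (by
    have : τ (a * g.1 i j) = a * g.1 i j := congrFun (congrFun hr i) j
    simp only [Units.val_mul, sc_coe, Matrix.smul_mul, Matrix.one_mul, Matrix.smul_apply,
      smul_eq_mul, c, pow_succ a 3, mul_assoc, map_mul τ (a ^ 3), this, h1])
  rw [← inv_mul_cancel_left (sc (Fin 3) c) g, ← map_inv]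
  refine mul_mem (fun v hv => ?_) h4
  rw [sc_coe, smul_mulVec, one_mulVec]
  exact hv.smul (show τ (a ^ 4) * _ = 1 by rw [show (c⁻¹).1 = τ (a ^ 4) from rfl, hτ, mul_comm, h2])

theorem es [Finite L] {E μ : CV} (hE : ∀ c, ∃ x ∈ E, dc ω x = c)
    (hμ : ∀ c ∈ μ, dc ω c * τ (dc ω c) = 1) {l : List CV} (hl : ∀ v ∈ l, v.length = 3)
    {R : List (List CV)} (hR : ∀ x ∈ R27 L, x ≠ 1 → ∃ M ∈ R, M.length = 3 ∧ dm ω 3 M = x.1)
    (hc : Q.es E μ l R = true) {X Y g : GL (Fin 3) L} (hX : X ∈ R27 L) (hX1 : X ≠ 1)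
    (hX0 : X.1 *ᵥ Pi.single 0 1 = Pi.single 0 1) (hY : Y ∈ R27 L) (hY0 : Y.1 = m3 1 fun _ => 1)
    (hg : g ∈ UU τ (Fin 3)) (hn : ∀ x ∈ R27 L, g * x * g⁻¹ ∈ R27 L) : g ∈ setG (SS τ ω 3 l) := by
  rw [QP.es, fN_eq] at hc
  obtain ⟨u, h1, h2, h3⟩ := allV_spec (ω := ω) hc (w := g.1 *ᵥ Pi.single 0 1) fun _ => hE _
  obtain ⟨A, h4, -, h5⟩ := hR _ (hn X hX) (by simpa using hX1)
  obtain ⟨B, h6, h7, h8⟩ := hR _ (hn Y hY) (by
    rw [Ne, conj_eq_one_iff]
    rintro rfl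
    simpa [m3] using congrFun (congrFun hY0 0) 0)
  have h9 := bimp_true (List.all_eq_true.1 ((lall_eq _ _).symm.trans
    (bimp_true h3 (h.eq_herm hg h1.le h2 h2))) A h4) (h.eqV_iff.2 (by
      rw [h.dv_mv _ h1.le, h5, h2, ← cj_coe, cj_mulVec, hX0]))
  have h10 := List.all_eq_true.1 ((lall_eq _ _).symm.trans h9) B h6
  have h11 : dv ω 3 ((Q.mv B u).map Q.red) = g.1 *ᵥ Pi.single 1 1 := by
    rw [h.dv_red, h.dv_mv _ h1.le, h8, h2, ← cj_coe, cj_mulVec, hY0]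
    congr 1
    ext i
    fin_cases i <;> simp [m3]
  have h12 : dv ω 3 ((Q.mv B ((Q.mv B u).map Q.red)).map Q.red) = g.1 *ᵥ Pi.single 2 1 := by
    rw [h.dv_red, h.dv_mv _ (by simp [QP.mv, lmap_eq, h7]), h8, h11, ← cj_coe, cj_mulVec, hY0]
    congr 1
    ext i
    fin_cases i <;> simp [m3]
  rw [QP.fV_eq] at h10
  have h13 := bimp_true h10 (h.eq_herm hg h1.le h11 h2)
  rw [QP.fV_eq] at h13
  exact h.of_cols hμ hl (bimp_true h13 (h.eq_det hg h2 h11 h12)) h2 h11 h12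

end QF

end Cfsg.Agent.Asch
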