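import Mathlib
import Cfsg.Agent.Asch.U33

/-! Non-maximal geometric subgroups of `SU₃(3)` and `SU₃(5)`. -/

set_option autoImplicit false

namespace Cfsg.Agent.Asch

open Matrix Cfsg.Geo Cfsg.Agent.Herm
open scoped MatrixGroups

/-- The field with 25 elements. -/
abbrev K25 : Type := QuadraticAlgebra (ZMod 5) 2 0

instance instFactFive : Fact (Nat.Prime 5) := ⟨by norm_num⟩
instance instFactK25 : Fact (∀ r : ZMod 5, r ^ 2 ≠ 2 + 0 * r) := ⟨by decide⟩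
instance instFintypeK25 : Fintype K25 := Fintype.ofEquiv _ (QuadraticAlgebra.equivProd 2 0).symm

theorem card_K25 : Fintype.card K25 = 5 ^ 2 := by decide +kernel

local notation "τ₉" => starRingEnd Comp.K9
local notation "τ₅" => starRingEnd K25
local notation "ω₉" => Comp.w9
local notation "ω₅" => (QuadraticAlgebra.mk 0 1 : K25)
local notation "Q₉" => QP.mk 3 2 0
local notation "Q₅" => QP.mk 5 2 0

/-- All codes. -/
def allC (p : ℕ) : CV := (List.range (p * p)).map fun k => (k % p, k / p)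

/-- The elements of norm one. -/
def mu9 : CV := [(1, 0), (2, 0), (0, 1), (0, 2)]

/-- The elements of norm one. -/
def mu25 : CV := [(1, 0), (4, 0), (2, 2), (3, 2), (2, 3), (3, 3)]

/-- The standard basis. -/
def eb3 : List CV := [[(1, 0), (0, 0), (0, 0)], [(0, 0), (1, 0), (0, 0)], [(0, 0), (0, 0), (1, 0)]]

/-- An element of order 7. -/
def s9 : List CV := [
    [(0, 1), (0, 1), (1, 2)], [(0, 1), (1, 1), (1, 0)], [(1, 2), (1, 0), (0, 2)]]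

/-- An involution of `L₂(7)`. -/
def t9 : List CV := [
    [(1, 0), (2, 1), (1, 0)], [(2, 2), (0, 0), (1, 1)], [(1, 0), (1, 2), (1, 0)]]

/-- An element of `SU₃(3)`. -/
def y9 : List CV := [
    [(0, 0), (1, 1), (1, 1)], [(1, 2), (2, 0), (1, 0)], [(2, 1), (2, 0), (1, 0)]]

/-- An orbit of `L₂(7)` on points. -/
def l9 : List CV := [
    [(0, 0), (1, 1), (2, 2)], [(1, 1), (0, 0), (1, 1)], [(1, 1), (1, 1), (0, 0)],
    [(1, 0), (2, 0), (1, 1)], [(1, 0), (2, 0), (2, 1)], [(1, 0), (2, 0), (1, 2)],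
    [(1, 0), (2, 0), (2, 2)], [(1, 0), (0, 1), (2, 1)], [(1, 0), (1, 1), (2, 0)],
    [(1, 1), (0, 2), (0, 2)], [(1, 1), (0, 2), (2, 0)], [(1, 0), (2, 1), (2, 0)],
    [(1, 0), (2, 1), (0, 1)], [(1, 1), (1, 0), (1, 0)], [(1, 0), (0, 2), (2, 2)],
    [(1, 0), (1, 2), (2, 0)], [(1, 1), (2, 0), (0, 2)], [(1, 1), (2, 0), (2, 0)],
    [(1, 0), (2, 2), (2, 0)], [(1, 0), (2, 2), (0, 2)], [(1, 1), (0, 1), (0, 1)]]

/-- Its coordinates in a cyclic basis. -/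
def c9 : List CV := [
    [(2, 0), (0, 1), (1, 2)], [(2, 1), (2, 1), (2, 2)], [(1, 1), (2, 2), (0, 1)],
    [(2, 0), (0, 1), (0, 0)], [(1, 1), (0, 2), (2, 0)], [(1, 2), (2, 1), (0, 2)],
    [(0, 0), (2, 2), (2, 2)], [(1, 1), (2, 1), (2, 1)], [(2, 2), (2, 1), (1, 1)],
    [(2, 2), (1, 1), (2, 2)], [(2, 0), (0, 0), (0, 1)], [(2, 2), (1, 1), (0, 0)],
    [(0, 2), (0, 2), (2, 2)], [(0, 2), (2, 1), (1, 2)], [(0, 0), (1, 0), (0, 2)],
    [(2, 2), (2, 0), (2, 0)], [(2, 2), (2, 0), (1, 2)], [(2, 0), (1, 2), (2, 1)],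
    [(2, 2), (1, 0), (1, 2)], [(2, 1), (2, 1), (0, 0)], [(0, 0), (2, 2), (1, 1)]]

/-- An element of order 7. -/
def s25 : List CV := [
    [(0, 0), (0, 1), (1, 2)], [(0, 1), (4, 1), (1, 1)], [(4, 3), (4, 4), (3, 0)]]

/-- An element of `3.A₇`. -/
def x25 : List CV := [
    [(1, 0), (1, 0), (2, 0)], [(1, 1), (3, 3), (3, 3)], [(2, 3), (4, 1), (2, 3)]]

/-- An element of `SU₃(5)`. -/
def y25 : List CV := [
    [(3, 4), (2, 1), (0, 2)], [(3, 2), (2, 4), (0, 1)], [(1, 2), (0, 2), (3, 2)]]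

/-- An orbit of `A₇` on points. -/
def l25 : List CV := [
    [(0, 0), (0, 0), (1, 0)], [(0, 0), (1, 0), (0, 0)], [(0, 0), (0, 1), (0, 1)],
    [(0, 0), (0, 1), (0, 4)], [(0, 0), (0, 1), (4, 2)], [(0, 0), (0, 1), (4, 3)],
    [(0, 0), (0, 1), (1, 2)], [(0, 0), (0, 1), (1, 3)], [(1, 0), (0, 0), (0, 0)],
    [(0, 1), (0, 0), (0, 1)], [(0, 1), (0, 0), (0, 4)], [(0, 1), (0, 0), (4, 2)],
    [(0, 1), (0, 0), (4, 3)], [(0, 1), (0, 0), (1, 2)], [(0, 1), (0, 0), (1, 3)],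
    [(0, 1), (0, 1), (0, 0)], [(2, 1), (2, 1), (2, 1)], [(1, 0), (1, 0), (2, 0)],
    [(1, 0), (1, 0), (3, 0)], [(2, 1), (2, 1), (3, 4)], [(2, 0), (2, 0), (0, 4)],
    [(2, 0), (2, 0), (0, 1)], [(1, 0), (2, 0), (1, 0)], [(2, 0), (4, 0), (4, 0)],
    [(2, 0), (4, 0), (1, 0)], [(1, 0), (2, 0), (4, 0)], [(1, 0), (3, 0), (1, 0)],
    [(2, 0), (1, 0), (4, 0)], [(2, 0), (1, 0), (1, 0)], [(1, 0), (3, 0), (4, 0)],
    [(0, 1), (0, 4), (0, 0)], [(2, 1), (3, 4), (2, 1)], [(1, 0), (4, 0), (2, 0)],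
    [(1, 0), (4, 0), (3, 0)], [(2, 1), (3, 4), (3, 4)], [(2, 0), (3, 0), (0, 4)],
    [(2, 0), (3, 0), (0, 1)], [(0, 1), (2, 0), (2, 0)], [(0, 1), (2, 0), (3, 0)],
    [(2, 0), (2, 2), (3, 2)], [(1, 0), (1, 1), (3, 2)], [(1, 0), (1, 1), (2, 3)],
    [(2, 0), (2, 2), (2, 3)], [(2, 0), (4, 2), (1, 4)], [(2, 0), (4, 2), (4, 1)],
    [(2, 0), (1, 2), (4, 4)], [(2, 0), (1, 2), (1, 1)], [(2, 0), (3, 2), (2, 2)],
    [(1, 0), (4, 1), (2, 2)], [(1, 0), (4, 1), (3, 3)], [(2, 0), (3, 2), (3, 3)],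
    [(2, 0), (0, 4), (2, 0)], [(2, 0), (0, 4), (3, 0)], [(0, 1), (4, 1), (4, 4)],
    [(0, 1), (4, 1), (1, 1)], [(0, 1), (4, 2), (0, 0)], [(2, 0), (4, 4), (1, 2)],
    [(1, 0), (2, 2), (4, 1)], [(2, 1), (3, 1), (0, 2)], [(2, 1), (3, 1), (0, 3)],
    [(1, 0), (2, 2), (1, 4)], [(2, 0), (4, 4), (4, 3)], [(0, 1), (4, 3), (0, 0)],
    [(1, 0), (3, 2), (1, 1)], [(2, 0), (1, 4), (4, 2)], [(2, 1), (0, 2), (3, 1)],
    [(2, 1), (0, 2), (2, 4)], [(2, 0), (1, 4), (1, 3)], [(1, 0), (3, 2), (4, 4)],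
    [(0, 1), (4, 4), (4, 1)], [(0, 1), (4, 4), (1, 4)], [(2, 0), (0, 1), (2, 0)],
    [(2, 0), (0, 1), (3, 0)], [(0, 1), (1, 1), (4, 1)], [(0, 1), (1, 1), (1, 4)],
    [(0, 1), (1, 2), (0, 0)], [(1, 0), (2, 3), (1, 1)], [(2, 0), (4, 1), (4, 2)],
    [(2, 1), (0, 3), (3, 1)], [(2, 1), (0, 3), (2, 4)], [(2, 0), (4, 1), (1, 3)],
    [(1, 0), (2, 3), (4, 4)], [(0, 1), (1, 3), (0, 0)], [(2, 0), (1, 1), (1, 2)],
    [(1, 0), (3, 3), (4, 1)], [(2, 1), (2, 4), (0, 2)], [(2, 1), (2, 4), (0, 3)],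
    [(1, 0), (3, 3), (1, 4)], [(2, 0), (1, 1), (4, 3)], [(0, 1), (1, 4), (4, 4)],
    [(0, 1), (1, 4), (1, 1)], [(0, 1), (3, 0), (2, 0)], [(0, 1), (3, 0), (3, 0)],
    [(2, 0), (2, 3), (2, 2)], [(1, 0), (1, 4), (2, 2)], [(1, 0), (1, 4), (3, 3)],
    [(2, 0), (2, 3), (3, 3)], [(2, 0), (4, 3), (4, 4)], [(2, 0), (4, 3), (1, 1)],
    [(2, 0), (1, 3), (1, 4)], [(2, 0), (1, 3), (4, 1)], [(2, 0), (3, 3), (3, 2)],
    [(1, 0), (4, 4), (3, 2)], [(1, 0), (4, 4), (2, 3)], [(2, 0), (3, 3), (2, 3)]]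

/-- Its coordinates in a cyclic basis. -/
def c25 : List CV := [
    [(4, 1), (4, 2), (0, 3)], [(4, 4), (0, 4), (3, 1)], [(0, 3), (2, 4), (3, 3)],
    [(1, 0), (4, 1), (1, 3)], [(3, 1), (2, 1), (4, 0)], [(0, 0), (1, 0), (0, 0)],
    [(1, 3), (0, 0), (4, 1)], [(3, 2), (4, 4), (0, 1)], [(1, 0), (0, 0), (0, 0)],
    [(2, 0), (4, 4), (1, 0)], [(3, 2), (1, 1), (4, 0)], [(0, 3), (4, 1), (2, 2)],
    [(2, 2), (3, 0), (3, 2)], [(3, 0), (2, 0), (2, 3)], [(0, 4), (1, 4), (3, 3)],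
    [(3, 0), (3, 0), (2, 3)], [(3, 4), (0, 1), (4, 1)], [(3, 1), (3, 3), (3, 2)],
    [(2, 2), (2, 0), (3, 0)], [(3, 2), (1, 0), (2, 4)], [(3, 4), (1, 4), (0, 2)],
    [(2, 2), (4, 2), (2, 2)], [(3, 4), (4, 0), (1, 0)], [(4, 0), (1, 4), (2, 1)],
    [(2, 2), (4, 3), (2, 2)], [(0, 2), (1, 1), (1, 4)], [(2, 3), (4, 4), (4, 1)],
    [(2, 3), (1, 2), (3, 3)], [(0, 0), (4, 1), (3, 4)], [(4, 1), (1, 0), (4, 0)],
    [(2, 2), (2, 0), (3, 2)], [(1, 0), (4, 0), (3, 1)], [(0, 3), (3, 0), (2, 0)],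
    [(4, 4), (2, 2), (2, 3)], [(1, 3), (0, 4), (1, 4)], [(2, 3), (1, 3), (3, 3)],
    [(1, 1), (4, 1), (0, 3)], [(1, 1), (3, 2), (1, 3)], [(0, 2), (2, 4), (1, 1)],
    [(2, 2), (1, 2), (2, 2)], [(4, 4), (3, 3), (2, 3)], [(2, 2), (3, 0), (3, 0)],
    [(0, 0), (1, 4), (3, 4)], [(1, 1), (1, 4), (0, 3)], [(2, 2), (1, 3), (2, 2)],
    [(1, 2), (3, 3), (1, 4)], [(3, 2), (4, 0), (3, 0)], [(2, 0), (2, 4), (0, 0)],
    [(2, 0), (4, 3), (1, 3)], [(3, 0), (2, 4), (2, 1)], [(3, 0), (0, 0), (1, 3)],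
    [(2, 3), (0, 4), (3, 3)], [(1, 4), (4, 1), (3, 1)], [(3, 1), (0, 0), (3, 4)],
    [(0, 1), (1, 2), (0, 0)], [(2, 0), (1, 1), (1, 0)], [(3, 1), (4, 1), (2, 4)],
    [(3, 4), (1, 0), (1, 0)], [(1, 0), (1, 0), (3, 1)], [(3, 4), (0, 4), (4, 1)],
    [(2, 3), (1, 1), (4, 1)], [(2, 3), (0, 1), (3, 3)], [(0, 4), (4, 1), (3, 3)],
    [(0, 0), (4, 3), (4, 2)], [(3, 2), (1, 0), (3, 0)], [(2, 1), (2, 0), (0, 0)],
    [(4, 2), (0, 0), (3, 2)], [(3, 3), (3, 3), (4, 1)], [(3, 0), (3, 1), (2, 1)],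
    [(1, 1), (2, 3), (1, 3)], [(0, 0), (2, 4), (4, 4)], [(3, 1), (1, 4), (2, 4)],
    [(2, 2), (0, 1), (2, 2)], [(0, 2), (3, 1), (1, 1)], [(4, 1), (3, 2), (4, 2)],
    [(0, 3), (1, 4), (2, 2)], [(4, 0), (2, 4), (3, 4)], [(1, 2), (2, 2), (1, 4)],
    [(0, 0), (0, 0), (2, 3)], [(2, 1), (3, 0), (0, 0)], [(1, 3), (4, 0), (2, 0)],
    [(2, 0), (1, 2), (1, 3)], [(3, 2), (4, 4), (4, 0)], [(2, 2), (0, 4), (2, 2)],
    [(0, 2), (4, 4), (1, 4)], [(1, 3), (0, 1), (1, 4)], [(3, 2), (4, 0), (2, 4)],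
    [(4, 1), (4, 0), (4, 0)], [(1, 4), (1, 4), (3, 1)], [(0, 1), (4, 3), (0, 0)],
    [(2, 1), (0, 0), (2, 1)], [(0, 0), (3, 1), (4, 4)], [(4, 1), (2, 3), (4, 2)],
    [(1, 0), (0, 0), (4, 2)], [(4, 0), (3, 1), (3, 4)], [(0, 0), (1, 2), (4, 2)],
    [(2, 0), (3, 1), (0, 0)], [(1, 3), (1, 0), (2, 0)], [(3, 3), (2, 2), (4, 1)],
    [(2, 3), (4, 2), (3, 3)], [(3, 4), (4, 1), (0, 2)], [(4, 0), (4, 1), (2, 1)],
    [(0, 3), (2, 0), (2, 0)], [(3, 1), (2, 2), (3, 2)], [(2, 3), (4, 3), (3, 3)]]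

/-- An orbit of `M₁₀` on points. -/
def m25 : List CV := [
    [(0, 0), (0, 1), (0, 4)], [(0, 0), (0, 1), (4, 3)], [(0, 0), (0, 1), (1, 3)],
    [(0, 1), (0, 0), (0, 4)], [(0, 1), (0, 0), (4, 3)], [(0, 1), (0, 0), (1, 3)],
    [(1, 0), (1, 0), (2, 0)], [(2, 1), (2, 1), (3, 4)], [(2, 0), (2, 0), (0, 4)],
    [(2, 0), (2, 0), (0, 1)], [(1, 0), (2, 0), (1, 0)], [(2, 0), (1, 0), (1, 0)],
    [(0, 1), (0, 4), (0, 0)], [(2, 1), (3, 4), (2, 1)], [(2, 1), (3, 4), (3, 4)],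
    [(0, 1), (2, 0), (2, 0)], [(2, 0), (2, 2), (2, 3)], [(2, 0), (4, 2), (4, 1)],
    [(2, 0), (1, 2), (4, 4)], [(1, 0), (4, 1), (2, 2)], [(2, 0), (0, 4), (2, 0)],
    [(0, 1), (4, 1), (4, 4)], [(2, 0), (4, 4), (1, 2)], [(1, 0), (2, 2), (4, 1)],
    [(2, 1), (3, 1), (0, 2)], [(2, 0), (4, 4), (4, 3)], [(0, 1), (4, 3), (0, 0)],
    [(2, 1), (0, 2), (3, 1)], [(2, 1), (0, 2), (2, 4)], [(0, 1), (4, 4), (4, 1)],
    [(2, 0), (0, 1), (2, 0)], [(0, 1), (1, 1), (1, 4)], [(2, 0), (4, 1), (4, 2)],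
    [(2, 1), (0, 3), (2, 4)], [(2, 0), (4, 1), (1, 3)], [(1, 0), (2, 3), (4, 4)],
    [(0, 1), (1, 3), (0, 0)], [(2, 1), (2, 4), (0, 2)], [(2, 1), (2, 4), (0, 3)],
    [(0, 1), (1, 4), (1, 1)], [(0, 1), (3, 0), (3, 0)], [(2, 0), (2, 3), (2, 2)],
    [(2, 0), (4, 3), (4, 4)], [(2, 0), (1, 3), (4, 1)], [(1, 0), (4, 4), (2, 3)]]

/-- An element of `3.M₁₀`. -/
def t25 : List CV := [
    [(0, 0), (0, 1), (0, 1)], [(1, 3), (4, 4), (1, 1)], [(4, 3), (1, 4), (4, 1)]]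

/-- The non-trivial elements of `3^(1+2)`. -/
def r25 : List (List CV) := [
    [[(0, 0), (0, 0), (1, 0)], [(1, 0), (0, 0), (0, 0)], [(0, 0), (1, 0), (0, 0)]],
    [[(0, 0), (0, 0), (1, 0)], [(2, 2), (0, 0), (0, 0)], [(0, 0), (2, 3), (0, 0)]],
    [[(0, 0), (0, 0), (1, 0)], [(2, 3), (0, 0), (0, 0)], [(0, 0), (2, 2), (0, 0)]],
    [[(0, 0), (0, 0), (2, 2)], [(1, 0), (0, 0), (0, 0)], [(0, 0), (2, 3), (0, 0)]],
    [[(0, 0), (0, 0), (2, 2)], [(2, 2), (0, 0), (0, 0)], [(0, 0), (2, 2), (0, 0)]],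
    [[(0, 0), (0, 0), (2, 2)], [(2, 3), (0, 0), (0, 0)], [(0, 0), (1, 0), (0, 0)]],
    [[(0, 0), (0, 0), (2, 3)], [(1, 0), (0, 0), (0, 0)], [(0, 0), (2, 2), (0, 0)]],
    [[(0, 0), (0, 0), (2, 3)], [(2, 2), (0, 0), (0, 0)], [(0, 0), (1, 0), (0, 0)]],
    [[(0, 0), (0, 0), (2, 3)], [(2, 3), (0, 0), (0, 0)], [(0, 0), (2, 3), (0, 0)]],
    [[(0, 0), (1, 0), (0, 0)], [(0, 0), (0, 0), (1, 0)], [(1, 0), (0, 0), (0, 0)]],
    [[(0, 0), (1, 0), (0, 0)], [(0, 0), (0, 0), (2, 2)], [(2, 3), (0, 0), (0, 0)]],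
    [[(0, 0), (1, 0), (0, 0)], [(0, 0), (0, 0), (2, 3)], [(2, 2), (0, 0), (0, 0)]],
    [[(0, 0), (2, 2), (0, 0)], [(0, 0), (0, 0), (1, 0)], [(2, 3), (0, 0), (0, 0)]],
    [[(0, 0), (2, 2), (0, 0)], [(0, 0), (0, 0), (2, 2)], [(2, 2), (0, 0), (0, 0)]],
    [[(0, 0), (2, 2), (0, 0)], [(0, 0), (0, 0), (2, 3)], [(1, 0), (0, 0), (0, 0)]],
    [[(0, 0), (2, 3), (0, 0)], [(0, 0), (0, 0), (1, 0)], [(2, 2), (0, 0), (0, 0)]],
    [[(0, 0), (2, 3), (0, 0)], [(0, 0), (0, 0), (2, 2)], [(1, 0), (0, 0), (0, 0)]],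
    [[(0, 0), (2, 3), (0, 0)], [(0, 0), (0, 0), (2, 3)], [(2, 3), (0, 0), (0, 0)]],
    [[(1, 0), (0, 0), (0, 0)], [(0, 0), (2, 2), (0, 0)], [(0, 0), (0, 0), (2, 3)]],
    [[(1, 0), (0, 0), (0, 0)], [(0, 0), (2, 3), (0, 0)], [(0, 0), (0, 0), (2, 2)]],
    [[(2, 2), (0, 0), (0, 0)], [(0, 0), (1, 0), (0, 0)], [(0, 0), (0, 0), (2, 3)]],
    [[(2, 2), (0, 0), (0, 0)], [(0, 0), (2, 2), (0, 0)], [(0, 0), (0, 0), (2, 2)]],
    [[(2, 2), (0, 0), (0, 0)], [(0, 0), (2, 3), (0, 0)], [(0, 0), (0, 0), (1, 0)]],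
    [[(2, 3), (0, 0), (0, 0)], [(0, 0), (1, 0), (0, 0)], [(0, 0), (0, 0), (2, 2)]],
    [[(2, 3), (0, 0), (0, 0)], [(0, 0), (2, 2), (0, 0)], [(0, 0), (0, 0), (1, 0)]],
    [[(2, 3), (0, 0), (0, 0)], [(0, 0), (2, 3), (0, 0)], [(0, 0), (0, 0), (2, 3)]]]

theorem inv_K9 : Herm.Inv τ₉ := ⟨by decide +kernel, ω₉, by decide +kernel⟩
theorem inv_K25 : Herm.Inv τ₅ := ⟨by decide +kernel, ω₅, by decide +kernel⟩

set_option synthInstance.maxSize 1000 in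
theorem qf_K9 : QF Q₉ τ₉ ω₉ :=
  ⟨by decide, by decide +kernel, by decide +kernel, by decide +kernel, by decide +kernel⟩

set_option synthInstance.maxSize 1000 in
theorem qf_K25 : QF Q₅ τ₅ ω₅ :=
  ⟨by decide, by decide +kernel, by decide +kernel, by decide +kernel, by decide +kernel⟩

theorem singer9 : QP.singer Q₉ 3 7 (allC 3) mu9 s9 [(1, 0)] l9 c9 (fun _ _ => true) = true := by
  decide +kernel

theorem orth9 : QP.cols Q₉ [(0, 0), (1, 0), (2, 0)] mu9 eb3 = true := by decide +kernel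

theorem singer25 : QP.singer Q₅ 3 7 (allC 5) mu25 s25 [(1, 0)] l25 c25 (QP.exDet Q₅) = true := by
  decide +kernel

theorem orth25 : QP.cols Q₅ [(0, 0), (1, 0), (2, 0), (3, 0), (4, 0)] mu25 l25 = true := by
  decide +kernel

theorem frame25 : QP.cols Q₅ ((0, 0) :: mu25) mu25 l25 = true := by decide +kernel

theorem es25 : QP.es Q₅ (allC 5) mu25 m25 r25 = true := by decide +kernel

theorem uG_mem_UU {L : Type*} [Field L] {τ : L →+* L} (h : ∀ a, τ (τ a) = a)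
    {A : Matrix (Fin 3) (Fin 3) L} (h1 : Aᵀ * A.map τ = 1)
    (h2 : A 0 0 * A 1 1 * A 2 2 - A 0 0 * A 1 2 * A 2 1 - A 0 1 * A 1 0 * A 2 2 +
      A 0 1 * A 1 2 * A 2 0 + A 0 2 * A 1 0 * A 2 1 - A 0 2 * A 1 1 * A 2 0 = 1) :
    uG h A h1 ∈ UU τ (Fin 3) := mem_UU.2 ⟨h1, (det_fin_three _).trans h2⟩

theorem QF.not_mem {L : Type*} [Field L] [Finite L] {Q : QP} {τ : L →+* L} {ω : L} (h : QF Q τ ω)
    {n : ℕ} {μ : CV} (hμ : ∀ c, c * τ c = 1 → ∃ x ∈ μ, dc ω x = c) {l y : List CV} {v : CV}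
    (h1 : v ∈ l) (h2 : v.length ≤ n)
    (hv : (l.all fun e => μ.all fun c => !Q.eqV n (Q.mv y v) (e.map (Q.mul c))) = true)
    {g : GL (Fin n) L} (hg : g.1 = dm ω n y) : g ∉ setG (SS τ ω n l) := fun e =>
  h.not_ss hμ hv (by
    rw [h.dv_mv _ h2, ← hg]; exact e _ ⟨v, h1, 1, by simp, (one_smul _ _).symm⟩)

theorem mu9_norm : ∀ c ∈ mu9, dc ω₉ c * τ₉ (dc ω₉ c) = 1 := by decide +kernel
theorem mu9_all : ∀ c, c * τ₉ c = 1 → ∃ x ∈ mu9, dc ω₉ x = c := by decide +kernel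
theorem mu25_norm : ∀ c ∈ mu25, dc ω₅ c * τ₅ (dc ω₅ c) = 1 := by decide +kernel
theorem mu25_all : ∀ c, c * τ₅ c = 1 → ∃ x ∈ mu25, dc ω₅ x = c := by decide +kernel

/-- An element of `3.A₇`. -/
def xA7 : GL (Fin 3) K25 := uG inv_K25.1 (dm ω₅ 3 x25) (by decide +kernel)

theorem not_max_A7 {H : Subgroup (GL (Fin 3) K25)} (h1 : H ≤ setG (SS τ₅ ω₅ 3 l25))
    (h2 : xA7 ∉ H) : ¬ IsMaximalIn (UU τ₅ (Fin 3)) H :=
  not_max_of_le h1 (uG_mem_UU _ _ (by decide +kernel))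
    (qf_K25.pres mu25_norm (by decide +kernel) (by decide +kernel) rfl) h2
    (uG_mem_UU inv_K25.1 (A := dm ω₅ 3 y25) (by decide +kernel) (by decide +kernel))
    (qf_K25.not_mem mu25_all (v := l25.getD 0 []) (by decide +kernel) (by decide)
      (by decide +kernel) rfl)

variable {F : Type*} [Field F] [Fintype F] {q : ℕ}

theorem su3_frame (hF : Fintype.card F = q ^ 2) {D : Fin 3 → Submodule F (Fin 3 → F)}
    (hD : IsNondegenerateMDecomposition (bf (frob (natCard_of_card hF)) (1 : GL (Fin 3) F).1) 1 D)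
    (hH : IsMaximalIn (GU 3 F q ⊓ specialLinear (Fin 3) F)
      (decompositionStabilizer D ⊓ (GU 3 F q ⊓ specialLinear (Fin 3) F))) : q ≠ 5 := by
  rintro rfl
  obtain ⟨H, h1, h2⟩ := frame_reduce hF card_K25 inv_K25 hD hH
  exact not_max_A7 (fun g hg => qf_K25.mono mu25_norm mu25_all (by decide +kernel) frame25
    (h1.1.le hg) (h2 g hg)) (fun h => absurd (h2 _ h 0 0 1) (by decide +kernel)) h1

theorem su3_field (hF : Fintype.card F = q ^ 2)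
    {K : Subalgebra F (Matrix (Fin 3) (Fin 3) F)} (hK : IsFieldSubalgebra 3 K)
    (ha : AdjSt (frob (natCard_of_card hF)) 1 K)
    (hH : IsMaximalIn (GU 3 F q ⊓ specialLinear (Fin 3) F)
      (subalgebraNormalizer K ⊓ (GU 3 F q ⊓ specialLinear (Fin 3) F))) : q ≠ 3 ∧ q ≠ 5 := by
  constructor <;> rintro rfl
  · have h0 : dm ω₉ 3 s9 ^ 7 = 1 := by decide +kernel
    obtain ⟨H, h1, h2⟩ := singer_reduce hF Comp.card_K9 inv_K9 le_rfl hK ha hH (p := 7)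
      (by norm_num) (by norm_num) (by decide +kernel) (by decide +kernel)
      (s := uG inv_K9.1 (dm ω₉ 3 s9) (by decide +kernel)) (mem_Iso_one.2 (by decide +kernel)) h0
      (by decide +kernel)
    exact not_max_of_le (fun g hg => (h2 g hg).1.elim fun i hi => qf_K9.singer (by decide +kernel)
      mu9_norm (by decide) (by decide) h0 singer9 (h1.1.le hg).1 hi.1 hi.2 fun _ _ _ => rfl)
      (uG_mem_UU inv_K9.1 (A := dm ω₉ 3 t9) (by decide +kernel) (by decide +kernel))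
      (qf_K9.pres mu9_norm (by decide +kernel) (by decide +kernel) rfl)
      (fun h => absurd (h2 _ h).2 (by decide +kernel))
      (uG_mem_UU inv_K9.1 (A := dm ω₉ 3 y9) (by decide +kernel) (by decide +kernel))
      (qf_K9.not_mem mu9_all (v := l9.getD 0 []) (by decide +kernel) (by decide)
        (by decide +kernel) rfl) h1
  · have h0 : dm ω₅ 3 s25 ^ 7 = 1 := by decide +kernel
    obtain ⟨H, h1, h2⟩ := singer_reduce hF card_K25 inv_K25 le_rfl hK ha hH (p := 7)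
      (by norm_num) (by norm_num) (by decide +kernel) (by decide +kernel)
      (s := uG inv_K25.1 (dm ω₅ 3 s25) (by decide +kernel)) (mem_Iso_one.2 (by decide +kernel)) h0
      (by decide +kernel)
    exact not_max_A7 (fun g hg => (h2 g hg).1.elim fun i hi => qf_K25.singer (by decide +kernel)
      mu25_norm (by decide) (by decide) h0 singer25 (h1.1.le hg).1 hi.1 hi.2 fun _ _ =>
        qf_K25.exDet (mem_UU.1 (h1.1.le hg)).2) (fun h => absurd (h2 _ h).2 (by decide +kernel)) h1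

theorem su3_orth (hF : Fintype.card F = q ^ 2) (hq : 3 ≤ q) (ho : Odd q) {P : GL (Fin 3) F}
    (hP : (cg (frob (natCard_of_card hF)) P.1 (1 : GL (Fin 3) F).1).map (frob (natCard_of_card hF)) =
      cg (frob (natCard_of_card hF)) P.1 (1 : GL (Fin 3) F).1)
    (hH : IsMaximalIn (GU 3 F q ⊓ specialLinear (Fin 3) F)
      (subfieldSubgroup (fixF (frob (natCard_of_card hF))) P ⊓
        (GU 3 F q ⊓ specialLinear (Fin 3) F))) : 7 ≤ q := by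
  by_contra h
  obtain rfl | rfl : q = 3 ∨ q = 5 := by obtain ⟨k, rfl⟩ := ho; omega
  · obtain ⟨H, h1, h2⟩ := orth_reduce hF Comp.card_K9 inv_K9 ho hP hH
    exact not_max_of_le (fun g hg => (h2 g hg).elim fun a ha => qf_K9.orth mu9_norm inv_K9.1
      (by decide +kernel) (by decide +kernel) orth9 (h1.1.le hg) ha.1 ha.2)
      (uG_mem_UU inv_K9.1 (A := dm ω₉ 3 [[(0, 1)], [(0, 0), (0, 2)], [(0, 0), (0, 0), (1, 0)]])
        (by decide +kernel) (by decide +kernel))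
      (qf_K9.pres mu9_norm (by decide +kernel) (by decide +kernel) rfl)
      (fun h => absurd (h2 _ h) (by decide +kernel))
      (uG_mem_UU inv_K9.1 (A := dm ω₉ 3 y9) (by decide +kernel) (by decide +kernel))
      (qf_K9.not_mem mu9_all (v := eb3.getD 0 []) (by decide +kernel) (by decide)
        (by decide +kernel) rfl) h1
  · obtain ⟨H, h1, h2⟩ := orth_reduce hF card_K25 inv_K25 ho hP hH
    exact not_max_A7 (fun g hg => (h2 g hg).elim fun a ha => qf_K25.orth mu25_norm inv_K25.1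
      (by decide +kernel) (by decide +kernel) orth25 (h1.1.le hg) ha.1 ha.2)
      (fun h => absurd (h2 _ h) (by decide +kernel)) h1

set_option synthInstance.maxSize 1000 in
theorem r25_aux : ∀ a : K25, a ^ 3 = 1 → ∀ b : K25, b ^ 3 = 1 → ∀ c : K25, a * b * c = 1 →
    ∀ s, m3 s ![a, b, c] ≠ 1 → ∃ M ∈ r25, M.length = 3 ∧ dm ω₅ 3 M = m3 s ![a, b, c] := by
  decide +kernel

theorem su3_es (hF : Fintype.card F = q ^ 2) (hq : 3 ≤ q) {p : ℕ} (hp : p.Prime) (h1 : q = p)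
    (h2 : p % 3 = 2) {R : Subgroup (GL (Fin 3) F)} (h : ES 3 R)
    (hI : R ≤ Iso (frob (natCard_of_card hF)) (1 : GL (Fin 3) F).1) (hc : Nat.card R = 3 ^ 3)
    (hH : IsMaximalIn (GU 3 F q ⊓ specialLinear (Fin 3) F)
      (subgroupNormalizer R ⊓ (GU 3 F q ⊓ specialLinear (Fin 3) F))) : 11 ≤ p := by
  by_contra h3
  obtain rfl : p = 5 := by
    subst h1
    have : q ≠ 8 := by rintro rfl; exact absurd hp (by decide)
    omega
  subst h1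
  obtain ⟨H, h4, h5⟩ := es_reduce hF card_K25 inv_K25 (ω := ⟨2, 2⟩) (by decide +kernel) h hI hc hH
  let X := uG inv_K25.1 (m3 0 ![1, ⟨2, 2⟩, ⟨2, 3⟩]) (by decide +kernel)
  have hX : X ∈ R27 K25 := ⟨0, _, by decide +kernel, by decide +kernel, rfl⟩
  refine not_max_of_le (fun g hg => qf_K25.es (by decide +kernel) mu25_norm (by decide +kernel)
    ?_ es25 hX (fun e => absurd (congrArg Units.val e) (by decide +kernel)) (by decide +kernel)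
    (Y := uG inv_K25.1 (m3 1 fun _ => 1) (by decide +kernel)) ⟨1, _, by simp, by simp, rfl⟩ rfl
    (h4.1.le hg) (h5 g hg))
    (uG_mem_UU inv_K25.1 (A := dm ω₅ 3 t25) (by decide +kernel) (by decide +kernel))
    (qf_K25.pres mu25_norm (by decide +kernel) (by decide +kernel) rfl) (fun e => ?_)
    (uG_mem_UU inv_K25.1 (A := dm ω₅ 3 y25) (by decide +kernel) (by decide +kernel))
    (qf_K25.not_mem mu25_all (v := m25.getD 0 []) (by decide +kernel) (by decide)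
      (by decide +kernel) rfl) h4
  · rintro x ⟨s, d, h6, h7, h8⟩ h9
    have : d = ![d 0, d 1, d 2] := by funext i; fin_cases i <;> rfl
    rw [h8, this]
    exact r25_aux _ (h6 0) _ (h6 1) _ h7 s fun e => h9 (Units.ext (by rw [h8, this, e]; rfl))
  · obtain ⟨s, d, -, -, h6⟩ := h5 _ e X hX
    have h7 : Mono (m3 s d) := mono_of_fun (· + s) fun i j e => if_neg e
    rw [← h6] at h7
    exact absurd (h7 0 0 1) (by unfold X; decide +kernel)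

end Cfsg.Agent.Asch
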